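import Mathlib
import Cfsg.Agent.CharLib.MGroup
import Cfsg.Agent.S0089
import Cfsg.Agent.H25.CliffGe
import Cfsg.Agent.Lib.Helper23.DegLib

/-!
Relative M-groups over a normal subgroup with abelian Sylow subgroups, part 1.
-/

set_option autoImplicit false

namespace Cfsg.Agent.Lib.Helper23.MG

open Module Representation Cfsg Cfsg.Agent.CharLib Cfsg.Agent.CharLib.H2
open scoped ComplexConjugate Pointwise

universe u

/-- all Sylow subgroups are commutative -/
def ASyl (N : Type*) [Group N] : Prop :=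
  ∀ (p : ℕ) [Fact p.Prime] (P : Sylow p N), ∀ a ∈ P, ∀ b ∈ P, a * b = b * a

theorem ASyl.of_injective {M N : Type*} [Group M] [Group N] (h : ASyl N) (f : M →* N)
    (hf : Function.Injective f) : ASyl M := by
  intro p _ P a ha b hb
  have hP : IsPGroup p (P.1.map f) := P.2.map f
  obtain ⟨Q, hQ⟩ := hP.exists_le_sylow
  apply hf
  rw [map_mul, map_mul]
  exact h p Q _ (hQ (Subgroup.mem_map_of_mem f ha)) _ (hQ (Subgroup.mem_map_of_mem f hb))

theorem ASyl.of_surjective {N Q : Type*} [Group N] [Group Q] [Finite N] (h : ASyl N) (f : N →* Q)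
    (hf : Function.Surjective f) : ASyl Q := by
  intro p _ P a ha b hb
  have : Finite Q := Finite.of_surjective f hf
  obtain ⟨P0⟩ : Nonempty (Sylow p N) := inferInstance
  obtain ⟨g, hg⟩ := MulAction.exists_smul_eq Q (P0.mapSurjective hf) P
  have key : ∀ x ∈ P, ∃ y ∈ P0, x = g * f y * g⁻¹ := by
    intro x hx
    rw [← hg] at hx
    have hx' : x ∈ MulAut.conj g • ((P0.mapSurjective hf : Sylow p Q) : Subgroup Q) := hx
    rw [Subgroup.mem_smul_pointwise_iff_exists] at hx'
    obtain ⟨s, hs, rfl⟩ := hx'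
    obtain ⟨y, hy, rfl⟩ := hs
    exact ⟨y, hy, rfl⟩
  obtain ⟨y, hy, rfl⟩ := key a ha
  obtain ⟨z, hz, rfl⟩ := key b hb
  have := h p P0 y hy z hz
  have h2 : f y * f z = f z * f y := by rw [← map_mul, ← map_mul, this]
  calc g * f y * g⁻¹ * (g * f z * g⁻¹) = g * (f y * f z) * g⁻¹ := by group
    _ = g * (f z * f y) * g⁻¹ := by rw [h2]
    _ = _ := by group

/-- a constituent on a subgroup with commuting image is linear -/
theorem linear_of_comm {G : Type u} [Group G] [Fintype G] {d : ℕ}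
    (ρ : Representation ℂ G (Fin d → ℂ)) (A : Subgroup G) (θ : A → ℂ) (hθ : IsIrrCharacter A θ)
    (c : ℂ) (hc : c ≠ 0) (hres : ∀ x : A, ρ.character x = c * θ x)
    (hcomm : ∀ x ∈ A, ∀ y ∈ A, ρ x * ρ y = ρ y * ρ x) : θ 1 = 1 ∧ ∀ a : A, ‖θ a‖ = 1 := by
  classical
  obtain ⟨d', σ, hσ, hσch⟩ := hθ
  haveI := hσ
  have hσcomm : ∀ x y : A, σ x ∘ₗ σ y = σ y ∘ₗ σ x := by
    intro x y
    have hρc : ρ ((x * y * x⁻¹ * y⁻¹ : A) : G) = LinearMap.id := by
      have e := hcomm x x.2 y y.2
      have e2 : ρ ((x * y * x⁻¹ * y⁻¹ : A) : G) =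
          ρ x * ρ y * ρ ((x : G)⁻¹) * ρ ((y : G)⁻¹) := by
        simp [map_mul]
      rw [e2, e, mul_assoc (ρ y), ← map_mul, mul_inv_cancel, map_one, mul_one, ← map_mul,
        mul_inv_cancel, map_one]
      rfl
    have hχc : ρ.character ((x * y * x⁻¹ * y⁻¹ : A) : G) = ρ.character 1 := by
      rw [Representation.char_one]
      exact (character_eq_finrank_iff ρ _).mpr hρc
    have hθc : θ (x * y * x⁻¹ * y⁻¹) = θ 1 := by
      have e1 := hres (x * y * x⁻¹ * y⁻¹)
      have e2 := hres 1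
      rw [hχc] at e1
      rw [Subgroup.coe_one, e1] at e2
      exact mul_left_cancel₀ hc e2
    have hσc : σ (x * y * x⁻¹ * y⁻¹) = LinearMap.id := by
      apply (character_eq_finrank_iff σ _).mp
      rw [hσch, hθc, ← hσch, Representation.char_one]
    have e3 : x * y = (x * y * x⁻¹ * y⁻¹) * (y * x) := by group
    calc σ x ∘ₗ σ y = σ (x * y) := (map_mul σ x y).symm
      _ = σ (x * y * x⁻¹ * y⁻¹) * σ (y * x) := by rw [← map_mul, ← e3]
      _ = σ y ∘ₗ σ x := by rw [hσc, map_mul]; rfl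
  have hd' := finrank_eq_one_of_comm_image σ hσcomm
  refine ⟨by rw [← hσch, Representation.char_one, hd']; simp, fun a => ?_⟩
  rw [← hσch]
  have h2 := (norm_character_eq_iff σ a).mpr
    ⟨_, Cfsg.Agent.CharLib.L.end_eq_trace_smul hd' (σ a)⟩
  rw [h2, hd']; simp

/-- on a normal subgroup with commuting image and invariant constituents, `ρ` is scalar -/
theorem scalar_of_comm_of_invariant {G : Type u} [Group G] [Fintype G] {d : ℕ}
    (ρ : Representation ℂ G (Fin d → ℂ)) (hχ : IsIrrCharacter G ρ.character)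
    (A : Subgroup G) (hA : A.Normal)
    (hinv : ∀ (_ : Fintype A) (θ : A → ℂ), IsIrrCharacter A θ →
      classInner (fun a : A => ρ.character a) θ ≠ 0 → inertia hA θ = ⊤)
    (hcomm : ∀ x ∈ A, ∀ y ∈ A, ρ x * ρ y = ρ y * ρ x) : A ≤ scalarSub ρ := by
  classical
  letI : Fintype A := Fintype.ofFinite A
  obtain ⟨m, hm, hm'⟩ := exists_mult (isCharacter_restrict (isCharacter_of_irr hχ) A)
  have hex : ∃ θ : IrrCharacter A, m θ ≠ 0 := by
    by_contra hcon
    push Not at hcon
    have h2 := congrFun hm 1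
    simp only [hcon, Nat.cast_zero, zero_smul, Finset.sum_const_zero, Pi.zero_apply] at h2
    exact irr_apply_one_ne_zero ⟨_, hχ⟩ h2
  obtain ⟨θ, hθm⟩ := hex
  have hmθ : (m θ : ℂ) ≠ 0 := by exact_mod_cast hθm
  have hcon : classInner (fun a : A => ρ.character a) (θ : A → ℂ) ≠ 0 := by rw [hm' θ]; exact hmθ
  have hT := hinv _ θ θ.2 hcon
  have hinvθ : ∀ (g : G) (n : A),
      (θ : A → ℂ) ⟨g * n * g⁻¹, hA.conj_mem n n.2 g⟩ = (θ : A → ℂ) n := by
    intro g n
    have h2 : g ∈ inertia hA (θ : A → ℂ) := by rw [hT]; trivial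
    exact congrFun h2 n
  have hres := Cfsg.Agent.H6.restrict_eq_smul_of_invariant A hA hχ θ.2 hcon hinvθ
  rw [hm' θ] at hres
  have hresa : ∀ x : A, ρ.character x = (m θ : ℂ) * (θ : A → ℂ) x := fun x => congrFun hres x
  obtain ⟨hθ1, hθa⟩ := linear_of_comm ρ A θ θ.2 _ hmθ hresa hcomm
  intro a haA
  rw [mem_scalarSub, ← norm_character_eq_iff]
  have e1 := hresa ⟨a, haA⟩
  have e2 := hresa 1
  rw [hθ1, mul_one, Subgroup.coe_one, Representation.char_one] at e2
  have e3 : finrank ℂ (Fin d → ℂ) = m θ := by exact_mod_cast e2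
  rw [e3]
  rw [show ρ.character a = (m θ : ℂ) * (θ : A → ℂ) ⟨a, haA⟩ from e1, norm_mul, hθa, mul_one]
  simp

theorem apply_one_eq_one_of_quasi {G : Type u} [Group G] [Fintype G] [Group.IsSolvable G]
    (N : Subgroup G) [hN : N.Normal] (hab : ASyl N) {χ : G → ℂ} (hχ : IsIrrCharacter G χ)
    (hχN : IsIrrCharacter N (fun n : N => χ n))
    (hinv : ∀ (A : Subgroup G) (hA : A.Normal) (_ : Fintype A) (θ : A → ℂ), A ≤ N →
      IsIrrCharacter A θ → classInner (fun a : A => χ a) θ ≠ 0 → inertia hA θ = ⊤) : χ 1 = 1 := by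
  classical
  obtain ⟨d, ρ, hirr, hch⟩ := id hχ
  subst hch
  let f : N →* Module.End ℂ (Fin d → ℂ) := (ρ : G →* Module.End ℂ (Fin d → ℂ)).comp N.subtype
  obtain ⟨K0, hK0⟩ : ∃ K0 : Subgroup N, K0 = f.ker := ⟨_, rfl⟩
  have hK0n : K0.Normal := by rw [hK0]; infer_instance
  have hmemK : ∀ x : N, x ∈ K0 ↔ ρ x = 1 := by
    intro x
    rw [hK0, MonoidHom.mem_ker]
    rfl
  have hQ : commutator (N ⧸ K0) ⊓ Subgroup.center (N ⧸ K0) = ⊥ := by
    apply Cfsg.Agent.S0089.result
    intro p hp P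
    haveI : Fact p.Prime := ⟨hp⟩
    have := hab.of_surjective (QuotientGroup.mk' K0) (QuotientGroup.mk'_surjective K0) p P
    exact ⟨⟨fun a b => Subtype.ext (this a a.2 b b.2)⟩⟩
  have comm_of : ∀ (D : Subgroup N), ⁅D, D⁆ ≤ K0 → ∀ x ∈ D.map N.subtype, ∀ y ∈ D.map N.subtype,
      ρ x * ρ y = ρ y * ρ x := by
    rintro D hD _ ⟨x, hx, rfl⟩ _ ⟨y, hy, rfl⟩
    have h1 : x * y * x⁻¹ * y⁻¹ ∈ K0 := hD (Subgroup.commutator_mem_commutator hx hy)
    rw [hmemK] at h1
    have h2 : ((x * y * x⁻¹ * y⁻¹ : N) : G) = (x : G) * y * (x : G)⁻¹ * (y : G)⁻¹ := by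
      simp
    rw [h2] at h1
    have h3 : (x : G) * y = ((x : G) * y * (x : G)⁻¹ * (y : G)⁻¹) * (y * x) := by group
    show ρ (x : G) * ρ (y : G) = ρ (y : G) * ρ (x : G)
    rw [← map_mul, h3, map_mul, h1, one_mul, map_mul]
  have key : ∀ i, derivedSeries N (i + 2) ≤ K0 → derivedSeries N (i + 1) ≤ K0 := by
    intro i hi
    have hA : ((derivedSeries N (i + 1)).map N.subtype).Normal := by
      have : (derivedSeries N (i + 1)).Characteristic := derivedSeries_characteristic N (i + 1)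
      exact ConjAct.normal_of_characteristic_of_normal
    have hsc := scalar_of_comm_of_invariant ρ hχ _ hA
      (fun inst θ hθ hc => hinv _ hA inst θ (Subgroup.map_subtype_le _) hθ hc)
      (comm_of _ hi)
    intro a ha
    have h1 : (QuotientGroup.mk' K0 a) ∈ commutator (N ⧸ K0) ⊓ Subgroup.center (N ⧸ K0) := by
      rw [Subgroup.mem_inf]
      constructor
      · have h2 : a ∈ commutator N := by
          have := derivedSeries_antitone N (show 1 ≤ i + 1 by omega) ha
          rwa [derivedSeries_one] at this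
        have h3 : (commutator N).map (QuotientGroup.mk' K0) ≤ commutator (N ⧸ K0) := by
          rw [commutator_def, Subgroup.map_commutator, commutator_def]
          exact Subgroup.commutator_mono le_top le_top
        exact h3 (Subgroup.mem_map_of_mem _ h2)
      · rw [Subgroup.mem_center_iff]
        intro q
        obtain ⟨n, rfl⟩ := QuotientGroup.mk'_surjective K0 q
        rw [← map_mul, ← map_mul]
        apply (QuotientGroup.eq).2
        rw [hmemK]
        obtain ⟨ω, hω⟩ := hsc (Subgroup.mem_map_of_mem N.subtype ha)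
        have hω' : ρ (a : G) = ω • LinearMap.id := hω
        have h5 : ρ ((n : G) * a) = ρ ((a : G) * n) := by
          rw [map_mul, map_mul, hω']
          ext v
          simp
        have h6 : (((n * a)⁻¹ * (a * n) : N) : G) = ((n : G) * a)⁻¹ * ((a : G) * n) := by simp
        rw [h6, map_mul, ← h5, ← map_mul, inv_mul_cancel, map_one]
    rw [hQ, Subgroup.mem_bot] at h1
    exact (QuotientGroup.eq_one_iff a).1 h1
  have hder : ∀ m, derivedSeries N m ≤ K0 → derivedSeries N 1 ≤ K0 := by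
    intro m
    induction m with
    | zero => exact fun h => (derivedSeries_antitone N (Nat.zero_le 1)).trans h
    | succ m ih =>
      intro h
      cases m with
      | zero => exact h
      | succ j => exact ih (key j h)
  obtain ⟨m, hm⟩ := (Group.isSolvable_def N).1 inferInstance
  have h1 : derivedSeries N 1 ≤ K0 := hder m (by rw [hm]; exact bot_le)
  have h2 := comm_of ⊤ (by rw [derivedSeries_one, commutator_def] at h1; exact h1)
  have h3 : (⊤ : Subgroup N).map N.subtype = N := by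
    rw [← MonoidHom.range_eq_map, Subgroup.range_subtype]
  rw [h3] at h2
  have := (linear_of_comm ρ N _ hχN 1 one_ne_zero (fun x => (one_mul _).symm) h2).1
  exact this

end Cfsg.Agent.Lib.Helper23.MG
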