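import Mathlib
import Cfsg.Agent.Lib.Helper23.MG1

/-!
Abelian-by-nilpotent groups are M-groups.
-/

set_option autoImplicit false

namespace Cfsg.Agent.Lib.Helper23.AN

open Module Representation Cfsg Cfsg.Agent.CharLib Cfsg.Agent.CharLib.H2
open Cfsg.Agent.Lib.Helper23.MG
open scoped ComplexConjugate Pointwise

universe u v

variable {Q : Type v} [Group Q] [Group.IsNilpotent Q]

theorem apply_one_eq_one_of_quasi {G : Type u} [Group G] [Fintype G] (f : G →* Q)
    (hker : ∀ a ∈ f.ker, ∀ b ∈ f.ker, a * b = b * a) {χ : G → ℂ} (hχ : IsIrrCharacter G χ)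
    (hinv : ∀ (A : Subgroup G) (hA : A.Normal) (_ : Fintype A) (θ : A → ℂ), IsIrrCharacter A θ →
      classInner (fun a : A => χ a) θ ≠ 0 → inertia hA θ = ⊤) : χ 1 = 1 := by
  classical
  obtain ⟨d, ρ, hirr, hch⟩ := id hχ
  subst hch
  haveI := hirr
  set Z := scalarSub ρ with hZdef
  have hkZ : f.ker ≤ Z := scalar_of_comm_of_invariant ρ hχ f.ker inferInstance
    (fun inst θ hθ hc => hinv _ _ inst θ hθ hc)
    (fun x hx y hy => by rw [← map_mul, ← map_mul, hker x hx y hy])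
  by_contra h1
  have hZ : Z ≠ ⊤ := by
    intro hZ
    apply h1
    have hcomm : ∀ x y, ρ x ∘ₗ ρ y = ρ y ∘ₗ ρ x := by
      intro x y
      obtain ⟨ω, hω⟩ : x ∈ Z := by rw [hZ]; trivial
      rw [hω]; ext v; simp
    have := finrank_eq_one_of_comm_image ρ hcomm
    rw [Representation.char_one, this]; simp
  have hback : ∀ g : G, f g ∈ Z.map f → g ∈ Z := by
    rintro g ⟨z, hz, hzg⟩
    have : g * z⁻¹ ∈ f.ker := by
      rw [MonoidHom.mem_ker, map_mul, map_inv, hzg, mul_inv_cancel]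
    have h2 := Z.mul_mem (hkZ this) hz
    simpa using h2
  have hZR : (Z.map f).subgroupOf f.range ≠ ⊤ := by
    intro h
    apply hZ
    rw [eq_top_iff]
    intro g _
    apply hback
    have : (⟨f g, g, rfl⟩ : f.range) ∈ (Z.map f).subgroupOf f.range := by rw [h]; trivial
    exact Subgroup.mem_subgroupOf.1 this
  obtain ⟨⟨_, a, rfl⟩, haZ', hac'⟩ := exists_notMem_commutator_mem _ hZR
  have haZ : a ∉ Z := fun h => haZ' (Subgroup.mem_subgroupOf.2 (Subgroup.mem_map_of_mem f h))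
  have hac : ∀ y : G, a * y * a⁻¹ * y⁻¹ ∈ Z := by
    intro y
    apply hback
    have := Subgroup.mem_subgroupOf.1 (hac' ⟨f y, y, rfl⟩)
    simpa using this
  have hcen : (QuotientGroup.mk a : G ⧸ Z) ∈ Subgroup.center (G ⧸ Z) := by
    rw [Subgroup.mem_center_iff]
    intro q
    induction q using QuotientGroup.induction_on with
    | H y =>
      rw [← QuotientGroup.mk_mul, ← QuotientGroup.mk_mul, QuotientGroup.eq]
      have h2 := hac y⁻¹
      have h3 := (scalarSub_normal ρ).conj_mem _ (Z.inv_mem h2) a⁻¹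
      have e : (y * a)⁻¹ * (a * y) = a⁻¹ * (a * y⁻¹ * a⁻¹ * y⁻¹⁻¹)⁻¹ * a⁻¹⁻¹ := by group
      rw [e]; exact h3
  have hn := zpowers_normal_of_mem_center hcen
  set A : Subgroup G :=
    (Subgroup.zpowers (QuotientGroup.mk a : G ⧸ Z)).comap (QuotientGroup.mk' Z) with hAdef
  have hA : A.Normal := hn.comap _
  have haA : a ∈ A := Subgroup.mem_comap.mpr (Subgroup.mem_zpowers _)
  have hform : ∀ x ∈ A, ∃ (k : ℤ) (ω : ℂ), ρ x = ω • ρ (a ^ k) := by
    intro x hx
    obtain ⟨k, hk⟩ := Subgroup.mem_zpowers_iff.mp (Subgroup.mem_comap.mp hx)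
    have h2 : (a ^ k)⁻¹ * x ∈ Z := by
      rw [← QuotientGroup.eq, QuotientGroup.mk_zpow]; exact hk
    obtain ⟨ω, hω⟩ := h2
    refine ⟨k, ω, ?_⟩
    have e : x = a ^ k * ((a ^ k)⁻¹ * x) := by group
    conv_lhs => rw [e, map_mul, hω]
    ext v; simp
  have hcommA : ∀ x ∈ A, ∀ y ∈ A, ρ x * ρ y = ρ y * ρ x := by
    intro x hx y hy
    obtain ⟨k, α, hα⟩ := hform x hx
    obtain ⟨l, β, hβ⟩ := hform y hy
    rw [hα, hβ]
    have e : ρ (a ^ k) * ρ (a ^ l) = ρ (a ^ l) * ρ (a ^ k) := by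
      rw [← map_mul, ← map_mul, ← zpow_add, ← zpow_add, add_comm]
    rw [smul_mul_smul_comm, smul_mul_smul_comm, e, mul_comm α β]
  exact haZ (scalar_of_comm_of_invariant ρ hχ A hA
    (fun inst θ hθ hc => hinv _ _ inst θ hθ hc) hcommA haA)

theorem monomial_aux (n : ℕ) : ∀ (G : Type u) [Group G] [Fintype G] (f : G →* Q),
    (∀ a ∈ f.ker, ∀ b ∈ f.ker, a * b = b * a) → Nat.card G = n → ∀ χ : G → ℂ,
    IsIrrCharacter G χ →
    ∃ (H : Subgroup G) (lam : H →* ℂˣ), χ = indFun H (fun h => (lam h : ℂ)) := by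
  induction n using Nat.strong_induction_on with
  | _ n ih =>
  intro G _ _ f hker hn χ hχ
  by_cases hinv : ∀ (A : Subgroup G) (hA : A.Normal) (_ : Fintype A) (θ : A → ℂ),
      IsIrrCharacter A θ → classInner (fun a : A => χ a) θ ≠ 0 → inertia hA θ = ⊤
  · have h1 := apply_one_eq_one_of_quasi f hker hχ hinv
    set lam := Cfsg.Agent.H6.linCharHom χ ⟨isCharacter_of_irr hχ, h1⟩ with hlam
    refine ⟨⊤, lam.comp (⊤ : Subgroup G).subtype, ?_⟩
    funext g
    rw [indFun_top]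
    · rfl
    · intro x y
      exact isClassFunction_of_char (isCharacter_of_irr hχ) x y
  · push Not at hinv
    obtain ⟨A, hA, instA, θ, hθ, hc, hT⟩ := hinv
    obtain ⟨T, hT, ψ, hψ, hind⟩ : ∃ T : Subgroup G, T ≠ ⊤ ∧ ∃ ψ : T → ℂ, IsIrrCharacter T ψ ∧
        indFun T ψ = χ := ⟨_, hT, exists_irr_inertia_indFun hA hχ hθ hc⟩
    letI : Fintype T := Fintype.ofFinite _
    have hlt : Nat.card T < n := by
      rw [← hn]
      have h1 := T.card_mul_index
      have h2 : T.index ≠ 1 := fun h => hT (Subgroup.index_eq_one.mp h)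
      have h3 : T.index ≠ 0 := Subgroup.index_ne_zero_of_finite
      have h4 : 0 < Nat.card T := Nat.card_pos
      have h5 : 2 ≤ T.index := by omega
      nlinarith
    obtain ⟨H', lam, hlam⟩ := ih _ hlt T (f.comp T.subtype) (by
      intro a ha b hb
      exact Subtype.ext (hker a ha b hb)) rfl ψ hψ
    refine ⟨H'.map T.subtype, lam.comp
      (H'.equivMapOfInjective T.subtype T.subtype_injective).symm.toMonoidHom, ?_⟩
    rw [← hind, hlam, indFun_indFun]
    rfl

end Cfsg.Agent.Lib.Helper23.AN
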