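import Mathlib
import Cfsg.Agent.Lib.Helper23.AN1
import Cfsg.Agent.Lib.Helper23.CharDeg2
import Cfsg.Agent.S4456
import Cfsg.Agent.S0887

/-!
Groups with character degrees `1` and `m` are abelian-by-nilpotent.
-/

set_option autoImplicit false

namespace Cfsg.Agent.Lib.Helper23.AN

open Cfsg Cfsg.Agent.CharLib Cfsg.Agent.CharLib.H2 Cfsg.Agent.Lib.Helper23
open scoped ComplexConjugate

universe u

theorem exists_hom {G : Type u} [Group G] [Finite G] (m : ℕ)
    (hcd : ∀ χ : IrrCharacter G, charDegree (χ : G → ℂ) = 1 ∨ charDegree (χ : G → ℂ) = m) :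
    ∃ (Q : Type u) (_ : Group Q) (_ : Group.IsNilpotent Q) (f : G →* Q),
      ∀ a ∈ f.ker, ∀ b ∈ f.ker, a * b = b * a := by
  classical
  cases nonempty_fintype G
  have h : ∀ p : m.primeFactors, ∃ N : Subgroup G, N.Normal ∧ (Nat.card N).Coprime p ∧
      ∃ k : ℕ, N.index = (p : ℕ) ^ k := by
    intro p
    apply Cfsg.Agent.S4456.result p (Nat.prime_of_mem_primeFactors p.2)
    intro χ hχ
    rw [(hcd χ).resolve_left hχ]
    exact Nat.dvd_of_mem_primeFactors p.2
  choose N hNn hNc hNi using h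
  haveI : ∀ p, (N p).Normal := hNn
  have hnil : ∀ p, Group.IsNilpotent (G ⧸ N p) := by
    intro p
    haveI : Fact (p : ℕ).Prime := ⟨Nat.prime_of_mem_primeFactors p.2⟩
    obtain ⟨k, hk⟩ := hNi p
    have : IsPGroup (p : ℕ) (G ⧸ N p) := IsPGroup.of_card (n := k) (by
      rw [← hk, Subgroup.index_eq_card])
    exact this.isNilpotent
  refine ⟨∀ p : m.primeFactors, G ⧸ N p, inferInstance, inferInstance,
    MonoidHom.pi (fun p => QuotientGroup.mk' (N p)), ?_⟩
  obtain ⟨Hh, hHh⟩ : ∃ Hh : Subgroup G, Hh = (MonoidHom.pi (fun p => QuotientGroup.mk' (N p))).ker :=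
    ⟨_, rfl⟩
  rw [← hHh]
  have hHn : Hh.Normal := by rw [hHh]; infer_instance
  have hle : ∀ p, Hh ≤ N p := by
    intro p a ha
    rw [hHh, MonoidHom.mem_ker] at ha
    have := congrFun ha p
    exact (QuotientGroup.eq_one_iff a).1 this
  letI : Fintype Hh := Fintype.ofFinite Hh
  have hlin : ∀ θ : IrrCharacter Hh, (θ : Hh → ℂ) 1 = 1 := by
    intro θ
    obtain ⟨χ, hχ⟩ := exists_irr_over Hh θ.2
    obtain ⟨hdvd, -⟩ := Cfsg.Agent.S0887.result Hh χ χ.2 θ θ.2 hχ _ _ (charDegree_cast_irr χ).symm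
      (charDegree_cast_irr θ).symm
    have h1 : charDegree (θ : Hh → ℂ) = 1 := by
      by_contra hne
      obtain ⟨q, hq, hqd⟩ := Nat.exists_prime_and_dvd hne
      rcases hcd χ with hc | hc
      · rw [hc] at hdvd
        exact hne (Nat.dvd_one.1 hdvd)
      · rw [hc] at hdvd
        have hm0 : m ≠ 0 := by
          rintro rfl
          exact (charDegree_pos_irr χ).ne' hc
        have hqm : q ∈ m.primeFactors := Nat.mem_primeFactors.2 ⟨hq, hqd.trans hdvd, hm0⟩
        have h2 : q ∣ Nat.card (N ⟨q, hqm⟩) :=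
          (hqd.trans (charDegree_dvd_card θ)).trans (Subgroup.card_dvd_of_le (hle ⟨q, hqm⟩))
        have h3 := hNc ⟨q, hqm⟩
        exact hq.one_lt.ne' (Nat.eq_one_of_dvd_coprimes h3 h2 (dvd_refl q))
    rw [← charDegree_cast_irr, h1]
    simp
  intro a ha b hb
  exact congrArg Subtype.val (comm_of_all_linear hlin ⟨a, ha⟩ ⟨b, hb⟩)

end Cfsg.Agent.Lib.Helper23.AN
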