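import Mathlib
import Cfsg.Agent.Lib.Helper23.MG1

/-!
Relative M-groups over a normal subgroup with abelian Sylow subgroups, part 2.
-/

set_option autoImplicit false

namespace Cfsg.Agent.Lib.Helper23.MG

open Module Representation Cfsg Cfsg.Agent.CharLib Cfsg.Agent.CharLib.H2
open Cfsg.Agent.Lib.Helper10 Cfsg.Agent.H25 Cfsg.Agent.Lib.Helper23
open scoped ComplexConjugate Pointwise

universe u

theorem eq_zero_of_apply_one {X : Type u} [Group X] [Finite X] {χ : X → ℂ}
    (h : IsCharacter X χ) (h1 : χ 1 = 0) : χ = 0 := by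
  obtain ⟨n, ρ, rfl⟩ := h
  ext g
  have h2 := norm_character_le ρ g
  rw [Representation.char_one] at h1
  have h3 : (Module.finrank ℂ (Fin n → ℂ) : ℝ) = 0 := by exact_mod_cast h1
  rw [h3] at h2
  simpa using norm_le_zero_iff.1 h2

/-- if `χ = ψ^G` restricts irreducibly to `N`, then `ψ` restricts irreducibly to `T ⊓ N` -/
theorem restrict_irr_inf {G : Type u} [Group G] [Fintype G] (N T : Subgroup G)
    {χ : G → ℂ} (hχ : IsIrrCharacter G χ) (hχN : IsIrrCharacter N (fun n : N => χ n))
    (ψ : T → ℂ) (hψ : IsIrrCharacter T ψ) (hind : indFun T ψ = χ) :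
    IsIrrCharacter (T ⊓ N : Subgroup G)
      (fun w : (T ⊓ N : Subgroup G) => ψ ⟨(w : G), (inf_le_left : T ⊓ N ≤ T) w.2⟩) := by
  classical
  obtain ⟨W, hW⟩ : ∃ W, W = T ⊓ N := ⟨_, rfl⟩
  have hWT : W ≤ T := hW ▸ inf_le_left
  have hWN : W ≤ N := hW ▸ inf_le_right
  suffices h : IsIrrCharacter W (fun w : W => ψ ⟨(w : G), hWT w.2⟩) by
    subst hW
    exact h
  letI : Fintype W := Fintype.ofFinite W
  letI : Fintype T := Fintype.ofFinite T
  letI : Fintype N := Fintype.ofFinite N
  have hψW : IsCharacter W (fun w : W => ψ ⟨(w : G), hWT w.2⟩) :=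
    isCharacter_comp (isCharacter_of_irr hψ) (Subgroup.inclusion hWT)
  have hψ1 : ψ 1 ≠ 0 := irr_apply_one_ne_zero ⟨ψ, hψ⟩
  have hne : (fun w : W => ψ ⟨(w : G), hWT w.2⟩) ≠ 0 := by
    intro h
    exact hψ1 (congrFun h 1)
  obtain ⟨β, hβ⟩ := exists_constituent hψW hne
  have h1 : classInner (fun t : T => χ t) ψ ≠ 0 := by
    have := frobenius_reciprocity T ψ (isClassFunction_of_irr hχ)
    rw [hind, classInner_irr_self hχ] at this
    rw [← classInner_conj_symm, ← this]
    simp
  have h2 : classInner (fun n : W => χ n) (β : W → ℂ) ≠ 0 :=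
    over_of_constituent hWT β.2 (isCharacter_of_irr hχ) (ψ := ⟨ψ, hψ⟩) h1 hβ
  have h3 : classInner (indFun (W.subgroupOf N) (resSub W N β)) (fun n : N => χ n) ≠ 0 := by
    rw [classInner_indFun_resSub hWN β (isClassFunction_of_irr hχN)]
    exact (map_ne_zero _).2 h2
  have hβ' := isIrrCharacter_resSub hWN β.2
  have h4 := charDegree_le_of_constituent (isCharacter_indFun _ (isCharacter_of_irr hβ')) hχN h3
  have e1 : ((charDegree (fun n : N => χ n) : ℕ) : ℂ) = (T.index : ℂ) * (charDegree ψ : ℕ) := by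
    rw [charDegree_cast (isCharacter_of_irr hχN), charDegree_cast (isCharacter_of_irr hψ)]
    rw [← indFun_apply_one, hind]
    rfl
  have e2 : ((charDegree (indFun (W.subgroupOf N) (resSub W N β)) : ℕ) : ℂ) =
      ((W.subgroupOf N).index : ℂ) * (charDegree (β : W → ℂ) : ℕ) := by
    rw [charDegree_cast (isCharacter_indFun _ (isCharacter_of_irr hβ')),
      charDegree_cast (isCharacter_of_irr β.2), indFun_apply_one]
    rfl
  have e1' : charDegree (fun n : N => χ n) = T.index * charDegree ψ := by exact_mod_cast e1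
  have e2' : charDegree (indFun (W.subgroupOf N) (resSub W N β)) =
      (W.subgroupOf N).index * charDegree (β : W → ℂ) := by exact_mod_cast e2
  have h5 : (W.subgroupOf N).index ≤ T.index := by
    change W.relIndex N ≤ T.index
    rw [hW, Subgroup.inf_relIndex_right, ← Subgroup.relIndex_top_right T]
    apply Subgroup.relIndex_le_of_le_right le_top
    rw [Subgroup.relIndex_top_right]
    exact Subgroup.index_ne_zero_of_finite
  have h6 : charDegree ψ ≤ charDegree (β : W → ℂ) := by
    have h7 : 0 < T.index := Nat.pos_of_ne_zero Subgroup.index_ne_zero_of_finite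
    rw [e1', e2'] at h4
    have h8 : T.index * charDegree ψ ≤ T.index * charDegree (β : W → ℂ) :=
      h4.trans (Nat.mul_le_mul_right _ h5)
    exact Nat.le_of_mul_le_mul_left h8 h7
  have h7 := isCharacter_sub_irr hψW β.2 hβ
  obtain ⟨n, hn⟩ := isCharacter_apply_one h7
  have h8 : ((charDegree ψ : ℕ) : ℂ) = ((charDegree (β : W → ℂ) + n : ℕ) : ℂ) := by
    push_cast
    rw [charDegree_cast (isCharacter_of_irr hψ), charDegree_cast (isCharacter_of_irr β.2), ← hn]
    simp only [Pi.sub_apply]
    have : (⟨((1 : W) : G), hWT (1 : W).2⟩ : T) = 1 := rfl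
    rw [this]
    ring
  have h9 : charDegree ψ = charDegree (β : W → ℂ) + n := by exact_mod_cast h8
  have h10 : n = 0 := by omega
  rw [h10, Nat.cast_zero] at hn
  have h11 := eq_zero_of_apply_one h7 hn
  rw [sub_eq_zero] at h11
  rw [h11]
  exact β.2

theorem monomial_aux (n : ℕ) : ∀ (G : Type u) [Group G] [Fintype G] [Group.IsSolvable G]
    (N : Subgroup G) [N.Normal], ASyl N → Nat.card G = n → ∀ χ : G → ℂ, IsIrrCharacter G χ →
    IsIrrCharacter N (fun n : N => χ n) →
    ∃ (H : Subgroup G) (lam : H →* ℂˣ), χ = indFun H (fun h => (lam h : ℂ)) := by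
  induction n using Nat.strong_induction_on with
  | _ n ih =>
  intro G _ _ _ N _ hab hn χ hχ hχN
  by_cases hinv : ∀ (A : Subgroup G) (hA : A.Normal) (_ : Fintype A) (θ : A → ℂ), A ≤ N →
      IsIrrCharacter A θ → classInner (fun a : A => χ a) θ ≠ 0 → inertia hA θ = ⊤
  · have h1 := apply_one_eq_one_of_quasi N hab hχ hχN hinv
    set lam := Cfsg.Agent.H6.linCharHom χ ⟨isCharacter_of_irr hχ, h1⟩ with hlam
    refine ⟨⊤, lam.comp (⊤ : Subgroup G).subtype, ?_⟩
    funext g
    rw [indFun_top]
    · rfl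
    · intro x y
      exact isClassFunction_of_char (isCharacter_of_irr hχ) x y
  · push Not at hinv
    obtain ⟨A, hA, instA, θ, hAN, hθ, hc, hT⟩ := hinv
    obtain ⟨T, hT, ψ, hψ, hind⟩ : ∃ T : Subgroup G, T ≠ ⊤ ∧ ∃ ψ : T → ℂ, IsIrrCharacter T ψ ∧
        indFun T ψ = χ := ⟨_, hT, exists_irr_inertia_indFun hA hχ hθ hc⟩
    letI : Fintype T := Fintype.ofFinite _
    have hlt : Nat.card T < n := by
      rw [← hn]
      have h1 := T.card_mul_index
      have h2 : T.index ≠ 1 := fun h => hT (Subgroup.index_eq_one.mp h)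
      have h3 : T.index ≠ 0 := Subgroup.index_ne_zero_of_finite
      have h4 : 0 < Nat.card T := Nat.card_pos
      have h5 : 2 ≤ T.index := by omega
      nlinarith
    have hirr := restrict_irr_inf N T hχ hχN ψ hψ hind
    let f : N.subgroupOf T →* (T ⊓ N : Subgroup G) :=
      { toFun := fun x => ⟨((x : T) : G), ⟨(x : T).2, Subgroup.mem_subgroupOf.1 x.2⟩⟩
        map_one' := rfl
        map_mul' := fun _ _ => rfl }
    have hf : Function.Surjective f := fun w => ⟨⟨⟨w, w.2.1⟩, w.2.2⟩, rfl⟩
    have hirr' : IsIrrCharacter (N.subgroupOf T) (fun x : N.subgroupOf T => ψ x) :=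
      isIrrCharacter_comp_of_surjective hirr f hf
    let j : N.subgroupOf T →* N :=
      { toFun := fun x => ⟨((x : T) : G), Subgroup.mem_subgroupOf.1 x.2⟩
        map_one' := rfl
        map_mul' := fun _ _ => rfl }
    have hj : Function.Injective j := by
      intro x y hxy
      apply Subtype.ext
      apply Subtype.ext
      exact congrArg (fun z : N => (z : G)) hxy
    have hab' : ASyl (N.subgroupOf T) := hab.of_injective j hj
    obtain ⟨H', lam, hlam⟩ := ih _ hlt T (N.subgroupOf T) hab' rfl ψ hψ hirr'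
    refine ⟨H'.map T.subtype, lam.comp
      (H'.equivMapOfInjective T.subtype T.subtype_injective).symm.toMonoidHom, ?_⟩
    rw [← hind, hlam, indFun_indFun]
    rfl

end Cfsg.Agent.Lib.Helper23.MG
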