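import Mathlib
import Cfsg.Agent.Lib.Helper23.AN2
import Cfsg.Agent.Lib.Helper23.MG2

/-!
Two character degrees: the derived subgroup is abelian (Taketa's argument).
-/

set_option autoImplicit false

namespace Cfsg.Agent.Lib.Helper23.AN

open Cfsg Cfsg.Agent.CharLib Cfsg.Agent.CharLib.H2 Cfsg.Agent.CharLib.L Cfsg.Agent.Lib.Helper23
open Cfsg.Agent.Lib.Helper23.MG
open scoped ComplexConjugate

universe u

theorem linear_commutator {G : Type u} [Group G] (γ : IrrCharacter G) (h : (γ : G → ℂ) 1 = 1)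
    (g : G) (hg : g ∈ commutator G) : (γ : G → ℂ) g = 1 := by
  have h1 := Abelianization.commutator_subset_ker
    (Cfsg.Agent.H6.linCharHom (γ : G → ℂ) ⟨isCharacter_of_irr γ.2, h⟩) hg
  rw [MonoidHom.mem_ker] at h1
  have h2 := congrArg (fun u : ℂˣ => (u : ℂ)) h1
  simpa using h2

theorem commutator_le {G : Type u} [Group G] [Fintype G] (m : ℕ) (hm1 : m ≠ 1)
    (hcd : ∀ χ : IrrCharacter G, charDegree (χ : G → ℂ) = 1 ∨ charDegree (χ : G → ℂ) = m)
    (U : Subgroup G) (hU : U.index = m) : commutator G ≤ U := by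
  classical
  letI : Fintype U := Fintype.ofFinite U
  obtain ⟨P, hP⟩ : ∃ P : G → ℂ, P = indFun U (fun _ => 1) := ⟨_, rfl⟩
  have hPc : IsCharacter G P := hP ▸ isCharacter_indFun U (isCharacter_of_irr isIrrCharacter_one)
  have hP1 : P 1 = m := by rw [hP, indFun_apply_one, hU, mul_one]
  have hPone : classInner P (fun _ => 1) ≠ 0 := by
    rw [hP, frobenius_reciprocity U _ (isClassFunction_of_irr isIrrCharacter_one)]
    have : classInner (fun _ : U => (1 : ℂ)) (fun _ : U => (1 : ℂ)) = 1 :=
      classInner_irr_self isIrrCharacter_one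
    rw [this]
    exact one_ne_zero
  have hlin : ∀ γ : IrrCharacter G, classInner P (γ : G → ℂ) ≠ 0 → (γ : G → ℂ) 1 = 1 := by
    intro γ hγ
    rcases hcd γ with h | h
    · rw [← charDegree_cast_irr, h]; simp
    · exfalso
      have h7 := isCharacter_sub_irr hPc γ.2 hγ
      have h8 : (P - (γ : G → ℂ)) 1 = 0 := by
        rw [Pi.sub_apply, hP1, ← charDegree_cast_irr, h, sub_self]
      have h9 := eq_zero_of_apply_one h7 h8
      rw [sub_eq_zero] at h9
      rw [h9] at hPone
      have h10 : (γ : G → ℂ) = fun _ => 1 := by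
        by_contra hne
        exact hPone (classInner_irr_ne γ.2 isIrrCharacter_one hne)
      have h11 := charDegree_cast_irr γ
      rw [h, h10] at h11
      have h12 : (m : ℂ) = 1 := h11
      exact hm1 (by exact_mod_cast h12)
  obtain ⟨mu, hmu, hmu2⟩ := exists_mult hPc
  intro g hg
  have hPg : P g = P 1 := by
    rw [hmu]
    simp only [Finset.sum_apply, Pi.smul_apply, smul_eq_mul]
    refine Finset.sum_congr rfl fun γ _ => ?_
    by_cases h0 : mu γ = 0
    · rw [h0]; simp
    · have : classInner P (γ : G → ℂ) ≠ 0 := by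
        rw [hmu2]; exact_mod_cast h0
      rw [linear_commutator γ (hlin γ this) g hg, hlin γ this]
  have hext : ∀ y : G, extendByZero U (fun _ => (1 : ℂ)) y = if y ∈ U then 1 else 0 := by
    intro y
    split_ifs with hy
    · rw [extendByZero_of_mem _ _ hy]
    · rw [extendByZero_of_not_mem _ _ hy]
  rw [hP1, hP, indFun_apply] at hPg
  simp only [hext, Finset.sum_boole] at hPg
  have hUc : (Nat.card U : ℂ) ≠ 0 := card_subgroup_ne_zero U
  have h12 : ((Finset.univ.filter (fun x : G => x⁻¹ * g * x ∈ U)).card : ℂ) =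
      ((Nat.card U * m : ℕ) : ℂ) := by
    push_cast
    rw [← hPg]
    field_simp
  have h13 : (Finset.univ.filter (fun x : G => x⁻¹ * g * x ∈ U)).card = Nat.card G := by
    rw [← U.card_mul_index, hU]
    exact_mod_cast h12
  rw [Nat.card_eq_fintype_card, ← Finset.card_univ] at h13
  have h14 := Finset.eq_of_subset_of_card_le (Finset.filter_subset _ _) h13.ge
  have h15 : (1 : G) ∈ Finset.univ.filter (fun x : G => x⁻¹ * g * x ∈ U) := by
    rw [h14]; exact Finset.mem_univ _
  simpa using (Finset.mem_filter.1 h15).2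

theorem comm_commutator {G : Type u} [Group G] [Finite G] (m : ℕ) (hm1 : m ≠ 1)
    (hcd : ∀ χ : IrrCharacter G, charDegree (χ : G → ℂ) = 1 ∨ charDegree (χ : G → ℂ) = m) :
    ∀ a ∈ commutator G, ∀ b ∈ commutator G, a * b = b * a := by
  classical
  cases nonempty_fintype G
  obtain ⟨Q, _, _, f, hf⟩ := exists_hom m hcd
  intro a ha b hb
  have key : ∀ χ : IrrCharacter G, (χ : G → ℂ) (a * b * a⁻¹ * b⁻¹) = (χ : G → ℂ) 1 := by
    intro χ
    rcases hcd χ with h | h
    · have h1 : (χ : G → ℂ) 1 = 1 := by rw [← charDegree_cast_irr, h]; simp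
      rw [irr_commutator_of_apply_one_eq_one χ h1, h1]
    · obtain ⟨U, lam, hlam⟩ := monomial_aux _ G f hf rfl χ χ.2
      have hU : U.index = m := by
        have h1 := charDegree_cast_irr χ
        rw [h, hlam, indFun_apply_one] at h1
        simp only [map_one, Units.val_one, mul_one] at h1
        exact_mod_cast h1.symm
      have hle := commutator_le m hm1 hcd U hU
      rw [hlam, indFun_apply, indFun_apply]
      congr 1
      refine Finset.sum_congr rfl fun x _ => ?_
      have hn : (commutator G).Normal := inferInstance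
      have ha' : x⁻¹ * a * x ∈ U := hle (by
        have := hn.conj_mem a ha x⁻¹
        simpa using this)
      have hb' : x⁻¹ * b * x ∈ U := hle (by
        have := hn.conj_mem b hb x⁻¹
        simpa using this)
      have e1 : x⁻¹ * (a * b * a⁻¹ * b⁻¹) * x =
          (((⟨_, ha'⟩ : U) * ⟨_, hb'⟩ * (⟨_, ha'⟩ : U)⁻¹ * (⟨_, hb'⟩ : U)⁻¹ : U) : G) := by
        simp only [Subgroup.coe_mul, Subgroup.coe_inv]
        group
      have e2 : x⁻¹ * 1 * x = ((1 : U) : G) := by simp
      rw [e1, e2, extendByZero_coe, extendByZero_coe]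
      simp only [map_mul, map_inv, map_one]
      rw [mul_comm (lam ⟨_, ha'⟩) (lam ⟨_, hb'⟩)]
      simp
  have h1 := sum_irr_one_mul (G := G) (a * b * a⁻¹ * b⁻¹)
  have h2 : ∑ χ : IrrCharacter G, (χ : G → ℂ) 1 * (χ : G → ℂ) (a * b * a⁻¹ * b⁻¹) =
      ∑ χ : IrrCharacter G, (χ : G → ℂ) 1 ^ 2 := by
    apply Finset.sum_congr rfl
    intro χ _
    rw [key χ, sq]
  rw [h2, sum_irr_sq] at h1
  by_cases hc : a * b * a⁻¹ * b⁻¹ = 1
  · have : a * b = (a * b * a⁻¹ * b⁻¹) * (b * a) := by group
    rw [this, hc, one_mul]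
  · rw [if_neg hc] at h1
    exact absurd h1 card_ne_zero_complex

end Cfsg.Agent.Lib.Helper23.AN
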