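import Mathlib
import Cfsg.Agent.Lib.Helper23.DegLib
import Cfsg.Agent.CharLib.Eigen
import Cfsg.Agent.CharLib.Rep
import Cfsg.Agent.H25.Codeg

/-!
The character-theoretic key lemma for the Broline–Garrison theorem.
-/

set_option autoImplicit false

namespace Cfsg.Agent.Lib.Helper23.BG

open Cfsg Cfsg.Agent.CharLib Cfsg.Agent.CharLib.H2 Cfsg.Agent.CharLib.L Cfsg.Agent.Lib.Helper23
open Cfsg.Agent.H25
open scoped ComplexConjugate

theorem eq_of_add_eq {M : Type*} [Group M] [Finite M] {α β : M → ℂ} (hα : IsCharacter M α)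
    (hβ : IsCharacter M β) {x : M} (h : α x + β x = α 1 + β 1) : α x = α 1 := by
  obtain ⟨a, ρ1, rfl⟩ := hα
  obtain ⟨b, ρ2, rfl⟩ := hβ
  have h1 : ρ1.character 1 = ((a : ℕ) : ℂ) := by
    rw [Representation.char_one, Module.finrank_fin_fun]
  have h2 : ρ2.character 1 = ((b : ℕ) : ℂ) := by
    rw [Representation.char_one, Module.finrank_fin_fun]
  have n1 := norm_character_le ρ1 x
  have n2 := norm_character_le ρ2 x
  rw [Module.finrank_fin_fun] at n1 n2
  rw [h1, h2] at h
  rw [h1]
  have r1 := Complex.re_le_norm (ρ1.character x)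
  have r2 := Complex.re_le_norm (ρ2.character x)
  have hre := congrArg Complex.re h
  simp only [Complex.add_re, Complex.natCast_re] at hre
  have hre1 : (ρ1.character x).re = a := by linarith
  have hsq := Complex.sq_norm (ρ1.character x)
  rw [Complex.normSq_apply, hre1] at hsq
  have hn0 : 0 ≤ ‖ρ1.character x‖ := norm_nonneg _
  have him : (ρ1.character x).im = 0 := by
    have : (ρ1.character x).im * (ρ1.character x).im ≤ 0 := by nlinarith
    nlinarith [mul_self_nonneg (ρ1.character x).im]
  apply Complex.ext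
  · simp [hre1]
  · simp [him]

/-- restriction to a supplement of the kernel is irreducible -/
theorem isIrrCharacter_restrict_of_sup {G : Type*} [Group G] [Finite G] (χ : IrrCharacter G)
    (K M : Subgroup G) [K.Normal] (hK : ∀ g ∈ K, (χ : G → ℂ) g = (χ : G → ℂ) 1) (hKM : K ⊔ M = ⊤) :
    IsIrrCharacter M (fun m : M => (χ : G → ℂ) m) := by
  obtain ⟨n, ρ, hρ, hχ⟩ := χ.2
  refine ⟨n, ρ.comp M.subtype, ?_, ?_⟩
  · obtain ⟨hnt, hirr⟩ := (isIrreducible_iff ρ).1 hρ
    rw [isIrreducible_iff]
    refine ⟨hnt, fun U hU => hirr U ?_⟩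
    intro g v hv
    have hg : g ∈ ((K ⊔ M : Subgroup G) : Set G) := by rw [hKM]; trivial
    rw [Subgroup.normal_mul] at hg
    obtain ⟨k, hk, m, hm, rfl⟩ := Set.mem_mul.1 hg
    have h1 : ρ k = LinearMap.id := by
      rw [← character_eq_finrank_iff, hχ, hK k hk, ← hχ, Representation.char_one]
    rw [map_mul, h1]
    exact hU ⟨m, hm⟩ v hv
  · funext m
    rw [← hχ]
    rfl

theorem key {G : Type*} [Group G] [Finite G] (χ : IrrCharacter G) (K M : Subgroup G) [K.Normal]
    (hK : ∀ g : G, g ∈ K ↔ (χ : G → ℂ) g = (χ : G → ℂ) 1) (hM : IsCoatom M) (hKM : K ⊔ M = ⊤) :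
    (∃ ψ : IrrCharacter G, charDegree (χ : G → ℂ) < charDegree (ψ : G → ℂ) ∧ kerSub ψ < K) ∨
    ∀ m ∈ M, (χ : G → ℂ) m ≠ 0 → m ∈ M.normalCore := by
  classical
  cases nonempty_fintype G
  set θ : M → ℂ := fun m : M => (χ : G → ℂ) m with hθ
  have hθi : IsIrrCharacter M θ := isIrrCharacter_restrict_of_sup χ K M (fun g hg => (hK g).1 hg) hKM
  have hΦ : IsCharacter G (indFun M θ) := isCharacter_indFun M (isCharacter_of_irr hθi)
  obtain ⟨mu, hmu, hmu2⟩ := exists_mult hΦ
  have hcon : ∀ ψ : IrrCharacter G, mu ψ ≠ 0 → classInner (fun m : M => (ψ : G → ℂ) m) θ ≠ 0 := by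
    intro ψ hψ
    have h1 := hmu2 ψ
    rw [frobenius_reciprocity M θ (isClassFunction_of_char (isCharacter_of_irr ψ.2))] at h1
    intro h0
    apply hψ
    have : classInner θ (fun m : M => (ψ : G → ℂ) m) = 0 := by
      rw [← classInner_conj_symm, h0, map_zero]
    rw [this] at h1
    exact_mod_cast h1.symm
  by_cases hbig : ∃ ψ : IrrCharacter G, mu ψ ≠ 0 ∧ charDegree (χ : G → ℂ) < charDegree (ψ : G → ℂ)
  · left
    obtain ⟨ψ, hψ0, hψd⟩ := hbig
    refine ⟨ψ, hψd, ?_⟩
    have hc := hcon ψ hψ0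
    have hψM : IsCharacter M (fun m : M => (ψ : G → ℂ) m) :=
      isCharacter_restrict (isCharacter_of_irr ψ.2) M
    have hLM : kerSub ψ ≤ M := by
      by_contra hnle
      have htop : kerSub ψ ⊔ M = ⊤ := by
        apply hM.2
        exact lt_of_le_of_ne le_sup_right (fun h => hnle (h ▸ le_sup_left))
      have hirr := isIrrCharacter_restrict_of_sup ψ (kerSub ψ) M (fun g hg => hg) htop
      have heq : (fun m : M => (ψ : G → ℂ) m) = θ := by
        by_contra hne
        exact hc (classInner_irr_ne hirr hθi hne)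
      have h1 := congrFun heq 1
      have h2 : charDegree (ψ : G → ℂ) = charDegree (χ : G → ℂ) := by
        unfold charDegree
        have : (ψ : G → ℂ) 1 = (χ : G → ℂ) 1 := h1
        rw [this]
      omega
    have hΔ := isCharacter_sub_irr hψM hθi hc
    have hLK : kerSub ψ ≤ K := by
      intro x hx
      rw [hK]
      have hxM := hLM hx
      have h1 : θ ⟨x, hxM⟩ + ((fun m : M => (ψ : G → ℂ) m) - θ) ⟨x, hxM⟩ =
          θ 1 + ((fun m : M => (ψ : G → ℂ) m) - θ) 1 := by
        simp only [Pi.sub_apply, add_sub_cancel]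
        exact hx
      exact eq_of_add_eq (isCharacter_of_irr hθi) hΔ h1
    refine lt_of_le_of_ne hLK ?_
    intro heq
    have : K ⊔ M = M := sup_eq_right.2 (heq ▸ hLM)
    rw [hKM] at this
    exact hM.1 this.symm
  · right
    push Not at hbig
    have hres : ∀ ψ : IrrCharacter G, mu ψ ≠ 0 → (fun m : M => (ψ : G → ℂ) m) = θ := by
      intro ψ hψ0
      have hc := hcon ψ hψ0
      have hψM : IsCharacter M (fun m : M => (ψ : G → ℂ) m) :=
        isCharacter_restrict (isCharacter_of_irr ψ.2) M
      have hΔ := isCharacter_sub_irr hψM hθi hc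
      have hd1 := hbig ψ hψ0
      have hd2 := charDegree_le_of_constituent hψM hθi hc
      have hd3 : charDegree (ψ : G → ℂ) = charDegree (χ : G → ℂ) := le_antisymm hd1 hd2
      have h1 : (ψ : G → ℂ) 1 = (χ : G → ℂ) 1 := by
        rw [← charDegree_cast_irr, ← charDegree_cast_irr, hd3]
      obtain ⟨d, σ, hσ⟩ := hΔ
      have h2 : σ.character 1 = 0 := by
        rw [hσ]
        simp only [Pi.sub_apply, hθ]
        exact sub_eq_zero.2 h1
      rw [Representation.char_one, Module.finrank_fin_fun] at h2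
      have hd0 : d = 0 := by exact_mod_cast h2
      subst hd0
      have h3 : σ.character = 0 := by
        funext g
        have := norm_character_le σ g
        rw [Module.finrank_fin_fun] at this
        simpa using this
      rw [h3] at hσ
      exact (sub_eq_zero.1 hσ.symm)
    have hsum : ∀ m : M, indFun M θ m = (∑ ψ : IrrCharacter G, (mu ψ : ℂ)) * θ m := by
      intro m
      rw [hmu, Finset.sum_mul]
      simp only [Finset.sum_apply, Pi.smul_apply, smul_eq_mul]
      apply Finset.sum_congr rfl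
      intro ψ _
      by_cases h0 : mu ψ = 0
      · simp [h0]
      · rw [← congrFun (hres ψ h0) m]
    have hθ1 : θ 1 ≠ 0 := irr_apply_one_ne_zero ⟨θ, hθi⟩
    have hidx : (∑ ψ : IrrCharacter G, (mu ψ : ℂ)) = (M.index : ℂ) := by
      have h1 := hsum 1
      have h2 := indFun_apply_one M θ
      have h3 : indFun M θ ((1 : M) : G) = indFun M θ 1 := rfl
      rw [h3, h2] at h1
      exact (mul_right_cancel₀ hθ1 h1).symm
    intro m hm hχm
    have h1 := hsum ⟨m, hm⟩
    rw [hidx, indFun_apply] at h1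
    have h2 : ∀ x : G, extendByZero M θ (x⁻¹ * m * x) =
        if x⁻¹ * m * x ∈ M then (χ : G → ℂ) m else 0 := by
      intro x
      split_ifs with h
      · rw [extendByZero_of_mem M _ h]
        have := isClassFunction_of_irr χ.2 m x⁻¹
        simp only [hθ]
        rw [inv_inv] at this
        exact this
      · rw [extendByZero_of_not_mem M _ h]
    simp only [h2] at h1
    rw [← Finset.sum_filter, Finset.sum_const, nsmul_eq_mul] at h1
    have h3 : θ ⟨m, hm⟩ = (χ : G → ℂ) m := rfl
    rw [h3, ← mul_assoc] at h1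
    have h4 := mul_right_cancel₀ hχm h1
    have hMc : (Nat.card M : ℂ) ≠ 0 := card_subgroup_ne_zero M
    have h5 : (((Finset.univ.filter (fun x : G => x⁻¹ * m * x ∈ M)).card : ℕ) : ℂ) =
        ((Nat.card M * M.index : ℕ) : ℂ) := by
      push_cast
      rw [← h4, mul_inv_cancel_left₀ hMc]
    have h6 : (Finset.univ.filter (fun x : G => x⁻¹ * m * x ∈ M)).card = Nat.card G := by
      rw [← M.card_mul_index]
      exact_mod_cast h5
    have h7 : Finset.univ.filter (fun x : G => x⁻¹ * m * x ∈ M) = Finset.univ := by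
      apply Finset.eq_univ_of_card
      rw [h6, Nat.card_eq_fintype_card]
    change ∀ b : G, b * m * b⁻¹ ∈ M
    intro b
    have : b⁻¹ ∈ Finset.univ.filter (fun x : G => x⁻¹ * m * x ∈ M) := by rw [h7]; exact Finset.mem_univ _
    have := (Finset.mem_filter.1 this).2
    rwa [inv_inv] at this

end Cfsg.Agent.Lib.Helper23.BG
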