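import Mathlib
import Cfsg.Agent.Lib.Helper23.BG1
import Cfsg.Agent.Lib.Helper23.Blich2
import Cfsg.Agent.Lib.Helper22.FittingSub
import Cfsg.Agent.S0043

/-!
The Broline–Garrison theorem.
-/

set_option autoImplicit false

namespace Cfsg.Agent.Lib.Helper23.BG

open Cfsg Cfsg.Agent.CharLib Cfsg.Agent.CharLib.H2 Cfsg.Agent.CharLib.L Cfsg.Agent.Lib.Helper23
open Cfsg.Agent.H25 Cfsg.Agent.Lib.Helper23.Blich

theorem frattini_card {G : Type*} [Group G] [Finite G] {p : ℕ} (hp : p.Prime) (N : Subgroup G)
    [N.Normal] (D : Subgroup G) (hD : D ≤ N)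
    (hcard : Nat.card D = p ^ (Nat.card N).factorization p) :
    Subgroup.normalizer (D : Set G) ⊔ N = ⊤ := by
  have := Fact.mk hp
  have h1 : Nat.card (D.subgroupOf N) = p ^ (Nat.card N).factorization p := by
    rw [← hcard]
    exact Nat.card_congr (Subgroup.subgroupOfEquivOfLe hD).toEquiv
  have h2 := Sylow.normalizer_sup_eq_top (Sylow.ofCard (D.subgroupOf N) h1)
  have h3 : ((Sylow.ofCard (D.subgroupOf N) h1 : Sylow p N) : Subgroup N).map N.subtype = D := by
    change (D.subgroupOf N).map N.subtype = D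
    rw [Subgroup.subgroupOf_map_subtype, inf_of_le_left hD]
  rw [h3] at h2
  exact h2

theorem not_le_normalCore {G : Type*} [Group G] [Finite G] {q : ℕ} (hq : q.Prime) (E : Subgroup G)
    [E.Normal] (Q : Subgroup G) (hQE : Q ≤ E) (hcard : Nat.card Q = q ^ (Nat.card E).factorization q)
    (M : Subgroup G) (hM : M ≠ ⊤) (hNM : Subgroup.normalizer (Q : Set G) ≤ M) :
    ¬ Q ≤ M.normalCore := by
  intro hQ
  have hQN : Q ≤ M.normalCore ⊓ E := le_inf hQ hQE
  have h1 : (Nat.card (M.normalCore ⊓ E : Subgroup G)).factorization q =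
      (Nat.card E).factorization q := by
    apply le_antisymm
    · exact (Nat.factorization_le_iff_dvd Nat.card_pos.ne' Nat.card_pos.ne').2
        (Subgroup.card_dvd_of_le inf_le_right) q
    · have h2 := Subgroup.card_dvd_of_le hQN
      rw [hcard] at h2
      exact (hq.pow_dvd_iff_le_factorization Nat.card_pos.ne').1 h2
  have h3 := frattini_card hq (M.normalCore ⊓ E) Q hQN (by rw [hcard, h1])
  apply hM
  rw [eq_top_iff, ← h3]
  exact sup_le hNM (inf_le_left.trans M.normalCore_le)

theorem exists_sylow_not_normal {G : Type*} [Group G] [Finite G] (X : Subgroup G)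
    (hX : ¬ Group.IsNilpotent X) :
    ∃ p : ℕ, p.Prime ∧ ∃ P : Subgroup G, P ≤ X ∧ Nat.card P = p ^ (Nat.card X).factorization p ∧
      ¬ P.Normal := by
  by_contra hcon
  push Not at hcon
  apply hX
  apply (Group.isNilpotent_of_finite_tfae (G := X)).out 3 0 rfl rfl |>.mp
  intro p hp P
  have h1 := hcon p hp.out ((P : Subgroup X).map X.subtype) (by
    rintro _ ⟨a, _, rfl⟩
    exact a.2) (by rw [card_map_subtype, P.card_eq_multiplicity])
  have h2 : ((P : Subgroup X).map X.subtype).subgroupOf X = P := by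
    rw [Subgroup.subgroupOf, Subgroup.comap_map_eq_self_of_injective X.subtype_injective]
  rw [← h2]
  exact h1.subgroupOf X

section

variable {G : Type*} [Group G] [Finite G] (χ : IrrCharacter G) (K : Subgroup G) [K.Normal]

/-- the common step -/
theorem step (hK : ∀ g : G, g ∈ K ↔ (χ : G → ℂ) g = (χ : G → ℂ) 1)
    (hno : ¬ ∃ ψ : IrrCharacter G, charDegree (χ : G → ℂ) < charDegree (ψ : G → ℂ) ∧ kerSub ψ < K)
    {q : ℕ} (hq : q.Prime) (E : Subgroup G) [E.Normal] (Q : Subgroup G) (hQE : Q ≤ E)
    (hcard : Nat.card Q = q ^ (Nat.card E).factorization q) (hQn : ¬ Q.Normal) (hEKQ : E ≤ K ⊔ Q) :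
    ∃ M : Subgroup G, Q ≤ M ∧ K ⊔ M = ⊤ ∧ (∀ m ∈ M, (χ : G → ℂ) m ≠ 0 → m ∈ M.normalCore) ∧
      ¬ Q ≤ M.normalCore := by
  have hN : Subgroup.normalizer (Q : Set G) ≠ ⊤ := fun h => hQn (Subgroup.normalizer_eq_top_iff.1 h)
  obtain ⟨M, hM, hNM⟩ := (IsCoatomic.eq_top_or_exists_le_coatom _).resolve_left hN
  have hQM : Q ≤ M := Subgroup.le_normalizer.trans hNM
  have hfr := frattini_card hq E Q hQE hcard
  have hKM : K ⊔ M = ⊤ := by
    rw [eq_top_iff, ← hfr]
    apply sup_le (hNM.trans le_sup_right)
    exact hEKQ.trans (sup_le le_sup_left (hQM.trans le_sup_right))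
  refine ⟨M, hQM, hKM, ?_, not_le_normalCore hq E Q hQE hcard M hM.1 hNM⟩
  exact (key χ K M hK hM hKM).resolve_left hno

theorem main (hK : ∀ g : G, g ∈ K ↔ (χ : G → ℂ) g = (χ : G → ℂ) 1)
    (h : ¬ K ≤ fittingSubgroup G ∨
      (K = fittingSubgroup G ∧ Group.IsSolvable (G ⧸ K) ∧ K ≠ ⊤)) :
    ∃ ψ : IrrCharacter G, charDegree (χ : G → ℂ) < charDegree (ψ : G → ℂ) ∧ kerSub ψ < K := by
  classical
  cases nonempty_fintype G
  by_contra hno
  have hχ1 : (χ : G → ℂ) 1 ≠ 0 := irr_apply_one_ne_zero χ
  rcases h with h | ⟨hKF, hsolv, hKtop⟩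
  · have hnil : ¬ Group.IsNilpotent K := fun hn =>
      h (Cfsg.Agent.Lib.Helper22.le_fittingSubgroup K inferInstance hn)
    obtain ⟨p, hp, P, hPK, hPc, hPn⟩ := exists_sylow_not_normal K hnil
    obtain ⟨M, hPM, -, hstar, hnot⟩ := step χ K hK hno hp K P hPK hPc hPn le_sup_left
    apply hnot
    intro x hx
    apply hstar x (hPM hx)
    rw [(hK x).1 (hPK hx)]
    exact hχ1
  · -- the support
    set D : Subgroup G := Subgroup.normalClosure {g : G | (χ : G → ℂ) g ≠ 0} with hD
    have hKD : K ≤ D := by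
      intro x hx
      apply Subgroup.subset_normalClosure
      change (χ : G → ℂ) x ≠ 0
      rw [(hK x).1 hx]
      exact hχ1
    have hDK : ¬ D ≤ K := by
      intro hle
      have hvan : ∀ g : G, g ∉ K → (χ : G → ℂ) g = 0 := by
        intro g hg
        by_contra h0
        exact hg (hle (Subgroup.subset_normalClosure h0))
      have h1 : classInner (χ : G → ℂ) (fun _ => 1) ≠ 0 := by
        rw [classInner]
        apply mul_ne_zero (inv_ne_zero card_ne_zero_complex)
        have : ∑ g : G, (χ : G → ℂ) g * (starRingEnd ℂ) 1 =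
            ∑ g : G, if g ∈ K then (χ : G → ℂ) 1 else 0 := by
          apply Finset.sum_congr rfl
          intro g _
          split_ifs with hg
          · rw [(hK g).1 hg]; simp
          · rw [hvan g hg]; simp
        rw [this, ← Finset.sum_filter, Finset.sum_const, nsmul_eq_mul]
        apply mul_ne_zero _ hχ1
        have : (Finset.univ.filter (fun g : G => g ∈ K)).card ≠ 0 := by
          apply Finset.card_ne_zero_of_mem (a := 1)
          simp [K.one_mem]
        exact_mod_cast this
      have h2 : (χ : G → ℂ) = fun _ => 1 := by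
        by_contra hne
        exact h1 (classInner_irr_ne χ.2 isIrrCharacter_one hne)
      apply hKtop
      rw [eq_top_iff]
      intro g _
      rw [hK, h2]
    -- a minimal normal subgroup of the quotient inside the image of `D`
    let π := QuotientGroup.mk' K
    have hπs : Function.Surjective π := QuotientGroup.mk'_surjective K
    let S : Set (Subgroup (G ⧸ K)) := {N | N.Normal ∧ N ≠ ⊥ ∧ N ≤ D.map π}
    have hSne : S.Nonempty := by
      refine ⟨D.map π, Subgroup.Normal.map inferInstance π hπs, ?_, le_rfl⟩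
      intro hbot
      apply hDK
      rw [Subgroup.map_eq_bot_iff, QuotientGroup.ker_mk'] at hbot
      exact hbot
    obtain ⟨N, ⟨hN1, hN2, hN3⟩, hNmin⟩ := WellFounded.has_min
      (wellFounded_lt : WellFounded ((· < ·) : Subgroup (G ⧸ K) → Subgroup (G ⧸ K) → Prop)) S hSne
    obtain ⟨-, q, hq, hNq⟩ := Cfsg.Agent.S0043.result N hN2 (by
      intro M hM1 hM2
      by_cases hMb : M = ⊥
      · exact Or.inl hMb
      · right
        by_contra hne
        exact hNmin M ⟨hM1, hMb, hM2.trans hN3⟩ (lt_of_le_of_ne hM2 hne))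
    have hfq := Fact.mk hq
    set E : Subgroup G := N.comap π with hE
    have hEn : E.Normal := hN1.comap π
    have hKE : K ≤ E := by
      intro x hx
      rw [hE, Subgroup.mem_comap]
      have : π x = 1 := (QuotientGroup.eq_one_iff x).2 hx
      rw [this]
      exact N.one_mem
    have hED : E ≤ D := by
      have h1 : E ≤ (D.map π).comap π := Subgroup.comap_mono hN3
      rw [Subgroup.comap_map_eq, QuotientGroup.ker_mk', sup_eq_left.2 hKD] at h1
      exact h1
    have hEK : ¬ E ≤ K := by
      intro hle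
      apply hN2
      rw [eq_bot_iff]
      intro y hy
      obtain ⟨x, rfl⟩ := hπs y
      have hx : x ∈ E := hy
      rw [Subgroup.mem_bot]
      exact (QuotientGroup.eq_one_iff x).2 (hle hx)
    have hNp : IsPGroup q N := by
      intro x
      refine ⟨1, ?_⟩
      rw [pow_one]
      exact Subtype.ext (hNq x x.2)
    obtain ⟨k, hk⟩ := IsPGroup.exists_card_eq hNp
    have hcardE : Nat.card E = Nat.card K * q ^ k := by
      have h1 : E.index = N.index := Subgroup.index_comap_of_surjective N hπs
      have h2 := E.card_mul_index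
      have h3 := N.card_mul_index
      have h4 := Subgroup.card_eq_card_quotient_mul_card_subgroup K
      rw [h1] at h2
      have h5 : 0 < N.index := Nat.pos_of_ne_zero Subgroup.index_ne_zero_of_finite
      apply Nat.eq_of_mul_eq_mul_right h5
      rw [h2, h4, ← h3, hk]
      ring
    obtain ⟨Q0⟩ : Nonempty (Sylow q E) := inferInstance
    set Q : Subgroup G := (Q0 : Subgroup E).map E.subtype with hQ
    have hQE : Q ≤ E := by
      rintro _ ⟨a, _, rfl⟩
      exact a.2
    have hQc : Nat.card Q = q ^ (Nat.card E).factorization q := by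
      rw [hQ, card_map_subtype, Q0.card_eq_multiplicity]
    have hEKQ : E ≤ K ⊔ Q := by
      have hle : K ⊔ Q ≤ E := sup_le hKE hQE
      have h1 : Nat.card E ∣ Nat.card (K ⊔ Q : Subgroup G) := by
        rw [← Nat.ordProj_mul_ordCompl_eq_self (Nat.card E) q]
        apply Nat.Coprime.mul_dvd_of_dvd_of_dvd
        · exact Nat.Coprime.pow_left _ (Nat.coprime_ordCompl hq Nat.card_pos.ne')
        · rw [← hQc]
          exact Subgroup.card_dvd_of_le le_sup_right
        · have h2 : ordCompl[q] (Nat.card E) ∣ Nat.card K * q ^ k := by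
            rw [← hcardE]
            exact Nat.ordCompl_dvd _ _
          have h3 : (ordCompl[q] (Nat.card E)).Coprime (q ^ k) :=
            Nat.Coprime.pow_right _ (Nat.coprime_ordCompl hq Nat.card_pos.ne').symm
          exact (h3.dvd_of_dvd_mul_right h2).trans (Subgroup.card_dvd_of_le le_sup_left)
      have h2 : Nat.card E ≤ Nat.card (K ⊔ Q : Subgroup G) := Nat.le_of_dvd Nat.card_pos h1
      intro x hx
      have h3 : (K ⊔ Q : Subgroup G) = E := by
        apply SetLike.coe_injective
        exact Set.eq_of_subset_of_ncard_le hle (by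
          rw [← Nat.card_coe_set_eq, ← Nat.card_coe_set_eq]; exact h2) (Set.toFinite _)
      rw [h3]; exact hx
    have hQn : ¬ Q.Normal := by
      intro hn
      apply hEK
      have hKnil : Group.IsNilpotent K := by
        rw [hKF]
        exact Cfsg.Agent.Lib.Helper22.fittingSubgroup_isNilpotent
      have hQnil : Group.IsNilpotent Q := (IsPGroup.of_card hQc).isNilpotent
      have h1 := Cfsg.Agent.Lib.Helper22.isNilpotent_sup K Q hKnil hQnil
      have h2 := Cfsg.Agent.Lib.Helper22.le_fittingSubgroup (K ⊔ Q) inferInstance h1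
      rw [← hKF] at h2
      exact hEKQ.trans h2
    obtain ⟨M, hQM, hKM, hstar, hnot⟩ := step χ K hK hno hq E Q hQE hQc hQn hEKQ
    apply hnot
    have hDle : D ≤ M.normalCore ⊔ K := by
      apply Subgroup.normalClosure_le_normal
      intro g hg
      have hg' : (χ : G → ℂ) g ≠ 0 := hg
      have hgt : g ∈ ((M ⊔ K : Subgroup G) : Set G) := by rw [sup_comm, hKM]; trivial
      rw [Subgroup.mul_normal] at hgt
      obtain ⟨m, hm, k', hk', rfl⟩ := Set.mem_mul.1 hgt
      have h1 : (χ : G → ℂ) (m * k') = (χ : G → ℂ) m := irr_mul_of_mem_ker χ ((hK k').1 hk') m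
      rw [h1] at hg'
      exact Subgroup.mul_mem_sup (hstar m hm hg') hk'
    intro x hx
    have hx1 : x ∈ ((M.normalCore ⊔ K : Subgroup G) : Set G) := hDle (hED (hQE hx))
    rw [Subgroup.mul_normal] at hx1
    obtain ⟨c, hc, k', hk', rfl⟩ := Set.mem_mul.1 hx1
    have hk'M : k' ∈ M := by
      have h1 := M.mul_mem (M.inv_mem (M.normalCore_le hc)) (hQM hx)
      rwa [inv_mul_cancel_left] at h1
    have hk'C : k' ∈ M.normalCore := by
      apply hstar k' hk'M
      rw [(hK k').1 hk']
      exact hχ1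
    exact M.normalCore.mul_mem hc hk'C

end

end Cfsg.Agent.Lib.Helper23.BG
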