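import Mathlib
import Cfsg.Agent.Lib.Helper23.BG2

/-!
Garrison: nilpotent length is at most the number of character degrees.
-/

set_option autoImplicit false

namespace Cfsg.Agent.Lib.Helper23.BG

open Cfsg Cfsg.Agent.CharLib Cfsg.Agent.CharLib.H2 Cfsg.Agent.CharLib.L Cfsg.Agent.Lib.Helper23
open Cfsg.Agent.H25 Cfsg.Agent.Lib.Helper23.Blich

universe u

def NilQ {G : Type*} [Group G] (A B : Subgroup G) : Prop :=
  ∀ _h : (A.subgroupOf B).Normal, Group.IsNilpotent (B ⧸ A.subgroupOf B)

theorem nilQ_of_nilpotent {G : Type*} [Group G] (A B : Subgroup G) (h : Group.IsNilpotent B) :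
    NilQ A B :=
  fun _ => Group.nilpotent_quotient_of_nilpotent _

theorem nilQ_comap {G H : Type*} [Group G] [Group H] (π : G →* H) (A B : Subgroup H) [A.Normal]
    (h : NilQ A B) : NilQ (A.comap π) (B.comap π) := by
  intro hn
  have h1 : Group.IsNilpotent (B ⧸ A.subgroupOf B) := h inferInstance
  let φ : (B.comap π) →* B ⧸ A.subgroupOf B := (QuotientGroup.mk' _).comp (π.subgroupComap B)
  have hker : φ.ker = (A.comap π).subgroupOf (B.comap π) := by
    ext x
    simp only [φ, MonoidHom.mem_ker, Subgroup.mem_subgroupOf, MonoidHom.comp_apply,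
      QuotientGroup.mk'_apply, QuotientGroup.eq_one_iff, Subgroup.mem_comap]
    rfl
  have e1 := QuotientGroup.quotientKerEquivRange φ
  have e2 := QuotientGroup.quotientMulEquivOfEq hker
  have : Group.IsNilpotent φ.range := inferInstance
  exact Group.nilpotent_of_mulEquiv (e2.symm.trans e1).symm

theorem chain : ∀ (n : ℕ) (G : Type u) [Group G] [Finite G], Group.IsSolvable G →
    Nat.card {d : ℕ // ∃ χ : IrrCharacter G, charDegree (χ : G → ℂ) = d} ≤ n →
    ∃ N : ℕ → Subgroup G, N 0 = ⊥ ∧ N n = ⊤ ∧ Monotone N ∧ (∀ i, (N i).Normal) ∧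
      ∀ i < n, NilQ (N i) (N (i + 1)) := by
  intro n
  induction n with
  | zero =>
    intro G _ _ hs hc
    exfalso
    have hfin : (Set.range fun χ : IrrCharacter G => charDegree (χ : G → ℂ)).Finite :=
      Set.finite_range _
    have : Finite {d : ℕ // ∃ χ : IrrCharacter G, charDegree (χ : G → ℂ) = d} := hfin
    have : Nonempty {d : ℕ // ∃ χ : IrrCharacter G, charDegree (χ : G → ℂ) = d} :=
      ⟨⟨_, ⟨fun _ => 1, isIrrCharacter_one⟩, rfl⟩⟩
    have := Nat.card_pos (α := {d : ℕ // ∃ χ : IrrCharacter G, charDegree (χ : G → ℂ) = d})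
    omega
  | succ n ih =>
    intro G _ _ hs hc
    by_cases hnil : Group.IsNilpotent G
    · refine ⟨fun i => if i = 0 then ⊥ else ⊤, by simp, by simp, ?_, ?_, ?_⟩
      · apply monotone_nat_of_le_succ
        intro i
        simp
      · intro i
        dsimp only
        split_ifs <;> infer_instance
      · intro i _
        apply nilQ_of_nilpotent
        infer_instance
    · have hFn : (fittingSubgroup G).Normal := Cfsg.Agent.Lib.Helper22.fittingSubgroup_normal
      have hFnil : Group.IsNilpotent (fittingSubgroup G) :=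
        Cfsg.Agent.Lib.Helper22.fittingSubgroup_isNilpotent
      obtain ⟨F, hF⟩ : ∃ F, F = fittingSubgroup G := ⟨_, rfl⟩
      rw [← hF] at hFn hFnil
      have hFtop : F ≠ ⊤ := by
        intro h
        rw [h] at hFnil
        exact hnil (Group.isNilpotent_top.1 hFnil)
      let π := QuotientGroup.mk' F
      have hπ : Function.Surjective π := QuotientGroup.mk'_surjective F
      have hsq : Group.IsSolvable (G ⧸ F) := inferInstance
      have : Nonempty (IrrCharacter (G ⧸ F)) := ⟨⟨fun _ => 1, isIrrCharacter_one⟩⟩
      obtain ⟨χb, hχb⟩ := Finite.exists_max fun χ : IrrCharacter (G ⧸ F) =>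
        charDegree (χ : G ⧸ F → ℂ)
      let infl : IrrCharacter (G ⧸ F) → IrrCharacter G := fun χ =>
        ⟨fun x => (χ : G ⧸ F → ℂ) (π x), isIrrCharacter_comp_of_surjective χ.2 π hπ⟩
      have hdeg : ∀ χ : IrrCharacter (G ⧸ F), charDegree (infl χ : G → ℂ) =
          charDegree (χ : G ⧸ F → ℂ) := by
        intro χ
        simp only [charDegree, infl, map_one]
      have hFK : F ≤ kerSub (infl χb) := by
        intro g hg
        rw [mem_kerSub]
        have : π g = 1 := (QuotientGroup.eq_one_iff g).2 hg
        simp only [infl, this, map_one]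
      have hcase : ¬ kerSub (infl χb) ≤ fittingSubgroup G ∨
          (kerSub (infl χb) = fittingSubgroup G ∧ Group.IsSolvable (G ⧸ kerSub (infl χb)) ∧
            kerSub (infl χb) ≠ ⊤) := by
        by_cases h : kerSub (infl χb) ≤ fittingSubgroup G
        · right
          have h2 : kerSub (infl χb) = fittingSubgroup G := le_antisymm h (hF ▸ hFK)
          refine ⟨h2, inferInstance, ?_⟩
          rw [h2, ← hF]
          exact hFtop
        · exact Or.inl h
      obtain ⟨ψ, hψ, -⟩ := main (infl χb) (kerSub (infl χb)) (fun g => mem_kerSub _ g) hcase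
      have hlt : Nat.card {d : ℕ // ∃ χ : IrrCharacter (G ⧸ F), charDegree (χ : G ⧸ F → ℂ) = d} <
          Nat.card {d : ℕ // ∃ χ : IrrCharacter G, charDegree (χ : G → ℂ) = d} := by
        have hfin : (Set.range fun χ : IrrCharacter G => charDegree (χ : G → ℂ)).Finite :=
          Set.finite_range _
        have hss : (Set.range fun χ : IrrCharacter (G ⧸ F) => charDegree (χ : G ⧸ F → ℂ)) ⊂
            (Set.range fun χ : IrrCharacter G => charDegree (χ : G → ℂ)) := by
          rw [Set.ssubset_iff_of_subset]
          · refine ⟨_, ⟨ψ, rfl⟩, ?_⟩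
            rintro ⟨χ', h'⟩
            have h1 := hχb χ'
            dsimp only at h' h1
            rw [hdeg] at hψ
            omega
          · rintro _ ⟨χ', rfl⟩
            exact ⟨infl χ', hdeg χ'⟩
        exact Set.ncard_lt_ncard hss hfin
      obtain ⟨Nb, hN0, hNn, hNmono, hNnorm, hNnil⟩ := ih (G ⧸ F) hsq (by omega)
      refine ⟨fun i => Nat.casesOn i ⊥ fun j => (Nb j).comap π, rfl, ?_, ?_, ?_, ?_⟩
      · show (Nb n).comap π = ⊤
        rw [hNn, Subgroup.comap_top]
      · apply monotone_nat_of_le_succ
        intro i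
        cases i with
        | zero => exact bot_le
        | succ j => exact Subgroup.comap_mono (hNmono (Nat.le_succ j))
      · intro i
        cases i with
        | zero => exact Subgroup.normal_bot
        | succ j =>
          have := hNnorm j
          exact Subgroup.Normal.comap this π
      · intro i hi
        cases i with
        | zero =>
          apply nilQ_of_nilpotent
          show Group.IsNilpotent ((Nb 0).comap π)
          rw [hN0]
          have : (⊥ : Subgroup (G ⧸ F)).comap π = F := QuotientGroup.ker_mk' F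
          rw [this]
          exact hFnil
        | succ j =>
          have := hNnorm j
          exact nilQ_comap π (Nb j) (Nb (j + 1)) (hNnil j (by omega))

end Cfsg.Agent.Lib.Helper23.BG
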