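import Mathlib
import Cfsg.Agent.Lib.Helper23.Blich1
import Cfsg.Agent.CharLib.Clifford
import Cfsg.Agent.S0015
import Cfsg.Agent.CharLib.L.AbelianIndex

/-!
A self-centralizing abelian normal subgroup of a linear group of degree `n` has index dividing `n!`.
-/

set_option autoImplicit false

universe u

namespace Cfsg.Agent.Lib.Helper23.Blich

open Cfsg Cfsg.Agent.CharLib Cfsg.Agent.CharLib.H2 Cfsg.Agent.CharLib.L Cfsg.Agent.Lib.Helper23
open scoped Nat

section

variable {G : Type u} [Group G] {A : Subgroup G} [Fintype A] (hA : A.Normal) (χ : G → ℂ)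

/-- the irreducible constituents of the restriction -/
def Lam : Type u := {θ : IrrCharacter A // classInner (fun a : A => χ a) (θ : A → ℂ) ≠ 0}

variable {χ}

/-- the conjugation action on the constituents -/
@[reducible] noncomputable def lamAction (hχ : IsClassFunction G χ) : MulAction G (Lam (A := A) χ) where
  smul g θ := ⟨⟨conjFun hA (θ.1 : A → ℂ) g⁻¹, isIrrCharacter_conjFun hA θ.1.2 g⁻¹⟩, by
    change classInner (fun a : A => χ a) (conjFun hA (θ.1 : A → ℂ) g⁻¹) ≠ 0
    rw [classInner_restrict_conjFun hA hχ]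
    exact θ.2⟩
  one_smul θ := by
    apply Subtype.ext
    apply Subtype.ext
    change conjFun hA (θ.1 : A → ℂ) 1⁻¹ = _
    rw [inv_one, conjFun_one]
  mul_smul g k θ := by
    apply Subtype.ext
    apply Subtype.ext
    change conjFun hA (θ.1 : A → ℂ) (g * k)⁻¹ = conjFun hA (conjFun hA (θ.1 : A → ℂ) k⁻¹) g⁻¹
    rw [conjFun_conjFun, mul_inv_rev]

end

theorem index_dvd_factorial {G : Type u} [Group G] [Finite G] {χ : G → ℂ} (hχ : IsCharacter G χ)
    (hfaith : ∀ g : G, χ g = χ 1 → g = 1) (A : Subgroup G) (hA : A.Normal)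
    (hab : ∀ a ∈ A, ∀ b ∈ A, a * b = b * a) (hC : Subgroup.centralizer (A : Set G) ≤ A) :
    A.index ∣ (charDegree χ)! := by
  classical
  cases nonempty_fintype G
  have hcf := isClassFunction_of_char hχ
  have hψ : IsCharacter A (fun h : A => χ h) := isCharacter_restrict hχ A
  obtain ⟨m, hm, hm2⟩ := exists_mult hψ
  have hlin : ∀ θ : IrrCharacter A, (θ : A → ℂ) 1 = 1 := by
    intro θ
    exact Cfsg.Agent.CharLib.L.irr_apply_one_of_comm (fun a b => Subtype.ext (hab a a.2 b b.2)) θ
  let _ := lamAction hA hcf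
  have : Fintype (Lam (A := A) χ) := by
    unfold Lam
    infer_instance
  let act : G →* Equiv.Perm (Lam (A := A) χ) := MulAction.toPermHom G (Lam (A := A) χ)
  have hker : act.ker ≤ A := by
    intro g hg
    apply hC
    rw [Subgroup.mem_centralizer_iff]
    intro a ha
    have hfix : ∀ θ : IrrCharacter A, m θ ≠ 0 → conjFun hA (θ : A → ℂ) g⁻¹ = (θ : A → ℂ) := by
      intro θ hθ
      have hθ' : classInner (fun a : A => χ a) (θ : A → ℂ) ≠ 0 := by rw [hm2]; exact_mod_cast hθ
      have h1 : act g ⟨θ, hθ'⟩ = ⟨θ, hθ'⟩ := by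
        rw [MonoidHom.mem_ker.1 hg]; rfl
      exact congrArg (fun t : Lam (A := A) χ => (t.1 : A → ℂ)) h1
    have hmem : g⁻¹ * a * g⁻¹⁻¹ ∈ A := hA.conj_mem a ha g⁻¹
    have h2 : χ (g⁻¹ * a * g⁻¹⁻¹ * a⁻¹) = χ 1 := by
      have e1 : (fun h : A => χ h) (⟨g⁻¹ * a * g⁻¹⁻¹, hmem⟩ * ⟨a, ha⟩⁻¹) = (fun h : A => χ h) 1 := by
        rw [hm]
        simp only [Finset.sum_apply, Pi.smul_apply, smul_eq_mul]
        apply Finset.sum_congr rfl
        intro θ _
        by_cases h0 : m θ = 0
        · simp [h0]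
        · congr 1
          have h3 := congrFun (hfix θ h0) ⟨a, ha⟩
          rw [conjFun_apply] at h3
          rw [irr_mul_of_apply_one_eq_one θ (hlin θ), h3, ← irr_mul_of_apply_one_eq_one θ (hlin θ),
            mul_inv_cancel]
      simpa using e1
    have h3 := hfaith _ h2
    have h4 : g⁻¹ * a * g = a := by
      rw [inv_inv] at h3
      exact mul_inv_eq_one.1 h3
    calc a * g = g * (g⁻¹ * a * g) := by group
      _ = g * a := by rw [h4]
  have h1 : A.index ∣ act.ker.index := Subgroup.index_dvd_of_le hker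
  have h2 : act.ker.index ∣ (Fintype.card (Lam (A := A) χ))! := by
    rw [Subgroup.index_ker, ← Fintype.card_perm, ← Nat.card_eq_fintype_card]
    exact Subgroup.card_subgroup_dvd_card _
  have h3 : Fintype.card (Lam (A := A) χ) ≤ charDegree χ := by
    have e1 : charDegree χ = ∑ θ : IrrCharacter A, m θ := by
      have e2 : ((charDegree χ : ℕ) : ℂ) = ((∑ θ : IrrCharacter A, m θ : ℕ) : ℂ) := by
        rw [charDegree_cast hχ]
        have e3 : (fun h : A => χ h) 1 = χ 1 := rfl
        rw [← e3, hm]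
        simp only [Finset.sum_apply, Pi.smul_apply, smul_eq_mul, hlin, mul_one]
        push_cast
        rfl
      exact_mod_cast e2
    rw [e1]
    have e4 : Fintype.card (Lam (A := A) χ) = (Finset.univ.filter (fun θ : IrrCharacter A => m θ ≠ 0)).card := by
      rw [← Nat.card_eq_fintype_card]
      change Nat.card {θ : IrrCharacter A // classInner (fun a : A => χ a) (θ : A → ℂ) ≠ 0} = _
      rw [Nat.card_eq_fintype_card, Fintype.card_subtype]
      congr 1
      ext θ
      simp only [Finset.mem_filter, Finset.mem_univ, true_and, hm2]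
      exact_mod_cast Iff.rfl
    rw [e4, Finset.card_eq_sum_ones, Finset.sum_filter]
    apply Finset.sum_le_sum
    intro θ _
    split_ifs with h
    · omega
    · omega
  exact h1.trans (h2.trans (Nat.factorial_dvd_factorial h3))

/-- a `p`-subgroup of a linear group of degree `n` has an abelian subgroup of index dividing `n!` -/
theorem exists_abelian_relIndex_dvd {G : Type u} [Group G] [Finite G] {χ : G → ℂ}
    (hχ : IsCharacter G χ) (hfaith : ∀ g : G, χ g = χ 1 → g = 1) {p : ℕ} [Fact p.Prime]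
    (P : Subgroup G) (hP : IsPGroup p P) :
    ∃ B : Subgroup G, B ≤ P ∧ (∀ a ∈ B, ∀ b ∈ B, a * b = b * a) ∧ B.relIndex P ∣ (charDegree χ)! := by
  classical
  have hnil : Group.IsNilpotent P := hP.isNilpotent
  let S : Set (Subgroup P) := {M | M.Normal ∧ IsMulCommutative M}
  have hne : S.Nonempty := ⟨⊥, inferInstance, inferInstance⟩
  obtain ⟨N, ⟨hN1, hN2⟩, hmax⟩ := WellFounded.has_min
    (wellFounded_gt : WellFounded ((· > ·) : Subgroup P → Subgroup P → Prop)) S hne
  have hcent : Subgroup.centralizer (N : Set P) = N := by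
    apply Cfsg.Agent.S0015.result N
    intro M hM1 hM2 hle
    by_contra hneq
    exact hmax M ⟨hM1, hM2⟩ (lt_of_le_of_ne hle (Ne.symm hneq))
  have hidx := index_dvd_factorial (isCharacter_restrict hχ P)
    (fun g hg => Subtype.ext (hfaith g hg)) N hN1
    (fun a ha b hb => congrArg Subtype.val (hN2.is_comm.comm ⟨a, ha⟩ ⟨b, hb⟩)) hcent.le
  refine ⟨N.map P.subtype, ?_, ?_, ?_⟩
  · rintro _ ⟨a, _, rfl⟩
    exact a.2
  · rintro _ ⟨a, ha, rfl⟩ _ ⟨b, hb, rfl⟩
    exact congrArg Subtype.val (congrArg Subtype.val (hN2.is_comm.comm ⟨a, ha⟩ ⟨b, hb⟩))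
  · have : (N.map P.subtype).relIndex P = N.index := by
      rw [Subgroup.relIndex, Subgroup.subgroupOf, Subgroup.comap_map_eq_self_of_injective P.subtype_injective]
    rw [this]
    exact hidx

end Cfsg.Agent.Lib.Helper23.Blich
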