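import Mathlib
import Cfsg.Agent.Lib.Helper23.Blich4
import Cfsg.Agent.Lib.Helper23.Blich5

/-!
The explicit bound in Jordan's theorem, from the local bound on abelian subgroups.
-/

set_option autoImplicit false

universe u

namespace Cfsg.Agent.Lib.Helper23.Blich

open Cfsg Cfsg.Agent.CharLib Cfsg.Agent.Lib.Helper23
open scoped Nat

theorem pow_factorization_dvd_relIndex {G : Type*} [Group G] [Finite G] (A H : Subgroup G) {r : ℕ}
    (hr : r.Prime) (h : ¬ r ∣ H.index) : r ^ (A.index).factorization r ∣ A.relIndex H := by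
  have h1 : A.index ∣ (A ⊓ H).index := Subgroup.index_dvd_of_le inf_le_left
  have h2 : (A ⊓ H).index = A.relIndex H * H.index := by
    rw [← Subgroup.inf_relIndex_right, Subgroup.relIndex_mul_index inf_le_right]
  have h3 : r ^ (A.index).factorization r ∣ A.relIndex H * H.index := by
    rw [← h2]; exact (Nat.ordProj_dvd _ _).trans h1
  exact (Nat.Coprime.pow_left _ ((Nat.Prime.coprime_iff_not_dvd hr).2 h)).dvd_of_dvd_mul_right h3

theorem jordan_bound {G : Type u} [Group G] [Finite G] (χ : G → ℂ) (hχ : IsCharacter G χ)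
    (hfaith : ∀ g : G, χ g = χ 1 → g = 1) (n : ℕ) (hn : charDegree χ = n) (A : Subgroup G)
    (hA : ∀ H : Subgroup G, (∀ x ∈ H, ∀ y ∈ H, x * y = y * x) → (A.subgroupOf H).index ≤ 12 ^ n) :
    A.index ≤ n ! * 12 ^ (n * (Nat.primeCounting (n + 1) + 1)) := by
  classical
  have hN0 : A.index ≠ 0 := Subgroup.index_ne_zero_of_finite
  obtain ⟨H, hH1, hH2, hH3⟩ := exists_hall n _ G rfl χ hχ hfaith hn
  have hloc : ∀ r : ℕ, ∃ t : ℕ, r.Prime → (t ∣ n ! ∧ (∃ k : ℕ, t = r ^ k) ∧
      r ^ (A.index).factorization r ≤ t * 12 ^ n) := by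
    intro r
    by_cases hr : r.Prime
    swap
    · exact ⟨0, fun h => absurd h hr⟩
    have := Fact.mk hr
    obtain ⟨P⟩ : Nonempty (Sylow r G) := inferInstance
    obtain ⟨B, hBP, hBab, hBidx⟩ := exists_abelian_relIndex_dvd hχ hfaith (P : Subgroup G) P.2
    refine ⟨B.relIndex P, fun _ => ⟨by rwa [hn] at hBidx, ?_, ?_⟩⟩
    · exact IsPGroup.index P.2 (B.subgroupOf P)
    · have h1 := pow_factorization_dvd_relIndex A (P : Subgroup G) hr P.not_dvd_index
      have h2 : A.relIndex (P : Subgroup G) ∣ (A ⊓ B).relIndex (P : Subgroup G) :=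
        Subgroup.relIndex_dvd_of_le_left _ inf_le_left
      have h3 : (A ⊓ B).relIndex (P : Subgroup G) = A.relIndex B * B.relIndex P := by
        rw [← Subgroup.relIndex_mul_relIndex (A ⊓ B) B P inf_le_right hBP, Subgroup.inf_relIndex_right]
      have h4 : A.relIndex B ≤ 12 ^ n := hA B hBab
      have h5 : 0 < A.relIndex B * B.relIndex P := by
        apply Nat.mul_pos
        · exact Nat.pos_of_ne_zero (Subgroup.index_ne_zero_of_finite (H := A.subgroupOf B))
        · exact Nat.pos_of_ne_zero (Subgroup.index_ne_zero_of_finite (H := B.subgroupOf P))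
      have h6 := Nat.le_of_dvd h5 (h3 ▸ (h1.trans h2))
      calc r ^ (A.index).factorization r ≤ A.relIndex B * B.relIndex P := h6
        _ ≤ 12 ^ n * B.relIndex P := Nat.mul_le_mul_right _ h4
        _ = B.relIndex P * 12 ^ n := mul_comm _ _
  choose t ht using hloc
  set S := (A.index).primeFactors with hS
  set S1 := S.filter (fun r => r ≤ n + 1) with hS1
  set S2 := S.filter (fun r => ¬ r ≤ n + 1) with hS2
  have hprime : ∀ r ∈ S, r.Prime := fun r hr => Nat.prime_of_mem_primeFactors hr
  have hprod : A.index = (∏ r ∈ S1, r ^ (A.index).factorization r) *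
      ∏ r ∈ S2, r ^ (A.index).factorization r := by
    rw [hS1, hS2, Finset.prod_filter_mul_prod_filter_not]
    exact Nat.prod_primeFactors_pow_factorization hN0
  have hb2 : ∏ r ∈ S2, r ^ (A.index).factorization r ≤ 12 ^ n := by
    have h1 : ∏ r ∈ S2, r ^ (A.index).factorization r ∣ A.relIndex H := by
      apply Finset.prod_dvd_of_isRelPrime
      · intro r hr s hs hne
        have hr' := hprime r (Finset.mem_filter.1 hr).1
        have hs' := hprime s (Finset.mem_filter.1 hs).1
        exact Nat.coprime_iff_isRelPrime.1 (Nat.Coprime.pow _ _ ((Nat.coprime_primes hr' hs').2 hne))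
      · intro r hr
        have hr' := hprime r (Finset.mem_filter.1 hr).1
        apply pow_factorization_dvd_relIndex A H hr'
        intro h
        exact (Finset.mem_filter.1 hr).2 (hH3 r hr' h)
    have h2 : 0 < A.relIndex H :=
      Nat.pos_of_ne_zero (Subgroup.index_ne_zero_of_finite (H := A.subgroupOf H))
    exact (Nat.le_of_dvd h2 h1).trans (hA H hH1)
  have hb1 : ∏ r ∈ S1, r ^ (A.index).factorization r ≤ n ! * (12 ^ n) ^ Nat.primeCounting (n + 1) := by
    have h1 : ∏ r ∈ S1, r ^ (A.index).factorization r ≤ ∏ r ∈ S1, (t r * 12 ^ n) := by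
      apply Finset.prod_le_prod'
      intro r hr
      exact (ht r (hprime r (Finset.mem_filter.1 hr).1)).2.2
    rw [Finset.prod_mul_distrib, Finset.prod_const] at h1
    have h2 : ∏ r ∈ S1, t r ∣ n ! := by
      apply Finset.prod_dvd_of_isRelPrime
      · intro r hr s hs hne
        have hr' := hprime r (Finset.mem_filter.1 hr).1
        have hs' := hprime s (Finset.mem_filter.1 hs).1
        obtain ⟨k, hk⟩ := (ht r hr').2.1
        obtain ⟨l, hl⟩ := (ht s hs').2.1
        change IsRelPrime (t r) (t s)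
        rw [hk, hl]
        exact Nat.coprime_iff_isRelPrime.1 (Nat.Coprime.pow _ _ ((Nat.coprime_primes hr' hs').2 hne))
      · intro r hr
        exact (ht r (hprime r (Finset.mem_filter.1 hr).1)).1
    have h3 : ∏ r ∈ S1, t r ≤ n ! := Nat.le_of_dvd (Nat.factorial_pos n) h2
    have h4 : S1.card ≤ Nat.primeCounting (n + 1) := by
      rw [← Nat.primesLE_card_eq_primeCounting, Nat.primesLE_eq_filter_range]
      apply Finset.card_le_card
      intro r hr
      rw [Finset.mem_filter, Finset.mem_range]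
      have := (Finset.mem_filter.1 hr).2
      exact ⟨by omega, hprime r (Finset.mem_filter.1 hr).1⟩
    calc ∏ r ∈ S1, r ^ (A.index).factorization r ≤ (∏ r ∈ S1, t r) * (12 ^ n) ^ S1.card := h1
      _ ≤ n ! * (12 ^ n) ^ Nat.primeCounting (n + 1) :=
        Nat.mul_le_mul h3 (Nat.pow_le_pow_right (Nat.pow_pos (by norm_num)) h4)
  calc A.index = (∏ r ∈ S1, r ^ (A.index).factorization r) *
      ∏ r ∈ S2, r ^ (A.index).factorization r := hprod
    _ ≤ (n ! * (12 ^ n) ^ Nat.primeCounting (n + 1)) * 12 ^ n := Nat.mul_le_mul hb1 hb2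
    _ = n ! * 12 ^ (n * (Nat.primeCounting (n + 1) + 1)) := by
      rw [mul_assoc, ← pow_mul, ← pow_add]
      congr 2

end Cfsg.Agent.Lib.Helper23.Blich
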