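import Cfsg.Agent.Lib.Helper10.Star

/-! Linear characters of a finite abelian group `W` under a semiregular group `E` of automorphisms. -/

set_option autoImplicit false

universe u

namespace Cfsg.Agent.Lib.Helper23.DualAct

open Cfsg Cfsg.Agent.CharLib Cfsg.Agent.Lib.Helper10
open scoped ComplexConjugate

variable {W : Type u} [Group W]

theorem conj_lin [Finite W] (ψ : W →* ℂˣ) (w : W) : conj (ψ w : ℂ) = (ψ w⁻¹ : ℂ) := by
  rw [map_inv, Units.val_inv_eq_inv_val, Complex.inv_eq_conj (lin_norm ψ w)]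

theorem sum_lin_apply [Finite W] (hW : ∀ a b : W, a * b = b * a) [Fintype (W →* ℂˣ)] {w : W}
    (hw : w ≠ 1) : ∑ ψ : W →* ℂˣ, (ψ w : ℂ) = 0 := by
  cases nonempty_fintype W
  obtain ⟨l, -, hl⟩ := exists_lin_ne_one hW ⊥ (x := w) (by simpa using hw)
  have h1 : ∑ ψ : W →* ℂˣ, (ψ w : ℂ) = ∑ ψ : W →* ℂˣ, ((l * ψ) w : ℂ) :=
    (Fintype.sum_equiv (Equiv.mulLeft l) _ _ (fun ψ => rfl)).symm
  simp only [MonoidHom.mul_apply, Units.val_mul] at h1
  rw [← Finset.mul_sum] at h1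
  have h2 : (1 - (l w : ℂ)) * ∑ ψ : W →* ℂˣ, (ψ w : ℂ) = 0 := by
    rw [sub_mul, one_mul, ← h1, sub_self]
  rcases mul_eq_zero.1 h2 with h | h
  · exfalso
    apply hl
    have : (l w : ℂ) = 1 := by linear_combination -h
    exact Units.ext this
  · exact h

theorem sum_apply_lin [Fintype W] {ψ : W →* ℂˣ} (hψ : ψ ≠ 1) : ∑ w : W, (ψ w : ℂ) = 0 := by
  obtain ⟨w₀, hw₀⟩ : ∃ w₀, ψ w₀ ≠ 1 := by
    by_contra hcon
    push Not at hcon
    exact hψ (MonoidHom.ext hcon)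
  have h1 : ∑ w : W, (ψ w : ℂ) = ∑ w : W, (ψ (w₀ * w) : ℂ) :=
    (Fintype.sum_equiv (Equiv.mulLeft w₀) _ _ (fun w => rfl)).symm
  simp only [map_mul, Units.val_mul] at h1
  rw [← Finset.mul_sum] at h1
  have h2 : (1 - (ψ w₀ : ℂ)) * ∑ w : W, (ψ w : ℂ) = 0 := by
    rw [sub_mul, one_mul, ← h1, sub_self]
  rcases mul_eq_zero.1 h2 with h | h
  · exfalso
    apply hw₀
    have : (ψ w₀ : ℂ) = 1 := by linear_combination -h
    exact Units.ext this
  · exact h

open Classical in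
theorem sum_lin_mul_conj [Fintype W] (hW : ∀ a b : W, a * b = b * a) [Fintype (W →* ℂˣ)] (w w' : W) :
    ∑ ψ : W →* ℂˣ, (ψ w : ℂ) * conj (ψ w' : ℂ) = if w = w' then (Nat.card W : ℂ) else 0 := by
  simp only [conj_lin, ← Units.val_mul, ← map_mul]
  split_ifs with h
  · subst h
    simp only [mul_inv_cancel, map_one, Units.val_one, Finset.sum_const, Finset.card_univ,
      nsmul_eq_mul, mul_one]
    rw [← Nat.card_eq_fintype_card, card_lin hW]
  · exact sum_lin_apply hW (fun h' => h (mul_inv_eq_one.1 h'))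

/-- Fourier inversion -/
theorem fourier [Fintype W] (hW : ∀ a b : W, a * b = b * a) [Fintype (W →* ℂˣ)] (f : W → ℂ) (w : W) :
    f w = ∑ ψ : W →* ℂˣ, classInner f (fun w => (ψ w : ℂ)) * (ψ w : ℂ) := by
  classical
  simp only [classInner, Finset.mul_sum, Finset.sum_mul]
  rw [Finset.sum_comm]
  have : ∀ w' : W, ∑ ψ : W →* ℂˣ, (Nat.card W : ℂ)⁻¹ * (f w' * conj (ψ w' : ℂ)) * (ψ w : ℂ) =
      (Nat.card W : ℂ)⁻¹ * f w' * if w = w' then (Nat.card W : ℂ) else 0 := by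
    intro w'
    rw [← sum_lin_mul_conj hW w w', Finset.mul_sum]
    apply Finset.sum_congr rfl
    intro ψ _
    ring
  simp only [this, mul_ite, mul_zero, Finset.sum_ite_eq, Finset.mem_univ, if_true]
  have hne : (Nat.card W : ℂ) ≠ 0 := by exact_mod_cast Nat.card_pos.ne'
  field_simp

/-! ### the action -/

variable (E : Subgroup (MulAut W))

/-- `ψ'` is an `E`-conjugate of `ψ` -/
def R (ψ ψ' : W →* ℂˣ) : Prop := ∃ σ ∈ E, ∀ w, ψ' (σ w) = ψ w

theorem R_equiv : Equivalence (R E) where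
  refl ψ := ⟨1, E.one_mem, fun _ => rfl⟩
  symm := by
    rintro ψ ψ' ⟨σ, hσ, h⟩
    refine ⟨σ⁻¹, E.inv_mem hσ, fun w => ?_⟩
    rw [← h, MulAut.apply_inv_self]
  trans := by
    rintro ψ ψ' ψ'' ⟨σ, hσ, h⟩ ⟨τ, hτ, h'⟩
    exact ⟨τ * σ, E.mul_mem hτ hσ, fun w => by rw [MulAut.mul_apply, h', h]⟩

theorem R_one_left {ψ : W →* ℂˣ} (h : R E 1 ψ) : ψ = 1 := by
  obtain ⟨σ, -, h⟩ := h
  ext w
  have := h (σ⁻¹ w)
  rw [MulAut.apply_inv_self] at this
  rw [this]
  rfl

theorem ne_one_of_R {ψ ψ' : W →* ℂˣ} (hψ : ψ ≠ 1) (h : R E ψ ψ') : ψ' ≠ 1 := by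
  rintro rfl
  exact hψ (R_one_left E ((R_equiv E).symm h))

/-- a semiregular group of automorphisms of an abelian group is semiregular on the dual -/
theorem dual_semiregular [Finite W] (hW : ∀ a b : W, a * b = b * a)
    (hE : ∀ σ ∈ E, ∀ w, w ≠ 1 → σ w = w → σ = 1) {σ : MulAut W} (hσ : σ ∈ E) {ψ : W →* ℂˣ}
    (hψ : ψ ≠ 1) (h : ∀ w, ψ (σ w) = ψ w) : σ = 1 := by
  by_contra hne
  apply hψ
  let f : W →* W :=
    { toFun := fun w => w⁻¹ * σ w
      map_one' := by simp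
      map_mul' := by
        intro a b
        rw [map_mul, mul_inv_rev, hW b⁻¹ a⁻¹, mul_assoc, mul_assoc, ← mul_assoc b⁻¹, hW b⁻¹ (σ a),
          mul_assoc] }
  have hinj : Function.Injective f := by
    rw [injective_iff_map_eq_one]
    intro w hw
    by_contra hw1
    apply hne
    apply hE σ hσ w hw1
    have : w⁻¹ * σ w = 1 := hw
    rw [inv_mul_eq_one] at this
    exact this.symm
  have hsurj := Finite.surjective_of_injective hinj
  ext w
  obtain ⟨u, rfl⟩ := hsurj w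
  have : ψ (u⁻¹ * σ u) = 1 := by rw [map_mul, h, map_inv, inv_mul_cancel]
  rw [show f u = u⁻¹ * σ u from rfl, this]
  rfl

/-- the number of `E`-conjugates of a nontrivial linear character -/
theorem card_R [Finite W] (hW : ∀ a b : W, a * b = b * a)
    (hE : ∀ σ ∈ E, ∀ w, w ≠ 1 → σ w = w → σ = 1) {ψ : W →* ℂˣ} (hψ : ψ ≠ 1) :
    Nat.card {ψ' : W →* ℂˣ // R E ψ ψ'} = Nat.card E := by
  symm
  apply Nat.card_congr
  refine Equiv.ofBijective (fun σ : E => ⟨ψ.comp (σ.1⁻¹ : MulAut W).toMonoidHom, σ.1, σ.2, fun w => by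
    simp⟩) ⟨?_, ?_⟩
  · intro σ τ h
    have h1 : ∀ w, ψ ((σ.1⁻¹ : MulAut W) w) = ψ ((τ.1⁻¹ : MulAut W) w) := fun w =>
      DFunLike.congr_fun (congrArg Subtype.val h) w
    have h2 : (σ.1⁻¹ * τ.1 : MulAut W) = 1 := by
      apply dual_semiregular E hW hE (E.mul_mem (E.inv_mem σ.2) τ.2) hψ
      intro w
      rw [MulAut.mul_apply, h1, MulAut.inv_apply_self]
    apply Subtype.ext
    rw [inv_mul_eq_one] at h2
    exact h2
  · rintro ⟨ψ', σ, hσ, h⟩
    refine ⟨⟨σ, hσ⟩, Subtype.ext ?_⟩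
    ext w
    simp only [MonoidHom.comp_apply, MulEquiv.coe_toMonoidHom]
    rw [← h, MulAut.apply_inv_self]

/-- `cc f ψ = [f, 1] - [f, ψ]` -/
noncomputable def cc [Fintype W] (f : W → ℂ) (ψ : W →* ℂˣ) : ℂ :=
  classInner f (fun w => ((1 : W →* ℂˣ) w : ℂ)) - classInner f (fun w => (ψ w : ℂ))

theorem cc_eq [Fintype W] (f : W → ℂ) (ψ : W →* ℂˣ) :
    cc f ψ = (Nat.card W : ℂ)⁻¹ * ∑ w, f w * (1 - conj (ψ w : ℂ)) := by
  simp only [cc, classInner, ← mul_sub, ← Finset.sum_sub_distrib]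
  congr 1
  apply Finset.sum_congr rfl
  intro w _
  simp [mul_sub]

theorem cc_one [Fintype W] (f : W → ℂ) : cc f 1 = 0 := by simp [cc]

theorem apply_eq_neg_sum_cc [Fintype W] (hW : ∀ a b : W, a * b = b * a) [Fintype (W →* ℂˣ)]
    (f : W → ℂ) {w : W} (hw : w ≠ 1) : f w = - ∑ ψ : W →* ℂˣ, cc f ψ * (ψ w : ℂ) := by
  rw [fourier hW f w]
  simp only [cc, sub_mul, Finset.sum_sub_distrib]
  rw [← Finset.mul_sum, sum_lin_apply hW hw]
  ring

open Classical in
/-- the Gram matrix -/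
theorem gram [Fintype W] (hW : ∀ a b : W, a * b = b * a)
    (hE : ∀ σ ∈ E, ∀ w, w ≠ 1 → σ w = w → σ = 1) {𝓑 : Type*} [Fintype 𝓑] (X : 𝓑 → W → ℂ)
    (hT : ∀ w w', w' ≠ 1 → ∑ χ, X χ w * conj (X χ w') =
      if ∃ σ ∈ E, σ w' = w then (Nat.card W : ℂ) else 0)
    {ψ ψ' : W →* ℂˣ} (hψ : ψ ≠ 1) (hψ' : ψ' ≠ 1) :
    ∑ χ, cc (X χ) ψ * conj (cc (X χ) ψ') = (Nat.card E : ℂ) + if R E ψ ψ' then 1 else 0 := by
  have hq : (Nat.card W : ℂ) ≠ 0 := by exact_mod_cast Nat.card_pos.ne'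
  -- orbit sums
  have horb : ∀ (g : W → ℂ) (w' : W), w' ≠ 1 →
      ∑ w, g w * (if ∃ σ ∈ E, σ w' = w then (Nat.card W : ℂ) else 0) =
        (Nat.card W : ℂ) * ∑ σ : E, g (σ.1 w') := by
    intro g w' hw'
    simp only [mul_ite, mul_zero]
    rw [← Finset.sum_filter]
    have himg : Finset.univ.filter (fun w => ∃ σ ∈ E, σ w' = w) =
        Finset.univ.image (fun σ : E => σ.1 w') := by
      ext w
      simp only [Finset.mem_filter, Finset.mem_univ, true_and, Finset.mem_image, Subtype.exists,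
        exists_prop]
    rw [himg, Finset.sum_image, Finset.mul_sum]
    · apply Finset.sum_congr rfl
      intro σ _
      ring
    · intro σ _ τ _ h
      have h2 : (τ.1⁻¹ * σ.1 : MulAut W) = 1 := by
        apply hE _ (E.mul_mem (E.inv_mem τ.2) σ.2) w' hw'
        rw [MulAut.mul_apply]
        dsimp only at h
        rw [h, MulAut.inv_apply_self]
      apply Subtype.ext
      rw [inv_mul_eq_one] at h2
      exact h2.symm
  have e1 : ∑ χ, cc (X χ) ψ * conj (cc (X χ) ψ') = ((Nat.card W : ℂ)⁻¹) ^ 2 *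
      ∑ w', (1 - (ψ' w' : ℂ)) * ∑ w, (1 - conj (ψ w : ℂ)) * ∑ χ, X χ w * conj (X χ w') := by
    simp only [cc_eq, map_mul, map_inv₀, map_natCast, map_sum, map_sub, map_one, Complex.conj_conj]
    simp only [Finset.mul_sum, Finset.sum_mul]
    rw [Finset.sum_comm]
    apply Finset.sum_congr rfl
    intro w' _
    rw [Finset.sum_comm]
    apply Finset.sum_congr rfl
    intro w _
    apply Finset.sum_congr rfl
    intro χ _
    ring
  have e2 : ∀ w', (1 - (ψ' w' : ℂ)) * ∑ w, (1 - conj (ψ w : ℂ)) * ∑ χ, X χ w * conj (X χ w') =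
      (Nat.card W : ℂ) * ∑ σ : E, (1 - (ψ' w' : ℂ)) * (1 - conj (ψ (σ.1 w') : ℂ)) := by
    intro w'
    by_cases hw' : w' = 1
    · subst hw'
      simp
    · simp only [hT _ w' hw']
      rw [horb _ w' hw', Finset.mul_sum, Finset.mul_sum, Finset.mul_sum]
      apply Finset.sum_congr rfl
      intro σ _
      ring
  simp only [e2] at e1
  rw [e1, ← Finset.mul_sum, Finset.sum_comm]
  have e3 : ∀ σ : E, ∑ w', (1 - (ψ' w' : ℂ)) * (1 - conj (ψ (σ.1 w') : ℂ)) =
      (Nat.card W : ℂ) * (1 + if ψ' = ψ.comp (σ.1 : MulAut W).toMonoidHom then 1 else 0) := by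
    intro σ
    have hσ1 : ψ.comp (σ.1 : MulAut W).toMonoidHom ≠ 1 := by
      intro h
      apply hψ
      ext w
      have := DFunLike.congr_fun h ((σ.1⁻¹ : MulAut W) w)
      simp only [MonoidHom.comp_apply, MulEquiv.coe_toMonoidHom, MulAut.apply_inv_self] at this
      rw [this]; rfl
    have h1 := sum_apply_lin hψ'
    have h2 : ∑ w', conj (ψ (σ.1 w') : ℂ) = 0 := by
      have := sum_apply_lin hσ1
      simp only [MonoidHom.comp_apply, MulEquiv.coe_toMonoidHom] at this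
      rw [← map_sum, this, map_zero]
    have h3 := classInner_lin ψ' (ψ.comp (σ.1 : MulAut W).toMonoidHom)
    simp only [classInner, MonoidHom.comp_apply, MulEquiv.coe_toMonoidHom] at h3
    have h4 : ∑ w', (ψ' w' : ℂ) * conj (ψ (σ.1 w') : ℂ) = (Nat.card W : ℂ) *
        if ψ' = ψ.comp (σ.1 : MulAut W).toMonoidHom then 1 else 0 := by
      rw [← h3]; field_simp
    have : ∀ w', (1 - (ψ' w' : ℂ)) * (1 - conj (ψ (σ.1 w') : ℂ)) =
        1 - (ψ' w' : ℂ) - conj (ψ (σ.1 w') : ℂ) + (ψ' w' : ℂ) * conj (ψ (σ.1 w') : ℂ) :=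
      fun w' => by ring
    simp only [this, Finset.sum_add_distrib, Finset.sum_sub_distrib, h1, h2, h4]
    simp only [Finset.sum_const, Finset.card_univ, nsmul_eq_mul, mul_one, Nat.card_eq_fintype_card]
    ring
  simp only [e3]
  rw [← Finset.mul_sum, Finset.sum_add_distrib]
  have e4 : ∑ σ : E, (if ψ' = ψ.comp (σ.1 : MulAut W).toMonoidHom then (1:ℂ) else 0) =
      if R E ψ ψ' then 1 else 0 := by
    split_ifs with hR
    · obtain ⟨σ, hσ, h⟩ := hR
      rw [Finset.sum_eq_single (⟨σ⁻¹, E.inv_mem hσ⟩ : E)]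
      · rw [if_pos]
        ext w
        simp only [MonoidHom.comp_apply, MulEquiv.coe_toMonoidHom]
        rw [← h, MulAut.apply_inv_self]
      · intro τ _ hτ
        rw [if_neg]
        intro h'
        apply hτ
        have h2 : (τ.1 * σ : MulAut W) = 1 := by
          apply dual_semiregular E hW hE (E.mul_mem τ.2 hσ) hψ
          intro w
          rw [MulAut.mul_apply, ← h w, h']
          rfl
        apply Subtype.ext
        exact eq_inv_of_mul_eq_one_left h2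
      · intro h'; exact absurd (Finset.mem_univ _) h'
    · apply Finset.sum_eq_zero
      intro σ _
      rw [if_neg]
      intro h'
      apply hR
      refine ⟨σ.1⁻¹, E.inv_mem σ.2, fun w => ?_⟩
      rw [h']
      simp
  rw [e4]
  simp only [Finset.sum_const, Finset.card_univ, nsmul_eq_mul, mul_one, Nat.card_eq_fintype_card]
  rw [Nat.card_eq_fintype_card] at hq
  field_simp

end Cfsg.Agent.Lib.Helper23.DualAct
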