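import Mathlib

/-! A lattice lemma ("coherence"): integer vectors `v_i` with Gram matrix `m J + I`, orthogonal to a
positive vector. -/

set_option autoImplicit false

namespace Cfsg.Agent.Lib.Helper23.Lattice

open Finset

variable {𝓑 : Type*} [Fintype 𝓑] [DecidableEq 𝓑]

/-- an integer vector of norm 2 orthogonal to a positive vector is `e_α - e_β` -/
theorem norm_two (w f : 𝓑 → ℤ) (hf : ∀ χ, 0 < f χ) (h2 : ∑ χ, w χ ^ 2 = 2)
    (h0 : ∑ χ, w χ * f χ = 0) :
    ∃ α β, α ≠ β ∧ ∀ χ, w χ = (if χ = α then 1 else 0) - (if χ = β then 1 else 0) := by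
  have hle : ∀ χ, w χ ^ 2 ≤ 2 := fun χ => h2 ▸ Finset.single_le_sum (f := fun χ => w χ ^ 2)
    (fun _ _ => sq_nonneg _) (mem_univ χ)
  have hb : ∀ χ, -1 ≤ w χ ∧ w χ ≤ 1 := fun χ => by constructor <;> nlinarith [hle χ]
  obtain ⟨α, hα⟩ : ∃ α, 0 < w α := by
    by_contra hcon
    push Not at hcon
    have h := (Finset.sum_eq_zero_iff_of_nonpos
      (fun χ _ => mul_nonpos_of_nonpos_of_nonneg (hcon χ) (hf χ).le)).1 h0
    have hw : ∀ χ, w χ = 0 := fun χ => by
      rcases mul_eq_zero.1 (h χ (mem_univ χ)) with h | h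
      · exact h
      · exact absurd h (hf χ).ne'
    simp [hw] at h2
  obtain ⟨β, hβ⟩ : ∃ β, w β < 0 := by
    by_contra hcon
    push Not at hcon
    have h := (Finset.sum_eq_zero_iff_of_nonneg
      (fun χ _ => mul_nonneg (hcon χ) (hf χ).le)).1 h0
    have hw : ∀ χ, w χ = 0 := fun χ => by
      rcases mul_eq_zero.1 (h χ (mem_univ χ)) with h | h
      · exact h
      · exact absurd h (hf χ).ne'
    simp [hw] at h2
  have hα1 : w α = 1 := by have := hb α; omega
  have hβ1 : w β = -1 := by have := hb β; omega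
  have hne : α ≠ β := by rintro rfl; omega
  have hrest : ∀ χ, χ ≠ α → χ ≠ β → w χ = 0 := by
    intro χ h1 h2'
    by_contra hχ
    have h3 := Finset.sum_le_sum_of_subset_of_nonneg (s := {α, β, χ}) (t := univ)
      (f := fun i => w i ^ 2) (subset_univ _) (fun i _ _ => sq_nonneg (w i))
    rw [Finset.sum_insert (by simp [hne, h1.symm]), Finset.sum_insert (by simp [h2'.symm]),
      Finset.sum_singleton, h2, hα1, hβ1] at h3
    have h4 : 0 < w χ ^ 2 := by positivity
    linarith
  refine ⟨α, β, hne, fun χ => ?_⟩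
  by_cases h1 : χ = α
  · subst h1; simp [hα1, hne]
  · by_cases h2' : χ = β
    · subst h2'; simp [hβ1, h1]
    · simp [h1, h2', hrest χ h1 h2']

variable {Ι : Type*} (r : Ι → Ι → Prop) [DecidableRel r]

omit [DecidableEq 𝓑] in
theorem eq_of_rel (hr : Equivalence r) (c : 𝓑 → Ι → ℤ) (m : ℤ)
    (h1 : ∀ i j, ∑ χ, c χ i * c χ j = m + if r i j then 1 else 0) {i j : Ι} (hij : r i j) (χ : 𝓑) :
    c χ i = c χ j := by
  have h : ∑ χ, (c χ i - c χ j) ^ 2 = 0 := by
    have : ∀ χ, (c χ i - c χ j) ^ 2 = c χ i * c χ i - 2 * (c χ i * c χ j) + c χ j * c χ j :=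
      fun χ => by ring
    simp only [this]
    rw [Finset.sum_add_distrib, Finset.sum_sub_distrib, ← Finset.mul_sum, h1, h1, h1,
      if_pos (hr.refl i), if_pos hij, if_pos (hr.refl j)]
    ring
  have h' := (Finset.sum_eq_zero_iff_of_nonneg (fun χ _ => sq_nonneg _)).1 h χ (mem_univ χ)
  have := pow_eq_zero_iff (two_ne_zero) |>.1 h'
  omega

theorem coherent_A (hr : Equivalence r) (c : 𝓑 → Ι → ℤ) (m : ℤ)
    (h1 : ∀ i j, ∑ χ, c χ i * c χ j = m + if r i j then 1 else 0)
    (i₀ : Ι) (α : 𝓑) (β : Ι → 𝓑)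
    (hβ : ∀ j, ¬ r i₀ j → β j ≠ α ∧ ∀ χ, c χ i₀ - c χ j =
      (if χ = α then 1 else 0) - (if χ = β j then 1 else 0)) :
    ∃ (d : ℤ) (μ : Ι → 𝓑), (∀ i j, μ i = μ j ↔ r i j) ∧
      (∀ i j, c (μ j) i = d + if r j i then 1 else 0) ∧
      (∀ χ, (∀ i, μ i ≠ χ) → ∀ i j, c χ i = c χ j) := by
  have heq := fun {i j : Ι} (hij : r i j) (χ : 𝓑) => eq_of_rel r hr c m h1 hij χ
  -- the value at `β j`
  have hd : ∀ j, ¬ r i₀ j → c (β j) i₀ = c α i₀ - 1 := by
    intro j hj
    obtain ⟨hne, hc⟩ := hβ j hj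
    have e1 : ∑ χ, c χ j * c χ j = ∑ χ, (c χ i₀ * c χ i₀ - 2 * (c χ i₀ * ((if χ = α then 1 else 0) -
        (if χ = β j then 1 else 0))) + ((if χ = α then 1 else 0) -
        (if χ = β j then 1 else 0)) ^ 2) := by
      apply Finset.sum_congr rfl
      intro χ _
      rw [← hc χ]; ring
    have e2 : ∑ χ, (c χ i₀ * ((if χ = α then (1:ℤ) else 0) - (if χ = β j then 1 else 0))) =
        c α i₀ - c (β j) i₀ := by
      simp [mul_sub, Finset.sum_sub_distrib]
    have e3 : ∑ χ : 𝓑, ((if χ = α then (1:ℤ) else 0) - (if χ = β j then 1 else 0)) ^ 2 = 2 := by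
      have : ∀ χ : 𝓑, ((if χ = α then (1:ℤ) else 0) - (if χ = β j then 1 else 0)) ^ 2 =
          (if χ = α then 1 else 0) + (if χ = β j then 1 else 0) := by
        intro χ
        by_cases h1 : χ = α
        · subst h1; simp [hne.symm]
        · by_cases h2 : χ = β j
          · subst h2; simp [hne]
          · simp [h1, h2]
      simp only [this]
      simp [Finset.sum_add_distrib]
    rw [Finset.sum_add_distrib, Finset.sum_sub_distrib, ← Finset.mul_sum, e2, e3, h1, h1,
      if_pos (hr.refl j), if_pos (hr.refl i₀)] at e1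
    linarith
  have hval : ∀ i χ, c χ i = if r i₀ i then c χ i₀ else
      c χ i₀ - (if χ = α then 1 else 0) + (if χ = β i then 1 else 0) := by
    intro i χ
    by_cases h : r i₀ i
    · rw [if_pos h]; exact (heq h χ).symm
    · rw [if_neg h]
      have := (hβ i h).2 χ
      linarith
  have hββ : ∀ i j, ¬ r i₀ i → ¬ r i₀ j → (β i = β j ↔ r i j) := by
    intro i j hi hj
    constructor
    · intro h
      by_contra hij
      have e : ∑ χ, c χ i * c χ j = ∑ χ, c χ i * c χ i := by
        apply Finset.sum_congr rfl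
        intro χ _
        rw [hval j χ, hval i χ, if_neg hi, if_neg hj, h]
      rw [h1, h1, if_neg hij, if_pos (hr.refl i)] at e
      omega
    · intro h
      have e := heq h (β i)
      rw [hval i, hval j, if_neg hi, if_neg hj, if_neg (hβ i hi).1] at e
      by_contra hne
      rw [if_pos rfl, if_neg hne] at e
      omega
  refine ⟨c α i₀ - 1, fun i => if r i₀ i then α else β i, ?_, ?_, ?_⟩
  · intro i j
    by_cases hi : r i₀ i
    · by_cases hj : r i₀ j
      · simp only [if_pos hi, if_pos hj, true_iff]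
        exact hr.trans (hr.symm hi) hj
      · simp only [if_pos hi, if_neg hj]
        constructor
        · intro h; exact absurd h.symm (hβ j hj).1
        · intro h; exact absurd (hr.trans hi h) hj
    · by_cases hj : r i₀ j
      · simp only [if_neg hi, if_pos hj]
        constructor
        · intro h; exact absurd h (hβ i hi).1
        · intro h; exact absurd (hr.trans hj (hr.symm h)) hi
      · simp only [if_neg hi, if_neg hj]
        exact hββ i j hi hj
  · intro i j
    by_cases hj : r i₀ j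
    · simp only [if_pos hj]
      by_cases hi : r i₀ i
      · rw [hval i α, if_pos hi, if_pos (hr.trans (hr.symm hj) hi)]; ring
      · rw [hval i α, if_neg hi, if_pos rfl, if_neg (hβ i hi).1.symm,
          if_neg (fun h => hi (hr.trans hj h))]
    · simp only [if_neg hj]
      by_cases hi : r i₀ i
      · rw [hval i, if_pos hi, hd j hj, if_neg (fun h => hj (hr.trans hi (hr.symm h)))]; ring
      · rw [hval i, if_neg hi, hd j hj, if_neg (hβ j hj).1]
        by_cases hij : r j i
        · rw [if_pos ((hββ j i hj hi).2 hij), if_pos hij]; ring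
        · rw [if_neg (fun h => hij ((hββ j i hj hi).1 h)), if_neg hij]; ring
  · intro χ hχ
    dsimp only at hχ
    have hα : χ ≠ α := fun h => hχ i₀ (by rw [if_pos (hr.refl i₀)]; exact h.symm)
    have key : ∀ i, c χ i = c χ i₀ := by
      intro i
      rw [hval i χ]
      by_cases h1 : r i₀ i
      · rw [if_pos h1]
      · rw [if_neg h1, if_neg hα, if_neg (fun h3 => hχ i (by rw [if_neg h1]; exact h3.symm))]
        ring
    intro i j
    rw [key i, key j]

/-- two "equivalence relations" covering all pairs: one of them is total -/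
theorem const_or_const {J A B : Type*} (a : J → A) (b : J → B)
    (h : ∀ j k, a j = a k ∨ b j = b k) : (∀ j k, a j = a k) ∨ (∀ j k, b j = b k) := by
  by_cases hA : ∀ j k, a j = a k
  · exact Or.inl hA
  · right
    push Not at hA
    obtain ⟨x, y, hxy⟩ := hA
    have hbxy : b x = b y := (h x y).resolve_left hxy
    have key : ∀ z, b z = b x := by
      intro z
      rcases h z x with h1 | h1
      · rcases h z y with h2 | h2
        · exact absurd (h1.symm.trans h2) hxy
        · rw [h2, hbxy]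
      · exact h1
    intro j k
    rw [key j, key k]

/-- the coherence lemma -/
theorem coherent (hr : Equivalence r) (c : 𝓑 → Ι → ℤ) (m : ℤ) (f : 𝓑 → ℤ) (hf : ∀ χ, 0 < f χ)
    (h1 : ∀ i j, ∑ χ, c χ i * c χ j = m + if r i j then 1 else 0)
    (h0 : ∀ i, ∑ χ, c χ i * f χ = 0) (i₀ j₀ : Ι) (h₀ : ¬ r i₀ j₀) :
    ∃ (d δ : ℤ) (μ : Ι → 𝓑), (δ = 1 ∨ δ = -1) ∧ (∀ i j, μ i = μ j ↔ r i j) ∧
      (∀ i j, c (μ j) i = d - δ * if r j i then 1 else 0) ∧
      (∀ χ, (∀ i, μ i ≠ χ) → ∀ i j, c χ i = c χ j) := by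
  classical
  have hex : ∀ j, ¬ r i₀ j → ∃ ab : 𝓑 × 𝓑, ab.1 ≠ ab.2 ∧ ∀ χ, c χ i₀ - c χ j =
      (if χ = ab.1 then 1 else 0) - (if χ = ab.2 then 1 else 0) := by
    intro j hj
    obtain ⟨α, β, hne, h⟩ := norm_two (fun χ => c χ i₀ - c χ j) f hf (by
      have : ∀ χ, (c χ i₀ - c χ j) ^ 2 = c χ i₀ * c χ i₀ - 2 * (c χ i₀ * c χ j) + c χ j * c χ j :=
        fun χ => by ring
      simp only [this]
      rw [Finset.sum_add_distrib, Finset.sum_sub_distrib, ← Finset.mul_sum, h1, h1, h1,
        if_pos (hr.refl i₀), if_neg hj, if_pos (hr.refl j)]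
      ring) (by
      simp only [sub_mul]
      rw [Finset.sum_sub_distrib, h0, h0, sub_zero])
    exact ⟨(α, β), hne, h⟩
  choose ab hab1 hab2 using hex
  have hcover : ∀ j k : {j // ¬ r i₀ j}, (ab j.1 j.2).1 = (ab k.1 k.2).1 ∨
      (ab j.1 j.2).2 = (ab k.1 k.2).2 := by
    rintro ⟨j, hj⟩ ⟨k, hk⟩
    dsimp only
    have e1 : ∑ χ, (c χ i₀ - c χ j) * (c χ i₀ - c χ k) = 1 + if r j k then 1 else 0 := by
      have : ∀ χ, (c χ i₀ - c χ j) * (c χ i₀ - c χ k) =
          c χ i₀ * c χ i₀ - c χ i₀ * c χ k - c χ j * c χ i₀ + c χ j * c χ k := fun χ => by ring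
      simp only [this]
      rw [Finset.sum_add_distrib, Finset.sum_sub_distrib, Finset.sum_sub_distrib, h1, h1, h1, h1,
        if_pos (hr.refl i₀), if_neg hk, if_neg (fun h => hj (hr.symm h))]
      ring
    have e2 : ∑ χ, (c χ i₀ - c χ j) * (c χ i₀ - c χ k) =
        ((if (ab j hj).1 = (ab k hk).1 then 1 else 0) - (if (ab j hj).1 = (ab k hk).2 then 1 else 0))
        - ((if (ab j hj).2 = (ab k hk).1 then 1 else 0) -
          (if (ab j hj).2 = (ab k hk).2 then 1 else 0)) := by
      simp only [hab2 j hj, hab2 k hk, sub_mul, Finset.sum_sub_distrib, ite_mul, one_mul, zero_mul,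
        Finset.sum_ite_eq', Finset.mem_univ, if_true]
    rw [e1] at e2
    by_contra hcon
    push Not at hcon
    rw [if_neg hcon.1, if_neg hcon.2] at e2
    have h3 : (0:ℤ) ≤ if r j k then 1 else 0 := by split_ifs <;> norm_num
    have h4 : (0:ℤ) ≤ if (ab j hj).1 = (ab k hk).2 then 1 else 0 := by split_ifs <;> norm_num
    have h5 : (0:ℤ) ≤ if (ab j hj).2 = (ab k hk).1 then 1 else 0 := by split_ifs <;> norm_num
    linarith
  rcases const_or_const _ _ hcover with hA | hB
  · obtain ⟨d, μ, h2, h3, h4⟩ := coherent_A r hr c m h1 i₀ (ab j₀ h₀).1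
      (fun j => if h : ¬ r i₀ j then (ab j h).2 else (ab j₀ h₀).1) (by
        intro j hj
        rw [dif_pos hj]
        have := hA ⟨j, hj⟩ ⟨j₀, h₀⟩
        dsimp only at this
        rw [← this]
        exact ⟨(hab1 j hj).symm, hab2 j hj⟩)
    refine ⟨d, -1, μ, Or.inr rfl, h2, ?_, h4⟩
    intro i j
    rw [h3]; ring
  · obtain ⟨d, μ, h2, h3, h4⟩ := coherent_A r hr (fun χ i => - c χ i) m
      (by intro i j; simp only [neg_mul_neg]; exact h1 i j) i₀ (ab j₀ h₀).2
      (fun j => if h : ¬ r i₀ j then (ab j h).1 else (ab j₀ h₀).2) (by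
        intro j hj
        rw [dif_pos hj]
        have := hB ⟨j, hj⟩ ⟨j₀, h₀⟩
        dsimp only at this
        rw [← this]
        refine ⟨hab1 j hj, fun χ => ?_⟩
        have := hab2 j hj χ
        linarith)
    refine ⟨-d, 1, μ, Or.inl rfl, h2, ?_, ?_⟩
    · intro i j
      have := h3 i j
      linarith
    · intro χ hχ i j
      have := h4 χ hχ i j
      linarith

end Cfsg.Agent.Lib.Helper23.Lattice
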