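import Cfsg.Agent.Lib.Helper23.DualAct
import Cfsg.Agent.Lib.Helper23.Lattice
import Cfsg.Agent.Lib.Helper23.PPrimeCore
import Cfsg.Agent.Lib.Helper23.CharDeg
import Cfsg.Agent.S0942
import Cfsg.Agent.S0947
import Cfsg.Agent.S0925

/-! The principal block of a group with an abelian Sylow `p`-subgroup `P` such that
`C_G(y) ∩ N_G(P) = C_G(P)` for all `1 ≠ y ∈ P`. -/

set_option autoImplicit false

universe u

namespace Cfsg.Agent.Lib.Helper23.FrobN

open Cfsg Cfsg.Agent.CharLib Cfsg.Agent.BlockLib Cfsg.Agent.Lib.Helper10 Cfsg.Agent.Lib.Helper23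
  Cfsg.Agent.Lib.Helper23.DualAct
open scoped ComplexConjugate

variable {G : Type u} [Group G] [Finite G] {p : ℕ} [Fact p.Prime] (P : Sylow p G)

omit [Finite G] [Fact p.Prime] in
theorem le_centralizer_singleton (hab : IsMulCommutative P) {y : G} (hy : y ∈ (P : Subgroup G)) :
    (P : Subgroup G) ≤ Subgroup.centralizer ({y} : Set G) := by
  intro w hw
  rw [Subgroup.mem_centralizer_singleton_iff]
  have := hab.is_comm.comm (⟨w, hw⟩ : P) ⟨y, hy⟩
  exact congrArg Subtype.val this

/-- the centralizer of `y` has a normal `p`-complement -/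
theorem centralizer_pnil (hab : IsMulCommutative P) {y : G} (hy : y ∈ (P : Subgroup G))
    (hfr : Subgroup.centralizer ({y} : Set G) ⊓ Subgroup.normalizer ((P : Subgroup G) : Set G) =
      Subgroup.centralizer ((P : Subgroup G) : Set G)) :
    (∃ k : ℕ, (pPrimeCore p (Subgroup.centralizer ({y} : Set G))).index = p ^ k) ∧
    (∀ v : Subgroup.centralizer ({y} : Set G), ¬ p ∣ orderOf v →
      v ∈ pPrimeCore p (Subgroup.centralizer ({y} : Set G))) ∧
    p ^ (Nat.card (Subgroup.centralizer ({y} : Set G))).factorization p = Nat.card P := by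
  have hp : p.Prime := Fact.out
  have hle := le_centralizer_singleton P hab hy
  set H := Subgroup.centralizer ({y} : Set G) with hH
  let Q : Sylow p H := P.subtype hle
  have hQ : (Q : Subgroup H) = (P : Subgroup G).subgroupOf H := Sylow.coe_subtype ..
  have hNC : Subgroup.normalizer ((Q : Subgroup H) : Set H) ≤
      Subgroup.centralizer ((Q : Subgroup H) : Set H) := by
    intro h hh
    have h1 : (h : G) ∈ Subgroup.normalizer ((P : Subgroup G) : Set G) := by
      rw [Subgroup.mem_normalizer_iff]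
      intro g
      constructor
      · intro hg
        have := (Subgroup.mem_normalizer_iff.1 hh ⟨g, hle hg⟩).1
          (by rw [hQ, Subgroup.mem_subgroupOf]; exact hg)
        rw [hQ, Subgroup.mem_subgroupOf] at this
        exact this
      · intro hg
        have hgH : g ∈ H := by
          have := H.mul_mem (H.mul_mem (H.inv_mem h.2) (hle hg)) h.2
          simpa [mul_assoc] using this
        have := (Subgroup.mem_normalizer_iff.1 hh ⟨g, hgH⟩).2
          (by rw [hQ, Subgroup.mem_subgroupOf]; exact hg)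
        rw [hQ, Subgroup.mem_subgroupOf] at this
        exact this
    have h2 : (h : G) ∈ Subgroup.centralizer ((P : Subgroup G) : Set G) := by
      rw [← hfr]; exact ⟨h.2, h1⟩
    rw [Subgroup.mem_centralizer_iff]
    intro w hw
    have hw' : (w : G) ∈ (P : Subgroup G) := by
      have : w ∈ (Q : Subgroup H) := hw
      rw [hQ, Subgroup.mem_subgroupOf] at this
      exact this
    apply Subtype.ext
    exact Subgroup.mem_centralizer_iff.1 h2 w hw'
  have hcomp := MonoidHom.ker_transferSylow_isComplement' Q hNC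
  set K := (MonoidHom.transferSylow Q hNC).ker with hK
  have hcardQ : Nat.card Q = p ^ (Nat.card H).factorization p := Q.card_eq_multiplicity
  have hmul := hcomp.card_mul_card
  have hKcop : (Nat.card K).Coprime p := by
    have h1 : Nat.card K = Nat.card H / p ^ (Nat.card H).factorization p := by
      rw [hcardQ] at hmul
      exact (Nat.div_eq_of_eq_mul_left (pow_pos hp.pos _) hmul.symm).symm
    rw [h1]
    exact (Nat.coprime_ordCompl hp Nat.card_pos.ne').symm
  have hKle : K ≤ pPrimeCore p H := h23_le_pPrimeCore inferInstance hKcop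
  refine ⟨?_, ?_, ?_⟩
  · have h1 : (pPrimeCore p H).index ∣ K.index := Subgroup.index_dvd_of_le hKle
    rw [hcomp.symm.index_eq_card, hcardQ] at h1
    obtain ⟨k, -, hk⟩ := (Nat.dvd_prime_pow hp).1 h1
    exact ⟨k, hk⟩
  · intro v hv
    apply hKle
    rw [hK, MonoidHom.mem_ker]
    have h1 : orderOf (MonoidHom.transferSylow Q hNC v) ∣ orderOf v := orderOf_map_dvd _ v
    obtain ⟨k, hk⟩ := IsPGroup.iff_orderOf.1 Q.2 (MonoidHom.transferSylow Q hNC v)
    rw [hk] at h1
    rcases Nat.eq_zero_or_pos k with rfl | hk0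
    · rw [pow_zero, orderOf_eq_one_iff] at hk
      exact hk
    · exact absurd ((dvd_pow_self p hk0.ne').trans h1) hv
  · rw [← hcardQ]
    exact Nat.card_congr (Subgroup.subgroupOfEquivOfLe hle).toEquiv

/-- the Frobenius-type hypothesis on the normalizer -/
def Frob (P : Sylow p G) : Prop := ∀ y : G, y ∈ (P : Subgroup G) → y ≠ 1 →
  Subgroup.centralizer ({y} : Set G) ⊓ Subgroup.normalizer ((P : Subgroup G) : Set G) =
    Subgroup.centralizer ((P : Subgroup G) : Set G)

/-- the group of automorphisms of `P` induced by its normalizer -/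
def autE (P : Sylow p G) : Subgroup (MulAut ↥(P : Subgroup G)) :=
  (P : Subgroup G).normalizerMonoidHom.range

omit [Finite G] [Fact p.Prime] in
theorem card_autE : Nat.card (autE P) =
    (Subgroup.centralizer ((P : Subgroup G) : Set G)).relIndex
      (Subgroup.normalizer ((P : Subgroup G) : Set G)) := by
  rw [autE, ← Subgroup.index_ker, Subgroup.normalizerMonoidHom_ker, Subgroup.relIndex]

omit [Finite G] [Fact p.Prime] in
theorem mem_autE {σ : MulAut ↥(P : Subgroup G)} : σ ∈ autE P ↔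
    ∃ n ∈ Subgroup.normalizer ((P : Subgroup G) : Set G), ∀ w : ↥(P : Subgroup G),
      ((σ w : ↥(P : Subgroup G)) : G) = n * w * n⁻¹ := by
  constructor
  · rintro ⟨n, rfl⟩
    exact ⟨n, n.2, fun w => rfl⟩
  · rintro ⟨n, hn, h⟩
    refine ⟨⟨n, hn⟩, ?_⟩
    ext w
    rw [h w]
    rfl

omit [Finite G] [Fact p.Prime] in
theorem autE_semiregular (hfrob : Frob P) :
    ∀ σ ∈ autE P, ∀ w, w ≠ 1 → σ w = w → σ = 1 := by
  intro σ hσ w hw h
  obtain ⟨n, hn, hσn⟩ := (mem_autE P).1 hσ
  have h1 : n ∈ Subgroup.centralizer ({(w : G)} : Set G) := by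
    rw [Subgroup.mem_centralizer_singleton_iff]
    have := hσn w
    rw [h] at this
    rw [eq_mul_inv_iff_mul_eq] at this
    exact this.symm
  have h2 : n ∈ Subgroup.centralizer ((P : Subgroup G) : Set G) := by
    rw [← hfrob w w.2 (fun h' => hw (Subtype.ext h'))]
    exact ⟨h1, hn⟩
  ext u
  rw [hσn u]
  have := Subgroup.mem_centralizer_iff.1 h2 u u.2
  rw [← this]
  simp

variable {M : Ideal AlgInt}

theorem apply_of_isPPart (hM : IsPModular p M) (hab : IsMulCommutative P) (hfrob : Frob P)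
    {χ : IrrCharacter G} (hχ : χ ∈ principalBlock M G) {z y : G} (hzy : IsPPart p z y)
    (hy : y ∈ (P : Subgroup G)) (hy1 : y ≠ 1) : (χ : G → ℂ) z = (χ : G → ℂ) y := by
  obtain ⟨v, rfl, hc, hk, hv⟩ := hzy
  have hvH : v ∈ Subgroup.centralizer ({y} : Set G) :=
    Subgroup.mem_centralizer_singleton_iff.2 hc.eq.symm
  apply Cfsg.Agent.S0942.result p M hM y hk v _ χ hχ
  refine ⟨⟨v, hvH⟩, ?_, rfl⟩
  apply (centralizer_pnil P hab hy (hfrob y hy hy1)).2.1
  rwa [Subgroup.orderOf_mk]

theorem sum_normSq_principal (hM : IsPModular p M) (hab : IsMulCommutative P) (hfrob : Frob P)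
    {y : G} (hy : y ∈ (P : Subgroup G)) (hy1 : y ≠ 1) :
    ∑ᶠ ζ ∈ principalBlock M G, ‖(ζ : G → ℂ) y‖ ^ 2 = (Nat.card P : ℝ) := by
  have hp : p.Prime := Fact.out
  obtain ⟨h1, -, h3⟩ := centralizer_pnil P hab hy (hfrob y hy hy1)
  have hk : ∃ k : ℕ, orderOf y = p ^ k := by
    obtain ⟨k, hk⟩ := IsPGroup.iff_orderOf.1 P.2 ⟨y, hy⟩
    exact ⟨k, by rw [← hk, Subgroup.orderOf_mk]⟩
  have := (Cfsg.Agent.S0947.result p M hM y hk hy1 1
    (by rw [orderOf_one]; exact hp.one_lt.ne' ∘ Nat.dvd_one.1)).2 h1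
  rw [h3] at this
  simpa using this

omit [Finite G] in
theorem isPPart_self {y : G} (hy : y ∈ (P : Subgroup G)) : IsPPart p y y := by
  have hp : p.Prime := Fact.out
  obtain ⟨k, hk⟩ := IsPGroup.iff_orderOf.1 P.2 ⟨y, hy⟩
  exact ⟨1, mul_one y, Commute.one_right y, ⟨k, by rw [← hk, Subgroup.orderOf_mk]⟩,
    by rw [orderOf_one]; exact hp.one_lt.ne' ∘ Nat.dvd_one.1⟩

open Classical in
theorem sum_principal (hM : IsPModular p M) (hab : IsMulCommutative P) (hfrob : Frob P)
    [Fintype (principalBlock M G)] (w w' : ↥(P : Subgroup G)) (hw' : w' ≠ 1) :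
    ∑ χ : principalBlock M G, (χ.1 : G → ℂ) w * conj ((χ.1 : G → ℂ) w') =
      if ∃ σ ∈ autE P, σ w' = w then (Nat.card ↥(P : Subgroup G) : ℂ) else 0 := by
  have hsum : ∀ f : IrrCharacter G → ℂ, ∑ χ : principalBlock M G, f χ.1 =
      ∑ᶠ χ ∈ principalBlock M G, f χ := by
    intro f
    rw [← finsum_set_coe_eq_finsum_mem, finsum_eq_sum_of_fintype]
  split_ifs with h
  · obtain ⟨σ, hσ, rfl⟩ := h
    obtain ⟨n, hn, hσn⟩ := (mem_autE P).1 hσ
    have h1 : ∀ χ : IrrCharacter G, (χ : G → ℂ) (σ w') * conj ((χ : G → ℂ) w') =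
        ((‖(χ : G → ℂ) w'‖ ^ 2 : ℝ) : ℂ) := by
      intro χ
      rw [hσn, isClassFunction_of_char (isCharacter_of_irr χ.2), Complex.mul_conj,
        Complex.normSq_eq_norm_sq]
    simp only [h1]
    rw [← Complex.ofReal_sum]
    have h2 := sum_normSq_principal P hM hab hfrob w'.2 (fun h' => hw' (Subtype.ext h'))
    rw [← finsum_set_coe_eq_finsum_mem, finsum_eq_sum_of_fintype] at h2
    rw [h2]
    simp
  · have h1 : ¬ IsConj (w : G) (w' : G) := by
      intro hc
      apply h
      rw [isConj_comm, isConj_iff] at hc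
      obtain ⟨g, hg⟩ := hc
      obtain ⟨n, hn, hn'⟩ := P.conj_eq_normalizer_conj_of_mem (w' : G) g⁻¹ w'.2
        (by rw [inv_inv, hg]; exact w.2)
      rw [inv_inv, hg] at hn'
      refine ⟨(P : Subgroup G).normalizerMonoidHom ⟨n⁻¹, inv_mem hn⟩, ⟨_, rfl⟩, ?_⟩
      apply Subtype.ext
      rw [hn']
      show n⁻¹ * (w' : G) * n⁻¹⁻¹ = _
      rw [inv_inv]
    have h2 := (Cfsg.Agent.S0925.result p M hM).2 (w : G) (w' : G) w w' (isPPart_self P w.2)
      (isPPart_self P w'.2) h1 (principalBlock M G) ⟨trivIrr G, rfl⟩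
    rw [hsum (fun χ => (χ : G → ℂ) w * conj ((χ : G → ℂ) w'))]
    rw [← h2]
    apply finsum_congr
    intro χ
    apply finsum_congr
    intro _
    rw [isCharacter_inv (isCharacter_of_irr χ.2)]

end Cfsg.Agent.Lib.Helper23.FrobN
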