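import Cfsg.Agent.Lib.Helper23.FrobN

/-! The structure theorem for the principal block (abelian Sylow subgroup, Frobenius-type
normalizer). -/

set_option autoImplicit false

universe u

namespace Cfsg.Agent.Lib.Helper23.FrobN

open Cfsg Cfsg.Agent.CharLib Cfsg.Agent.BlockLib Cfsg.Agent.Lib.Helper10 Cfsg.Agent.Lib.Helper23
  Cfsg.Agent.Lib.Helper23.DualAct
open scoped ComplexConjugate

variable {G : Type u} [Group G] [Finite G] {p : ℕ} [Fact p.Prime] (P : Sylow p G)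
  {M : Ideal AlgInt}

omit [Finite G] [Fact p.Prime] in
theorem comm_of_isMulCommutative (hab : IsMulCommutative P) :
    ∀ a b : ↥(P : Subgroup G), a * b = b * a := fun a b => hab.is_comm.comm a b

omit [Finite G] [Fact p.Prime] in
/-- integrality of `cc` -/
theorem exists_int_cc [Fintype ↥(P : Subgroup G)] {χ : G → ℂ} (hχ : IsCharacter G χ)
    (ψ : ↥(P : Subgroup G) →* ℂˣ) :
    ∃ c : ℤ, (c : ℂ) = cc (fun w : ↥(P : Subgroup G) => χ w) ψ := by
  obtain ⟨a, ha⟩ := classInner_char_nat (isCharacter_restrict hχ (P : Subgroup G))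
    (isCharacter_of_irr (isIrrCharacter_of_hom (1 : ↥(P : Subgroup G) →* ℂˣ)))
  obtain ⟨b, hb⟩ := classInner_char_nat (isCharacter_restrict hχ (P : Subgroup G))
    (isCharacter_of_irr (isIrrCharacter_of_hom ψ))
  refine ⟨(a : ℤ) - b, ?_⟩
  rw [cc, ha, hb]
  push_cast
  rfl

/-- `Φ_ψ` vanishes on the `p`-regular elements -/
theorem sum_cc_mul_apply_regular (hM : IsPModular p M) [Fintype ↥(P : Subgroup G)]
    [Fintype (principalBlock M G)] (ψ : ↥(P : Subgroup G) →* ℂˣ) {g : G} (hg : ¬ p ∣ orderOf g) :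
    ∑ χ : principalBlock M G, cc (fun w : ↥(P : Subgroup G) => (χ.1 : G → ℂ) w) ψ *
      (χ.1 : G → ℂ) g = 0 := by
  have hp : p.Prime := Fact.out
  have hconj : ∀ χ : IrrCharacter G, cc (fun w : ↥(P : Subgroup G) => (χ : G → ℂ) w) ψ =
      conj (cc (fun w : ↥(P : Subgroup G) => (χ : G → ℂ) w) ψ) := by
    intro χ
    obtain ⟨c, hc⟩ := exists_int_cc P (isCharacter_of_irr χ.2) ψ
    rw [← hc, map_intCast]
  have h1 : ∀ χ : principalBlock M G, cc (fun w : ↥(P : Subgroup G) => (χ.1 : G → ℂ) w) ψ *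
      (χ.1 : G → ℂ) g = (Nat.card ↥(P : Subgroup G) : ℂ)⁻¹ * ∑ w : ↥(P : Subgroup G),
        (1 - (ψ w : ℂ)) * ((χ.1 : G → ℂ) g * conj ((χ.1 : G → ℂ) w)) := by
    intro χ
    rw [hconj χ.1, cc_eq]
    simp only [map_mul, map_inv₀, map_natCast, map_sum, map_sub, map_one, Complex.conj_conj]
    rw [mul_assoc, Finset.sum_mul]
    congr 1
    apply Finset.sum_congr rfl
    intro w _
    ring
  simp only [h1]
  rw [← Finset.mul_sum, Finset.sum_comm]
  apply mul_eq_zero_of_right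
  apply Finset.sum_eq_zero
  intro w _
  rw [← Finset.mul_sum]
  by_cases hw : w = 1
  · subst hw; simp
  · apply mul_eq_zero_of_right
    have hnc : ¬ IsConj (1 : G) (w : G) := by
      intro h
      rw [isConj_one_right] at h
      exact hw (Subtype.ext h)
    have h2 := (Cfsg.Agent.S0925.result p M hM).2 g (w : G) 1 w
      ⟨g, one_mul g, Commute.one_left g, ⟨0, by simp⟩, hg⟩
      (isPPart_self P w.2) hnc (principalBlock M G) ⟨trivIrr G, rfl⟩
    rw [← finsum_set_coe_eq_finsum_mem, finsum_eq_sum_of_fintype] at h2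
    rw [← h2]
    apply Finset.sum_congr rfl
    intro χ _
    rw [isCharacter_inv (isCharacter_of_irr χ.1.2)]

omit [Fact p.Prime] in
theorem exists_ne_one (hab : IsMulCommutative P) (hq : 1 < Nat.card P) :
    ∃ ψ : ↥(P : Subgroup G) →* ℂˣ, ψ ≠ 1 := by
  by_contra hcon
  push Not at hcon
  have h1 := card_lin (comm_of_isMulCommutative P hab)
  have : Subsingleton (↥(P : Subgroup G) →* ℂˣ) := ⟨fun a b => by rw [hcon a, hcon b]⟩
  have h2 : Nat.card (↥(P : Subgroup G) →* ℂˣ) ≤ 1 := Finite.card_le_one_iff_subsingleton.2 this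
  have h3 : Nat.card ↥(P : Subgroup G) = Nat.card P := rfl
  omega

omit [Fact p.Prime] in
theorem exists_not_R (hab : IsMulCommutative P) (hfrob : Frob P)
    (hm : Nat.card (autE P) + 1 < Nat.card P) {ψ : ↥(P : Subgroup G) →* ℂˣ} (hψ : ψ ≠ 1) :
    ∃ ψ' : ↥(P : Subgroup G) →* ℂˣ, ψ' ≠ 1 ∧ ¬ R (autE P) ψ ψ' := by
  classical
  cases nonempty_fintype (↥(P : Subgroup G) →* ℂˣ)
  by_contra hcon
  push Not at hcon
  have hW := comm_of_isMulCommutative P hab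
  have h1 := card_lin hW
  have h2 := card_R (autE P) hW (autE_semiregular P hfrob) hψ
  have h3 : (Finset.univ : Finset (↥(P : Subgroup G) →* ℂˣ)) ⊆
      insert 1 (Finset.univ.filter (fun ψ' => R (autE P) ψ ψ')) := by
    intro ψ' _
    by_cases h : ψ' = 1
    · rw [h]; exact Finset.mem_insert_self _ _
    · exact Finset.mem_insert_of_mem (Finset.mem_filter.2 ⟨Finset.mem_univ _, hcon ψ' h⟩)
  have h4 := (Finset.card_le_card h3).trans (Finset.card_insert_le _ _)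
  rw [Finset.card_univ, ← Nat.card_eq_fintype_card, h1, ← Fintype.card_subtype,
    ← Nat.card_eq_fintype_card, h2] at h4
  have h5 : Nat.card ↥(P : Subgroup G) = Nat.card P := rfl
  omega

open Classical in
/-- the structure theorem -/
theorem structure_thm (hM : IsPModular p M) (hab : IsMulCommutative P) (hfrob : Frob P)
    [Fintype ↥(P : Subgroup G)] (hm : Nat.card (autE P) + 1 < Nat.card P) :
    ∃ (c : IrrCharacter G → (↥(P : Subgroup G) →* ℂˣ) → ℤ) (d δ : ℤ)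
      (ζ : (↥(P : Subgroup G) →* ℂˣ) → IrrCharacter G),
      (∀ χ ψ, (c χ ψ : ℂ) = cc (fun w : ↥(P : Subgroup G) => (χ : G → ℂ) w) ψ) ∧
      (δ = 1 ∨ δ = -1) ∧ (∀ ψ, ψ ≠ 1 → ζ ψ ∈ principalBlock M G) ∧
      (∀ ψ ψ', ψ ≠ 1 → ψ' ≠ 1 → (ζ ψ = ζ ψ' ↔ R (autE P) ψ ψ')) ∧
      (∀ ψ ψ', ψ ≠ 1 → ψ' ≠ 1 → c (ζ ψ') ψ = d - δ * if R (autE P) ψ' ψ then 1 else 0) ∧
      (∀ χ ∈ principalBlock M G, (∀ ψ, ψ ≠ 1 → ζ ψ ≠ χ) →
        ∀ ψ ψ', ψ ≠ 1 → ψ' ≠ 1 → c χ ψ = c χ ψ') := by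
  have hW := comm_of_isMulCommutative P hab
  have hE := autE_semiregular P hfrob
  cases nonempty_fintype (principalBlock M G)
  have hex : ∀ (χ : IrrCharacter G) (ψ : ↥(P : Subgroup G) →* ℂˣ), ∃ c : ℤ, (c : ℂ) =
      cc (fun w : ↥(P : Subgroup G) => (χ : G → ℂ) w) ψ :=
    fun χ ψ => exists_int_cc P (isCharacter_of_irr χ.2) ψ
  choose c hc using hex
  obtain ⟨ψ₀, hψ₀⟩ := exists_ne_one P hab (by omega)
  obtain ⟨ψ₁, hψ₁, hR₁⟩ := exists_not_R P hab hfrob hm hψ₀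
  obtain ⟨d, δ, μ, hδ, h2, h3, h4⟩ := Lattice.coherent
    (𝓑 := principalBlock M G) (Ι := {ψ : ↥(P : Subgroup G) →* ℂˣ // ψ ≠ 1})
    (fun i j => R (autE P) i.1 j.1)
    ⟨fun i => (R_equiv _).refl _, fun h => (R_equiv _).symm h, fun h h' => (R_equiv _).trans h h'⟩
    (fun χ i => c χ.1 i.1) (Nat.card (autE P) : ℤ) (fun χ => (charDegree (χ.1 : G → ℂ) : ℤ))
    (fun χ => by exact_mod_cast charDegree_pos_irr χ.1)
    (by
      intro i j
      have := gram (autE P) hW hE (fun (χ : principalBlock M G) (w : ↥(P : Subgroup G)) =>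
        (χ.1 : G → ℂ) w) (fun w w' hw' => by rw [sum_principal P hM hab hfrob w w' hw']; congr) i.2 j.2
      simp only [← hc, map_intCast] at this
      have h' : ((∑ χ : principalBlock M G, c χ.1 i.1 * c χ.1 j.1 : ℤ) : ℂ) =
          (((Nat.card (autE P) : ℤ) + if R (autE P) i.1 j.1 then 1 else 0 : ℤ) : ℂ) := by
        push_cast
        rw [this]
      exact_mod_cast h')
    (by
      intro i
      have := sum_cc_mul_apply_regular P hM (M := M) i.1 (g := 1)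
        (by rw [orderOf_one]; exact (Fact.out : p.Prime).one_lt.ne' ∘ Nat.dvd_one.1)
      simp only [← hc, ← charDegree_cast_irr] at this
      exact_mod_cast this)
    ⟨ψ₀, hψ₀⟩ ⟨ψ₁, hψ₁⟩ hR₁
  refine ⟨c, d, δ, fun ψ => if h : ψ ≠ 1 then (μ ⟨ψ, h⟩).1 else trivIrr G, hc, hδ, ?_, ?_, ?_, ?_⟩
  · intro ψ hψ
    dsimp only
    rw [dif_pos hψ]
    exact (μ ⟨ψ, hψ⟩).2
  · intro ψ ψ' hψ hψ'
    dsimp only
    rw [dif_pos hψ, dif_pos hψ', ← h2 ⟨ψ, hψ⟩ ⟨ψ', hψ'⟩]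
    exact ⟨fun h => Subtype.ext h, fun h => congrArg Subtype.val h⟩
  · intro ψ ψ' hψ hψ'
    dsimp only
    rw [dif_pos hψ']
    exact h3 ⟨ψ, hψ⟩ ⟨ψ', hψ'⟩
  · intro χ hχ hne ψ ψ' hψ hψ'
    refine h4 ⟨χ, hχ⟩ ?_ ⟨ψ, hψ⟩ ⟨ψ', hψ'⟩
    intro i hi
    apply hne i.1 i.2
    dsimp only
    rw [dif_pos i.2, hi]

end Cfsg.Agent.Lib.Helper23.FrobN
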