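import Cfsg.Agent.Lib.Helper23.FrobN2

/-! Consequences of the structure theorem. -/

set_option autoImplicit false
set_option linter.unusedSectionVars false

universe u

namespace Cfsg.Agent.Lib.Helper23.FrobN

open Cfsg Cfsg.Agent.CharLib Cfsg.Agent.BlockLib Cfsg.Agent.Lib.Helper10 Cfsg.Agent.Lib.Helper23
  Cfsg.Agent.Lib.Helper23.DualAct
open scoped ComplexConjugate
open Classical

variable {G : Type u} [Group G] [Finite G] {p : ℕ} [Fact p.Prime] (P : Sylow p G)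
  (M : Ideal AlgInt)

/-- the data produced by the structure theorem -/
structure Coh [Fintype ↥(P : Subgroup G)] where
  c : IrrCharacter G → (↥(P : Subgroup G) →* ℂˣ) → ℤ
  d : ℤ
  δ : ℤ
  ζ : (↥(P : Subgroup G) →* ℂˣ) → IrrCharacter G
  hc : ∀ χ ψ, (c χ ψ : ℂ) = cc (fun w : ↥(P : Subgroup G) => (χ : G → ℂ) w) ψ
  hδ : δ = 1 ∨ δ = -1
  hζ : ∀ ψ, ψ ≠ 1 → ζ ψ ∈ principalBlock M G
  hinj : ∀ ψ ψ', ψ ≠ 1 → ψ' ≠ 1 → (ζ ψ = ζ ψ' ↔ R (autE P) ψ ψ')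
  hval : ∀ ψ ψ', ψ ≠ 1 → ψ' ≠ 1 → c (ζ ψ') ψ = d - δ * if R (autE P) ψ' ψ then 1 else 0
  hconst : ∀ χ ∈ principalBlock M G, (∀ ψ, ψ ≠ 1 → ζ ψ ≠ χ) →
        ∀ ψ ψ', ψ ≠ 1 → ψ' ≠ 1 → c χ ψ = c χ ψ'

variable {M}

theorem nonempty_coh (hM : IsPModular p M) (hab : IsMulCommutative P) (hfrob : Frob P)
    [Fintype ↥(P : Subgroup G)] (hm : Nat.card (autE P) + 1 < Nat.card P) : Nonempty (Coh P M) := by
  obtain ⟨c, d, δ, ζ, h1, h2, h3, h4, h5, h6⟩ := structure_thm P hM hab hfrob hm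
  exact ⟨⟨c, d, δ, ζ, h1, h2, h3, h4, h5, h6⟩⟩

variable [Fintype ↥(P : Subgroup G)] [Fintype (↥(P : Subgroup G) →* ℂˣ)] [Fintype (IrrCharacter G)]

variable (M) in
/-- the principal block as a finset -/
noncomputable def Bf : Finset (IrrCharacter G) := Finset.univ.filter (· ∈ principalBlock M G)

omit [Finite G] in
theorem mem_Bf {χ : IrrCharacter G} : χ ∈ Bf M ↔ χ ∈ principalBlock M G := by simp [Bf]

omit [Finite G] in
theorem sum_Bf [Fintype (principalBlock M G)] (f : IrrCharacter G → ℂ) :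
    ∑ χ : principalBlock M G, f χ.1 = ∑ χ ∈ Bf M, f χ :=
  (Finset.sum_subtype (Bf M) (fun _ => mem_Bf) f).symm

namespace Coh

variable {P} (D : Coh P M)

/-- the exceptional characters -/
noncomputable def Yf : Finset (IrrCharacter G) := (Finset.univ.filter (· ≠ 1)).image D.ζ

/-- the non-exceptional characters -/
noncomputable def Xf : Finset (IrrCharacter G) := Bf M \ D.Yf

omit [Finite G] [Fact p.Prime] in
theorem mem_Yf {η : IrrCharacter G} : η ∈ D.Yf ↔ ∃ ψ, ψ ≠ 1 ∧ D.ζ ψ = η := by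
  simp [Yf]

omit [Finite G] [Fact p.Prime] in
theorem Yf_subset : D.Yf ⊆ Bf M := by
  intro η hη
  obtain ⟨ψ, hψ, rfl⟩ := D.mem_Yf.1 hη
  exact mem_Bf.2 (D.hζ ψ hψ)

omit [Finite G] [Fact p.Prime] in
theorem sum_Bf_eq {A : Type*} [AddCommMonoid A] (f : IrrCharacter G → A) :
    ∑ χ ∈ Bf M, f χ = ∑ χ ∈ D.Xf, f χ + ∑ χ ∈ D.Yf, f χ := by
  rw [Xf, Finset.sum_sdiff D.Yf_subset]

omit [Finite G] [Fact p.Prime] in
theorem c_of_mem_Yf {η : IrrCharacter G} (hη : η ∈ D.Yf) {ψ₀ : ↥(P : Subgroup G) →* ℂˣ}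
    (hψ₀ : ψ₀ ≠ 1) : D.c η ψ₀ = D.d - D.δ * if η = D.ζ ψ₀ then 1 else 0 := by
  obtain ⟨ψ, hψ, rfl⟩ := D.mem_Yf.1 hη
  rw [D.hval ψ₀ ψ hψ₀ hψ]
  by_cases h : R (autE P) ψ ψ₀
  · rw [if_pos h, if_pos ((D.hinj ψ ψ₀ hψ hψ₀).2 h)]
  · rw [if_neg h, if_neg (fun h' => h ((D.hinj ψ ψ₀ hψ hψ₀).1 h'))]

omit [Finite G] [Fact p.Prime] in
theorem c_of_mem_Xf {χ : IrrCharacter G} (hχ : χ ∈ D.Xf) {ψ ψ' : ↥(P : Subgroup G) →* ℂˣ}
    (hψ : ψ ≠ 1) (hψ' : ψ' ≠ 1) : D.c χ ψ = D.c χ ψ' := by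
  obtain ⟨h1, h2⟩ := Finset.mem_sdiff.1 hχ
  exact D.hconst χ (mem_Bf.1 h1) (fun ψ hψ h => h2 (D.mem_Yf.2 ⟨ψ, hψ, h⟩)) ψ ψ' hψ hψ'

theorem gram_int (hM : IsPModular p M) (hab : IsMulCommutative P) (hfrob : Frob P)
    {ψ ψ' : ↥(P : Subgroup G) →* ℂˣ} (hψ : ψ ≠ 1) (hψ' : ψ' ≠ 1) :
    ∑ χ ∈ Bf M, D.c χ ψ * D.c χ ψ' = (Nat.card (autE P) : ℤ) + if R (autE P) ψ ψ' then 1 else 0 := by
  cases nonempty_fintype (principalBlock M G)
  have := gram (autE P) (comm_of_isMulCommutative P hab) (autE_semiregular P hfrob)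
    (fun (χ : principalBlock M G) (w : ↥(P : Subgroup G)) =>
        (χ.1 : G → ℂ) w) (fun w w' hw' => by rw [sum_principal P hM hab hfrob w w' hw']; congr) hψ hψ'
  simp only [← D.hc, map_intCast] at this
  rw [sum_Bf (fun χ => (D.c χ ψ : ℂ) * (D.c χ ψ' : ℂ))] at this
  have h' : ((∑ χ ∈ Bf M, D.c χ ψ * D.c χ ψ' : ℤ) : ℂ) =
      (((Nat.card (autE P) : ℤ) + if R (autE P) ψ ψ' then 1 else 0 : ℤ) : ℂ) := by
    push_cast
    rw [this]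
  exact_mod_cast h'

theorem regular (hM : IsPModular p M) (ψ : ↥(P : Subgroup G) →* ℂˣ) {g : G}
    (hg : ¬ p ∣ orderOf g) : ∑ χ ∈ Bf M, (D.c χ ψ : ℂ) * (χ : G → ℂ) g = 0 := by
  cases nonempty_fintype (principalBlock M G)
  have := sum_cc_mul_apply_regular P hM (M := M) ψ hg
  simp only [← D.hc] at this
  rwa [sum_Bf (fun χ => (D.c χ ψ : ℂ) * (χ : G → ℂ) g)] at this

/-- the number of exceptional characters -/
theorem card_Yf (hab : IsMulCommutative P) (hfrob : Frob P) :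
    D.Yf.card * Nat.card (autE P) = Nat.card P - 1 := by
  have hW := comm_of_isMulCommutative P hab
  have h1 : (Finset.univ.filter (fun ψ : ↥(P : Subgroup G) →* ℂˣ => ψ ≠ 1)).card =
      Nat.card P - 1 := by
    rw [Finset.filter_ne' Finset.univ 1, Finset.card_erase_of_mem (Finset.mem_univ _),
      Finset.card_univ, ← Nat.card_eq_fintype_card, card_lin hW]
  rw [← h1, Finset.card_eq_sum_card_image D.ζ, ← Yf, Finset.sum_const_nat (m := Nat.card (autE P))]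
  intro η hη
  obtain ⟨ψ, hψ, rfl⟩ := D.mem_Yf.1 hη
  rw [← card_R (autE P) hW (autE_semiregular P hfrob) hψ, Nat.card_eq_fintype_card,
    Fintype.card_subtype]
  congr 1
  ext ψ'
  simp only [Finset.mem_filter, Finset.mem_univ, true_and]
  constructor
  · rintro ⟨h1, h2⟩
    exact (D.hinj ψ ψ' hψ h1).1 h2.symm
  · intro h
    have h1 := ne_one_of_R (autE P) hψ h
    exact ⟨h1, ((D.hinj ψ ψ' hψ h1).2 h).symm⟩

omit [Finite G] [Fact p.Prime] in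
theorem ζ_mem_Yf {ψ : ↥(P : Subgroup G) →* ℂˣ} (hψ : ψ ≠ 1) : D.ζ ψ ∈ D.Yf :=
  D.mem_Yf.2 ⟨ψ, hψ, rfl⟩

omit [Finite G] [Fact p.Prime] in
theorem δ_sq : D.δ ^ 2 = 1 := by
  rcases D.hδ with h | h <;> rw [h] <;> norm_num

/-- the norm equation -/
theorem norm_eq (hM : IsPModular p M) (hab : IsMulCommutative P) (hfrob : Frob P)
    {ψ₀ : ↥(P : Subgroup G) →* ℂˣ} (hψ₀ : ψ₀ ≠ 1) :
    (D.d - D.δ) ^ 2 + ((D.Yf.card : ℤ) - 1) * D.d ^ 2 + ∑ χ ∈ D.Xf, D.c χ ψ₀ ^ 2 =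
      (Nat.card (autE P) : ℤ) + 1 := by
  have h := D.gram_int hM hab hfrob hψ₀ hψ₀
  rw [if_pos ((R_equiv _).refl _), D.sum_Bf_eq] at h
  have h2 : ∑ χ ∈ D.Yf, D.c χ ψ₀ * D.c χ ψ₀ = (D.Yf.card : ℤ) * D.d ^ 2 - 2 * D.d * D.δ + 1 := by
    have : ∀ χ ∈ D.Yf, D.c χ ψ₀ * D.c χ ψ₀ =
        D.d ^ 2 + (if χ = D.ζ ψ₀ then (- 2 * D.d * D.δ + 1) else 0) := by
      intro χ hχ
      rw [D.c_of_mem_Yf hχ hψ₀]
      split_ifs
      · linear_combination D.δ_sq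
      · ring
    rw [Finset.sum_congr rfl this, Finset.sum_add_distrib, Finset.sum_ite_eq', if_pos (D.ζ_mem_Yf hψ₀)]
    simp only [Finset.sum_const, nsmul_eq_mul]
    ring
  rw [h2] at h
  have h3 : ∑ χ ∈ D.Xf, D.c χ ψ₀ ^ 2 = ∑ χ ∈ D.Xf, D.c χ ψ₀ * D.c χ ψ₀ :=
    Finset.sum_congr rfl (fun χ _ => sq _)
  rw [h3]
  linear_combination h + D.δ_sq

/-- the exceptional characters agree on the `p`-regular elements -/
theorem agree (hM : IsPModular p M) {η η' : IrrCharacter G} (hη : η ∈ D.Yf) (hη' : η' ∈ D.Yf)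
    {g : G} (hg : ¬ p ∣ orderOf g) : (η : G → ℂ) g = (η' : G → ℂ) g := by
  by_cases hne : η = η'
  · rw [hne]
  obtain ⟨ψ, hψ, rfl⟩ := D.mem_Yf.1 hη
  obtain ⟨ψ', hψ', rfl⟩ := D.mem_Yf.1 hη'
  have h1 := D.regular hM ψ hg
  have h2 := D.regular hM ψ' hg
  have h3 : ∑ χ ∈ Bf M, ((D.c χ ψ : ℂ) - (D.c χ ψ' : ℂ)) * (χ : G → ℂ) g = 0 := by
    simp only [sub_mul, Finset.sum_sub_distrib, h1, h2, sub_zero]
  rw [D.sum_Bf_eq] at h3
  have h4 : ∑ χ ∈ D.Xf, ((D.c χ ψ : ℂ) - (D.c χ ψ' : ℂ)) * (χ : G → ℂ) g = 0 := by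
    apply Finset.sum_eq_zero
    intro χ hχ
    rw [D.c_of_mem_Xf hχ hψ hψ', sub_self, zero_mul]
  rw [h4, zero_add] at h3
  have h5 : ∀ χ ∈ D.Yf, ((D.c χ ψ : ℂ) - (D.c χ ψ' : ℂ)) * (χ : G → ℂ) g =
      (if χ = D.ζ ψ then - (D.δ : ℂ) * (χ : G → ℂ) g else 0) +
      (if χ = D.ζ ψ' then (D.δ : ℂ) * (χ : G → ℂ) g else 0) := by
    intro χ hχ
    rw [D.c_of_mem_Yf hχ hψ, D.c_of_mem_Yf hχ hψ']
    push_cast
    split_ifs <;> ring
  rw [Finset.sum_congr rfl h5, Finset.sum_add_distrib, Finset.sum_ite_eq', Finset.sum_ite_eq',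
    if_pos (D.ζ_mem_Yf hψ), if_pos (D.ζ_mem_Yf hψ')] at h3
  have hδ : (D.δ : ℂ) ≠ 0 := by
    have := D.δ_sq
    intro h
    have h' : D.δ = 0 := by exact_mod_cast h
    rw [h'] at this
    norm_num at this
  have h6 : (D.δ : ℂ) * ((D.ζ ψ' : G → ℂ) g - (D.ζ ψ : G → ℂ) g) = 0 := by linear_combination h3
  rcases mul_eq_zero.1 h6 with h | h
  · exact absurd h hδ
  · linear_combination -h

/-- the relation on the `p`-regular elements -/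
theorem rel_regular (hM : IsPModular p M) {ψ₀ : ↥(P : Subgroup G) →* ℂˣ} (hψ₀ : ψ₀ ≠ 1)
    {η : IrrCharacter G} (hη : η ∈ D.Yf) {g : G} (hg : ¬ p ∣ orderOf g) :
    ((D.Yf.card : ℂ) * D.d - D.δ) * (η : G → ℂ) g + ∑ χ ∈ D.Xf, (D.c χ ψ₀ : ℂ) * (χ : G → ℂ) g = 0 := by
  have h1 := D.regular hM ψ₀ hg
  rw [D.sum_Bf_eq] at h1
  have h5 : ∀ χ ∈ D.Yf, (D.c χ ψ₀ : ℂ) * (χ : G → ℂ) g =
      (D.d : ℂ) * (η : G → ℂ) g + (if χ = D.ζ ψ₀ then - (D.δ : ℂ) * (η : G → ℂ) g else 0) := by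
    intro χ hχ
    rw [D.c_of_mem_Yf hχ hψ₀, D.agree hM hχ hη hg]
    push_cast
    split_ifs <;> ring
  rw [Finset.sum_congr rfl h5, Finset.sum_add_distrib, Finset.sum_ite_eq',
    if_pos (D.ζ_mem_Yf hψ₀)] at h1
  simp only [Finset.sum_const, nsmul_eq_mul] at h1
  linear_combination h1

theorem sum_ne_one_apply (hab : IsMulCommutative P) {y : ↥(P : Subgroup G)} (hy : y ≠ 1) :
    ∑ ψ ∈ Finset.univ.filter (fun ψ : ↥(P : Subgroup G) →* ℂˣ => ψ ≠ 1), (ψ y : ℂ) = -1 := by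
  have h := sum_lin_apply (comm_of_isMulCommutative P hab) hy
  rw [← Finset.sum_filter_add_sum_filter_not Finset.univ
    (fun ψ : ↥(P : Subgroup G) →* ℂˣ => ψ ≠ 1)] at h
  have h2 : Finset.univ.filter (fun ψ : ↥(P : Subgroup G) →* ℂˣ => ¬ ψ ≠ 1) = {1} := by
    ext ψ; simp
  rw [h2, Finset.sum_singleton] at h
  simp only [MonoidHom.one_apply, Units.val_one] at h
  linear_combination h

theorem apply_eq (hab : IsMulCommutative P) (χ : IrrCharacter G) {y : ↥(P : Subgroup G)}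
    (hy : y ≠ 1) : (χ : G → ℂ) y =
      - ∑ ψ ∈ Finset.univ.filter (fun ψ : ↥(P : Subgroup G) →* ℂˣ => ψ ≠ 1),
        (D.c χ ψ : ℂ) * (ψ y : ℂ) := by
  have h := apply_eq_neg_sum_cc (comm_of_isMulCommutative P hab)
    (fun w : ↥(P : Subgroup G) => (χ : G → ℂ) w) hy
  rw [h, ← Finset.sum_filter_add_sum_filter_not Finset.univ
    (fun ψ : ↥(P : Subgroup G) →* ℂˣ => ψ ≠ 1)]
  have h2 : Finset.univ.filter (fun ψ : ↥(P : Subgroup G) →* ℂˣ => ¬ ψ ≠ 1) = {1} := by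
    ext ψ; simp
  rw [h2, Finset.sum_singleton, cc_one, zero_mul, add_zero]
  simp only [D.hc]

/-- values of the non-exceptional characters -/
theorem value_X (hab : IsMulCommutative P) {χ : IrrCharacter G} (hχ : χ ∈ D.Xf)
    {ψ₀ : ↥(P : Subgroup G) →* ℂˣ} (hψ₀ : ψ₀ ≠ 1) {y : ↥(P : Subgroup G)} (hy : y ≠ 1) :
    (χ : G → ℂ) y = (D.c χ ψ₀ : ℂ) := by
  rw [D.apply_eq hab χ hy]
  have : ∀ ψ ∈ Finset.univ.filter (fun ψ : ↥(P : Subgroup G) →* ℂˣ => ψ ≠ 1),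
      (D.c χ ψ : ℂ) * (ψ y : ℂ) = (D.c χ ψ₀ : ℂ) * (ψ y : ℂ) := by
    intro ψ hψ
    rw [D.c_of_mem_Xf hχ (Finset.mem_filter.1 hψ).2 hψ₀]
  rw [Finset.sum_congr rfl this, ← Finset.mul_sum, sum_ne_one_apply hab hy]
  ring

/-- values of the exceptional characters -/
theorem value_Y (hab : IsMulCommutative P) {ψ : ↥(P : Subgroup G) →* ℂˣ} (hψ : ψ ≠ 1)
    {y : ↥(P : Subgroup G)} (hy : y ≠ 1) :
    (D.ζ ψ : G → ℂ) y = (D.d : ℂ) + (D.δ : ℂ) *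
      ∑ ψ' ∈ Finset.univ.filter (fun ψ' : ↥(P : Subgroup G) →* ℂˣ => R (autE P) ψ ψ'),
        (ψ' y : ℂ) := by
  rw [D.apply_eq hab _ hy]
  have : ∀ ψ' ∈ Finset.univ.filter (fun ψ : ↥(P : Subgroup G) →* ℂˣ => ψ ≠ 1),
      (D.c (D.ζ ψ) ψ' : ℂ) * (ψ' y : ℂ) = (D.d : ℂ) * (ψ' y : ℂ) -
        (D.δ : ℂ) * (if R (autE P) ψ ψ' then (ψ' y : ℂ) else 0) := by
    intro ψ' hψ'
    rw [D.hval ψ' ψ (Finset.mem_filter.1 hψ').2 hψ]
    push_cast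
    split_ifs <;> ring
  rw [Finset.sum_congr rfl this, Finset.sum_sub_distrib, ← Finset.mul_sum, ← Finset.mul_sum,
    sum_ne_one_apply hab hy, ← Finset.sum_filter, Finset.filter_filter]
  have h2 : Finset.univ.filter (fun ψ' : ↥(P : Subgroup G) →* ℂˣ => ψ' ≠ 1 ∧ R (autE P) ψ ψ') =
      Finset.univ.filter (fun ψ' : ↥(P : Subgroup G) →* ℂˣ => R (autE P) ψ ψ') := by
    ext ψ'
    simp only [Finset.mem_filter, Finset.mem_univ, true_and]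
    exact ⟨fun h => h.2, fun h => ⟨ne_one_of_R _ hψ h, h⟩⟩
  rw [h2]
  ring

end Coh

end Cfsg.Agent.Lib.Helper23.FrobN
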