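import Cfsg.Agent.Lib.Helper23.FrobN3

/-! Consequences of the structure theorem, II. -/

set_option autoImplicit false
set_option linter.unusedSectionVars false

universe u

namespace Cfsg.Agent.Lib.Helper23.FrobN

open Cfsg Cfsg.Agent.CharLib Cfsg.Agent.BlockLib Cfsg.Agent.Lib.Helper10 Cfsg.Agent.Lib.Helper23
  Cfsg.Agent.Lib.Helper23.DualAct
open scoped ComplexConjugate
open Classical

variable {G : Type u} [Group G] [Finite G] {p : ℕ} [Fact p.Prime] {P : Sylow p G}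
  {M : Ideal AlgInt}
variable [Fintype ↥(P : Subgroup G)] [Fintype (↥(P : Subgroup G) →* ℂˣ)] [Fintype (IrrCharacter G)]

/-- a member of the principal block does not vanish at `y ∈ P` (`P` abelian) -/
theorem apply_ne_zero_of_mem_principal (hM : IsPModular p M) (hab : IsMulCommutative P)
    {χ : IrrCharacter G} (hχ : χ ∈ principalBlock M G) {y : G} (hy : y ∈ (P : Subgroup G)) :
    (χ : G → ℂ) y ≠ 0 := by
  intro h0
  have h1 : MemLocalIdeal M (centralChar (fun _ : G => (1 : ℂ)) y - centralChar (χ : G → ℂ) y) :=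
    hχ y
  simp only [centralChar, h0, mul_zero, zero_div, sub_zero, mul_one, div_one] at h1
  rw [memLocalIdeal_natCast_iff hM] at h1
  exact P.not_dvd_index (h1.trans (Subgroup.index_dvd_of_le (le_centralizer_singleton P hab hy)))

theorem exists_ne_one_mem (hq : 1 < Nat.card P) : ∃ y : ↥(P : Subgroup G), y ≠ 1 := by
  by_contra hcon
  push Not at hcon
  have : Subsingleton ↥(P : Subgroup G) := ⟨fun a b => by rw [hcon a, hcon b]⟩
  have h2 : Nat.card ↥(P : Subgroup G) ≤ 1 := Finite.card_le_one_iff_subsingleton.2 this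
  have h3 : Nat.card ↥(P : Subgroup G) = Nat.card P := rfl
  omega

namespace Coh

variable (D : Coh P M)

theorem c_ne_zero (hM : IsPModular p M) (hab : IsMulCommutative P) (hq : 1 < Nat.card P)
    {χ : IrrCharacter G} (hχ : χ ∈ D.Xf) {ψ₀ : ↥(P : Subgroup G) →* ℂˣ} (hψ₀ : ψ₀ ≠ 1) :
    D.c χ ψ₀ ≠ 0 := by
  intro h0
  obtain ⟨y, hy⟩ := exists_ne_one_mem (P := P) hq
  apply apply_ne_zero_of_mem_principal hM hab (mem_Bf.1 (Finset.mem_sdiff.1 hχ).1) y.2
  rw [D.value_X hab hχ hψ₀ hy, h0, Int.cast_zero]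

theorem c_triv {ψ : ↥(P : Subgroup G) →* ℂˣ} (hψ : ψ ≠ 1) : D.c (trivIrr G) ψ = 1 := by
  have h := D.hc (trivIrr G) ψ
  have h1 : (fun w : ↥(P : Subgroup G) => ((trivIrr G : IrrCharacter G) : G → ℂ) w) =
      fun w => ((1 : ↥(P : Subgroup G) →* ℂˣ) w : ℂ) := by
    funext w; simp [trivIrr]
  rw [h1, cc, classInner_lin, classInner_lin, if_pos rfl, if_neg hψ.symm, sub_zero] at h
  exact_mod_cast h

theorem triv_mem_Xf (hM : IsPModular p M) (hab : IsMulCommutative P) (hfrob : Frob P)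
    (hm : Nat.card (autE P) + 1 < Nat.card P) : trivIrr G ∈ D.Xf := by
  have h0 : trivIrr G ∈ principalBlock M G := by
    cases nonempty_fintype G
    exact SameBlock.refl' (ne_top_of_isPModular hM) _
  rw [Xf, Finset.mem_sdiff]
  refine ⟨mem_Bf.2 h0, fun h => ?_⟩
  obtain ⟨ψ, hψ, h⟩ := D.mem_Yf.1 h
  obtain ⟨ψ₁, hψ₁, hR⟩ := exists_not_R P hab hfrob hm hψ
  have h1 := D.hval ψ ψ hψ hψ
  have h2 := D.hval ψ₁ ψ hψ₁ hψ
  rw [h, D.c_triv hψ, if_pos ((R_equiv _).refl _)] at h1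
  rw [h, D.c_triv hψ₁, if_neg hR] at h2
  rcases D.hδ with h3 | h3 <;> rw [h3] at h1 <;> omega

theorem two_le_card_Yf (hab : IsMulCommutative P) (hfrob : Frob P)
    (hm : Nat.card (autE P) + 1 < Nat.card P) : 2 ≤ D.Yf.card := by
  obtain ⟨ψ₀, hψ₀⟩ := exists_ne_one P hab (by omega)
  obtain ⟨ψ₁, hψ₁, hR⟩ := exists_not_R P hab hfrob hm hψ₀
  have hne : D.ζ ψ₀ ≠ D.ζ ψ₁ := fun h => hR ((D.hinj ψ₀ ψ₁ hψ₀ hψ₁).1 h)
  rw [← Finset.card_pair hne]
  apply Finset.card_le_card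
  intro η hη
  rw [Finset.mem_insert, Finset.mem_singleton] at hη
  rcases hη with rfl | rfl
  · exact D.ζ_mem_Yf hψ₀
  · exact D.ζ_mem_Yf hψ₁

theorem one_le_exc (hab : IsMulCommutative P) (hfrob : Frob P)
    (hm : Nat.card (autE P) + 1 < Nat.card P) :
    1 ≤ (D.d - D.δ) ^ 2 + ((D.Yf.card : ℤ) - 1) * D.d ^ 2 := by
  have h2 : (2 : ℤ) ≤ D.Yf.card := by exact_mod_cast D.two_le_card_Yf hab hfrob hm
  by_cases hd : D.d = 0
  · rw [hd]
    have := D.δ_sq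
    nlinarith
  · have h3 : 1 ≤ D.d ^ 2 := by
      have : 0 < D.d ^ 2 := by positivity
      omega
    nlinarith [sq_nonneg (D.d - D.δ)]

theorem card_Xf_le (hM : IsPModular p M) (hab : IsMulCommutative P) (hfrob : Frob P)
    (hm : Nat.card (autE P) + 1 < Nat.card P) : D.Xf.card ≤ Nat.card (autE P) := by
  obtain ⟨ψ₀, hψ₀⟩ := exists_ne_one P hab (by omega)
  have h1 := D.norm_eq hM hab hfrob hψ₀
  have h2 := D.one_le_exc hab hfrob hm
  have h3 : (D.Xf.card : ℤ) ≤ ∑ χ ∈ D.Xf, D.c χ ψ₀ ^ 2 := by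
    have : ∀ χ ∈ D.Xf, (1 : ℤ) ≤ D.c χ ψ₀ ^ 2 := by
      intro χ hχ
      have : 0 < D.c χ ψ₀ ^ 2 := by
        have := D.c_ne_zero hM hab (by omega) hχ hψ₀
        positivity
      omega
    have h4 := Finset.card_nsmul_le_sum D.Xf _ 1 this
    simpa using h4
  have : (D.Xf.card : ℤ) ≤ Nat.card (autE P) := by linarith
  exact_mod_cast this

end Coh

omit [Finite G] [Fact p.Prime] [Fintype ↥(P : Subgroup G)] [Fintype (↥(P : Subgroup G) →* ℂˣ)]
  [Fintype (IrrCharacter G)] in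
theorem R_iff {ψ ψ' : ↥(P : Subgroup G) →* ℂˣ} : R (autE P) ψ ψ' ↔
    ∃ n : G, n ∈ Subgroup.normalizer ((P : Subgroup G) : Set G) ∧
      ∀ w w' : ↥(P : Subgroup G), (w' : G) = n * w * n⁻¹ → ψ' w' = ψ w := by
  constructor
  · rintro ⟨σ, hσ, h⟩
    obtain ⟨n, hn, hσn⟩ := (mem_autE P).1 hσ
    refine ⟨n, hn, fun w w' hw => ?_⟩
    rw [← h w]
    congr 1
    apply Subtype.ext
    rw [hw, hσn]
  · rintro ⟨n, hn, h⟩
    exact ⟨(P : Subgroup G).normalizerMonoidHom ⟨n, hn⟩, ⟨_, rfl⟩, fun w => h w _ rfl⟩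

end Cfsg.Agent.Lib.Helper23.FrobN
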