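import Cfsg.Agent.Lib.Helper23.FrobN4

/-! The principal block of a group with abelian Sylow subgroup and Frobenius-type normalizer:
final form. -/

set_option autoImplicit false

universe u

namespace Cfsg.Agent.Lib.Helper23.FrobN

open Cfsg Cfsg.Agent.CharLib Cfsg.Agent.BlockLib Cfsg.Agent.Lib.Helper10 Cfsg.Agent.Lib.Helper23
  Cfsg.Agent.Lib.Helper23.DualAct
open scoped ComplexConjugate

theorem principal_structure {G : Type u} [Group G] [Finite G] (p : ℕ) [Fact p.Prime] (M : Ideal Cfsg.AlgInt) (hM : Cfsg.IsPModular p M) (P : Sylow p G) (hab : IsMulCommutative P) (m : ℕ) (hm2 : m + 1 < Nat.card P) (hCN : (Subgroup.centralizer ((P : Subgroup G) : Set G)).relIndex (Subgroup.normalizer ((P : Subgroup G) : Set G)) = m) (hfrob : ∀ y : G, y ∈ (P : Subgroup G) → y ≠ 1 → Subgroup.centralizer ({y} : Set G) ⊓ Subgroup.normalizer ((P : Subgroup G) :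 Set G) = Subgroup.centralizer ((P : Subgroup G) : Set G)) : ∃ (s : ℕ) (X Y : Set (Cfsg.IrrCharacter G)), s ≤ m ∧ Cfsg.principalBlock M G = X ∪ Y ∧ Disjoint X Y ∧ Nat.card X = s ∧ Nat.card Y = (Nat.card P - 1) / m ∧ (∃ χ₁ ∈ X, (χ₁ : G → ℂ) = fun _ => 1) ∧ ∃ (a : Cfsg.IrrCharacter G → ℤ) (d δ : ℤ) (ζ : (↥(P : Subgroup G) →* ℂˣ) → Cfsg.IrrCharacter G), (δ = 1 ∨ δ = -1) ∧ (∀ χ ∈ X, a χ ≠ 0 ∧ ∀ z y : G, Cfsg.IsPPart p z y → y ∈ (P : Subgroup G) → y ≠ 1 → (χ : G → ℂ) z = (a χ : ℂ)) ∧ (∀ ψ : ↥(P : Subgroup G) →* ℂˣ, ψ ≠ 1 → ζ ψ ∈ Y) ∧ (∀ η ∈ Y, ∃ ψ : ↥(P : Subgroup G) →* ℂˣ, ψ ≠ 1 ∧ ζ ψ = η) ∧ (∀ ψ ψ' : ↥(P : Subgroup G) →* ℂˣ, ψ ≠ 1 → (∃ n : G, n ∈ Subgroup.normalizer ((P : Subgroup G) : Set G) ∧ ∀ w w' : ↥(P : Subgroup G), (w' : G) = n * w * n⁻¹ → ψ' w' = ψ w) → ζ ψ' = ζ ψ) ∧ (∀ ψ : ↥(P : Subgroup G) →* ℂˣ, ψ ≠ 1 → ∀ (z : G) (y : ↥(P : Subgroup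 G)), Cfsg.IsPPart p z (y : G) → (y : G) ≠ 1 → (ζ ψ : G → ℂ) z = (d : ℂ) + (δ : ℂ) * ∑ᶠ ψ' ∈ {ψ' : ↥(P : Subgroup G) →* ℂˣ | ∃ n : G, n ∈ Subgroup.normalizer ((P : Subgroup G) : Set G) ∧ ∀ w w' : ↥(P : Subgroup G), (w' : G) = n * w * n⁻¹ → ψ' w' = ψ w}, ((ψ' y : ℂˣ) : ℂ)) ∧ ((d - δ) ^ 2 + ((Nat.card P - 1) / m - 1 : ℤ) * d ^ 2 + ∑ᶠ χ ∈ X, a χ ^ 2 = (m : ℤ) + 1) ∧ (∀ η ∈ Y, ∀ η' ∈ Y, ∀ g : G, ¬ p ∣ orderOf g → (η : G → ℂ) g = (η' : G → ℂ) g) ∧ (∀ η ∈ Y, ∀ g : G, ¬ p ∣ orderOf g → ((((Nat.card P - 1) / m : ℕ) : ℂ) * d - δ) * (η : G → ℂ) g + ∑ᶠ χ ∈ X, (a χ : ℂ) * (χ : G → ℂ) g = 0) := by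
  classical
  cases nonempty_fintype ↥(P : Subgroup G)
  cases nonempty_fintype (↥(P : Subgroup G) →* ℂˣ)
  cases nonempty_fintype (IrrCharacter G)
  have hE : Nat.card (autE P) = m := by rw [card_autE, hCN]
  have hm : Nat.card (autE P) + 1 < Nat.card P := by omega
  obtain ⟨D⟩ := nonempty_coh P hM hab hfrob hm
  obtain ⟨ψ₀, hψ₀⟩ := exists_ne_one P hab (by omega)
  have hcard := D.card_Yf hab hfrob
  rw [hE] at hcard
  have hm0 : 0 < m := by rw [← hE]; exact Nat.card_pos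
  have hY : (Nat.card P - 1) / m = D.Yf.card := by
    rw [← hcard]; exact Nat.mul_div_cancel _ hm0
  refine ⟨D.Xf.card, ↑D.Xf, ↑D.Yf, ?_, ?_, ?_, ?_, ?_, ?_, fun χ => D.c χ ψ₀, D.d, D.δ, D.ζ, D.hδ,
    ?_, ?_, ?_, ?_, ?_, ?_, ?_, ?_⟩
  · rw [← hE]; exact D.card_Xf_le hM hab hfrob hm
  · ext χ
    rw [Set.mem_union, Finset.mem_coe, Finset.mem_coe, Coh.Xf, Finset.mem_sdiff, mem_Bf]
    constructor
    · intro h
      by_cases h' : χ ∈ D.Yf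
      · exact Or.inr h'
      · exact Or.inl ⟨h, h'⟩
    · rintro (h | h)
      · exact h.1
      · exact mem_Bf.1 (D.Yf_subset h)
  · exact Finset.disjoint_coe.2 Finset.sdiff_disjoint
  · simp
  · rw [hY]; simp
  · exact ⟨trivIrr G, Finset.mem_coe.2 (D.triv_mem_Xf hM hab hfrob hm), rfl⟩
  · intro χ hχ
    rw [Finset.mem_coe] at hχ
    refine ⟨D.c_ne_zero hM hab (by omega) hχ hψ₀, fun z y hzy hy hy1 => ?_⟩
    rw [apply_of_isPPart P hM hab hfrob (mem_Bf.1 (Finset.mem_sdiff.1 hχ).1) hzy hy hy1]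
    exact D.value_X hab hχ hψ₀ (y := ⟨y, hy⟩) (fun h => hy1 (congrArg Subtype.val h))
  · intro ψ hψ
    exact Finset.mem_coe.2 (D.ζ_mem_Yf hψ)
  · intro η hη
    exact D.mem_Yf.1 (Finset.mem_coe.1 hη)
  · intro ψ ψ' hψ h
    have hR := R_iff.2 h
    exact ((D.hinj ψ ψ' hψ (ne_one_of_R _ hψ hR)).2 hR).symm
  · intro ψ hψ z y hzy hy1
    rw [apply_of_isPPart P hM hab hfrob (D.hζ ψ hψ) hzy y.2 hy1,
      D.value_Y hab hψ (fun h => hy1 (congrArg Subtype.val h))]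
    congr 2
    have : {ψ' : ↥(P : Subgroup G) →* ℂˣ | ∃ n : G, n ∈ Subgroup.normalizer ((P : Subgroup G) : Set G)
        ∧ ∀ w w' : ↥(P : Subgroup G), (w' : G) = n * w * n⁻¹ → ψ' w' = ψ w} =
        ↑(Finset.univ.filter (fun ψ' : ↥(P : Subgroup G) →* ℂˣ => R (autE P) ψ ψ')) := by
      ext ψ'
      simp only [Set.mem_ofPred_eq, Finset.coe_filter, Finset.mem_univ, true_and]
      exact R_iff.symm
    rw [this, finsum_mem_coe_finset]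
  · have h := D.norm_eq hM hab hfrob hψ₀
    rw [hE] at h
    have h1 : ((Nat.card P : ℤ) - 1) / (m : ℤ) = D.Yf.card := by
      have h2 : ((Nat.card P : ℤ) - 1) = (D.Yf.card : ℤ) * m := by
        have : 1 ≤ Nat.card P := by omega
        zify [this] at hcard
        linarith
      rw [h2]
      exact Int.mul_ediv_cancel _ (by exact_mod_cast hm0.ne')
    rw [h1, finsum_mem_coe_finset]
    exact h
  · intro η hη η' hη' g hg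
    exact D.agree hM (Finset.mem_coe.1 hη) (Finset.mem_coe.1 hη') hg
  · intro η hη g hg
    rw [hY, finsum_mem_coe_finset]
    exact D.rel_regular hM hψ₀ (Finset.mem_coe.1 hη) hg

end Cfsg.Agent.Lib.Helper23.FrobN
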