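import Cfsg.Agent.Lib.Helper23.FrobN5

/-! Groups in which every nontrivial element of a Sylow `p`-subgroup `P` has centralizer `C_G(P)`:
counting lemmas. -/

set_option autoImplicit false
set_option linter.unusedSectionVars false

universe u

namespace Cfsg.Agent.Lib.Helper23.FrobN

open Cfsg Cfsg.Agent.CharLib Cfsg.Agent.BlockLib Cfsg.Agent.Lib.Helper10 Cfsg.Agent.Lib.Helper23
  Cfsg.Agent.Lib.Helper23.DualAct
open scoped ComplexConjugate
open Classical

variable {G : Type u} [Group G] {p : ℕ}

/-- the centralizer hypothesis -/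
def Star (P : Sylow p G) : Prop := ∀ x ∈ (P : Subgroup G), x ≠ 1 →
  Subgroup.centralizer ({x} : Set G) = Subgroup.centralizer ((P : Subgroup G) : Set G)

theorem Star.le_centralizer {P : Sylow p G} (h : Star P) :
    (P : Subgroup G) ≤ Subgroup.centralizer ((P : Subgroup G) : Set G) := by
  intro x hx
  by_cases hx1 : x = 1
  · rw [hx1]; exact one_mem _
  · rw [← h x hx hx1, Subgroup.mem_centralizer_singleton_iff]

theorem Star.isMulCommutative {P : Sylow p G} (h : Star P) : IsMulCommutative P :=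
  ⟨⟨fun a b => Subtype.ext (Subgroup.mem_centralizer_iff.1 (h.le_centralizer b.2) a a.2)⟩⟩

theorem Star.frob {P : Sylow p G} (h : Star P) : Frob P := by
  intro y hy hy1
  rw [h y hy hy1]
  exact inf_eq_left.2 (Subgroup.centralizer_le_normalizer _)

theorem mem_sylow_smul (P : Sylow p G) (g x : G) :
    x ∈ ((g • P : Sylow p G) : Subgroup G) ↔ g⁻¹ * x * g ∈ (P : Subgroup G) := by
  rw [Sylow.coe_subgroup_smul, Subgroup.mem_pointwise_smul_iff_inv_smul_mem, MulAut.smul_def,
    ← map_inv, MulAut.conj_apply, inv_inv]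

theorem mem_centralizer_smul (P : Sylow p G) (g h : G) :
    g * h * g⁻¹ ∈ Subgroup.centralizer (((g • P : Sylow p G) : Subgroup G) : Set G) ↔
      h ∈ Subgroup.centralizer ((P : Subgroup G) : Set G) := by
  rw [Subgroup.mem_centralizer_iff, Subgroup.mem_centralizer_iff]
  constructor
  · intro H w hw
    have h1 := H (g * w * g⁻¹) ((mem_sylow_smul P g _).2 (by
      have : g⁻¹ * (g * w * g⁻¹) * g = w := by group
      rw [this]; exact hw))
    have h2 : g * (w * h) * g⁻¹ = g * (h * w) * g⁻¹ := by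
      simpa [mul_assoc] using h1
    exact mul_left_cancel (mul_right_cancel h2)
  · intro H x hx
    have h1 := H _ ((mem_sylow_smul P g x).1 hx)
    have h2 : x = g * (g⁻¹ * x * g) * g⁻¹ := by group
    rw [h2]
    calc g * (g⁻¹ * x * g) * g⁻¹ * (g * h * g⁻¹) = g * ((g⁻¹ * x * g) * h) * g⁻¹ := by group
      _ = g * (h * (g⁻¹ * x * g)) * g⁻¹ := by rw [h1]
      _ = _ := by group

theorem Star.smul {P : Sylow p G} (h : Star P) (g : G) : Star (g • P) := by
  intro x hx hx1
  have hx' : g⁻¹ * x * g ∈ (P : Subgroup G) := (mem_sylow_smul P g x).1 hx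
  have hne : g⁻¹ * x * g ≠ 1 := by
    intro e
    apply hx1
    have : x = g * (g⁻¹ * x * g) * g⁻¹ := by group
    rw [this, e]; group
  have h0 := h _ hx' hne
  ext z
  have h1 : z ∈ Subgroup.centralizer ({x} : Set G) ↔
      g⁻¹ * z * g ∈ Subgroup.centralizer ({g⁻¹ * x * g} : Set G) := by
    rw [Subgroup.mem_centralizer_singleton_iff, Subgroup.mem_centralizer_singleton_iff]
    constructor
    · intro e
      calc g⁻¹ * z * g * (g⁻¹ * x * g) = g⁻¹ * (z * x) * g := by group
        _ = g⁻¹ * (x * z) * g := by rw [e]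
        _ = _ := by group
    · intro e
      have e2 : g⁻¹ * (z * x) * g = g⁻¹ * (x * z) * g := by
        calc g⁻¹ * (z * x) * g = g⁻¹ * z * g * (g⁻¹ * x * g) := by group
          _ = g⁻¹ * x * g * (g⁻¹ * z * g) := e
          _ = _ := by group
      exact mul_left_cancel (mul_right_cancel e2)
  rw [h1, h0, ← mem_centralizer_smul P g]
  have : g * (g⁻¹ * z * g) * g⁻¹ = z := by group
  rw [this]

theorem mem_sylow_of_mem_centralizer (Q : Sylow p G) {u : G} (hu : IsPGroup p (Subgroup.zpowers u))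
    (hc : u ∈ Subgroup.centralizer ((Q : Subgroup G) : Set G)) : u ∈ (Q : Subgroup G) := by
  have h1 : Subgroup.zpowers u ⊓ Subgroup.normalizer ((Q : Subgroup G) : Set G) =
      Subgroup.zpowers u ⊓ Q := hu.inf_normalizer_sylow Q
  have h2 : u ∈ Subgroup.zpowers u ⊓ Subgroup.normalizer ((Q : Subgroup G) : Set G) :=
    ⟨Subgroup.mem_zpowers u, Subgroup.centralizer_le_normalizer _ hc⟩
  rw [h1] at h2
  exact h2.2

theorem exists_unique_sylow [Finite G] [Fact p.Prime] (hall : ∀ Q : Sylow p G, Star Q) {g : G}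
    (hg : p ∣ orderOf g) :
    ∃ Q : Sylow p G, g ∈ Subgroup.centralizer ((Q : Subgroup G) : Set G) ∧
      ∀ Q' : Sylow p G, g ∈ Subgroup.centralizer ((Q' : Subgroup G) : Set G) → Q' = Q := by
  have hp : p.Prime := Fact.out
  set u := g ^ (orderOf g / p) with hu
  have hou : orderOf u = p := orderOf_pow_orderOf_div (orderOf_pos g).ne' hg
  have hu1 : u ≠ 1 := by
    intro e
    rw [e, orderOf_one] at hou
    exact hp.one_lt.ne hou
  have hup : IsPGroup p (Subgroup.zpowers u) := by
    apply IsPGroup.of_card (n := 1)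
    rw [Nat.card_zpowers, hou, pow_one]
  have hgu : g ∈ Subgroup.centralizer ({u} : Set G) := by
    rw [Subgroup.mem_centralizer_singleton_iff]
    exact ((Commute.refl g).pow_right _).eq
  have key : ∀ Q : Sylow p G, g ∈ Subgroup.centralizer ((Q : Subgroup G) : Set G) →
      u ∈ (Q : Subgroup G) := fun Q hQ =>
    mem_sylow_of_mem_centralizer Q hup (Subgroup.pow_mem _ hQ _)
  obtain ⟨Q, hQ⟩ := hup.exists_le_sylow
  have huQ : u ∈ (Q : Subgroup G) := hQ (Subgroup.mem_zpowers u)
  refine ⟨Q, ?_, ?_⟩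
  · rw [← hall Q u huQ hu1]; exact hgu
  · intro Q' hQ'
    have huQ' := key Q' hQ'
    have h1 : Subgroup.centralizer ((Q' : Subgroup G) : Set G) =
        Subgroup.centralizer ((Q : Subgroup G) : Set G) := by
      rw [← hall Q u huQ hu1, ← hall Q' u huQ' hu1]
    have h2 : (Q' : Subgroup G) ≤ Subgroup.normalizer ((Q : Subgroup G) : Set G) :=
      ((hall Q').le_centralizer.trans h1.le).trans (Subgroup.centralizer_le_normalizer _)
    have h3 : (Q' : Subgroup G) ⊓ Subgroup.normalizer ((Q : Subgroup G) : Set G) =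
      (Q' : Subgroup G) ⊓ Q := Q'.2.inf_normalizer_sylow Q
    rw [inf_eq_left.2 h2] at h3
    have h4 : (Q' : Subgroup G) ≤ Q := by rw [h3]; exact inf_le_right
    exact Sylow.ext (Q'.3 Q.2 h4).symm

theorem sum_singular [Fintype G] [Fact p.Prime] {P : Sylow p G} (h : Star P) {F : G → ℂ}
    (hF : IsClassFunction G F) (hreg : ∀ g, ¬ p ∣ orderOf g → F g = 0) :
    ∑ g, F g = ((Subgroup.normalizer ((P : Subgroup G) : Set G)).index : ℂ) *
      ∑ g, if g ∈ Subgroup.centralizer ((P : Subgroup G) : Set G) then F g else 0 := by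
  cases nonempty_fintype (Sylow p G)
  have hall : ∀ Q : Sylow p G, Star Q := fun Q => by
    obtain ⟨g, rfl⟩ := MulAction.exists_smul_eq G P Q
    exact h.smul g
  have h1 : ∀ g, F g = ∑ Q : Sylow p G,
      if g ∈ Subgroup.centralizer ((Q : Subgroup G) : Set G) then F g else 0 := by
    intro g
    by_cases hg : p ∣ orderOf g
    · obtain ⟨Q, hQ, huniq⟩ := exists_unique_sylow hall hg
      rw [Finset.sum_eq_single Q, if_pos hQ]
      · intro Q' _ hne
        rw [if_neg (fun h' => hne (huniq Q' h'))]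
      · intro h'; exact absurd (Finset.mem_univ _) h'
    · rw [hreg g hg]; simp
  have h2 : ∀ Q : Sylow p G,
      ∑ g, (if g ∈ Subgroup.centralizer ((Q : Subgroup G) : Set G) then F g else 0) =
      ∑ g, if g ∈ Subgroup.centralizer ((P : Subgroup G) : Set G) then F g else 0 := by
    intro Q
    obtain ⟨a, rfl⟩ := MulAction.exists_smul_eq G P Q
    symm
    apply Fintype.sum_equiv (MulAut.conj a).toEquiv
    intro x
    have : (MulAut.conj a).toEquiv x = a * x * a⁻¹ := rfl
    rw [this, hF]
    simp only [mem_centralizer_smul]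
  calc ∑ g, F g = ∑ g, ∑ Q : Sylow p G,
        if g ∈ Subgroup.centralizer ((Q : Subgroup G) : Set G) then F g else 0 :=
        Finset.sum_congr rfl (fun g _ => h1 g)
    _ = ∑ Q : Sylow p G, ∑ g,
        if g ∈ Subgroup.centralizer ((Q : Subgroup G) : Set G) then F g else 0 := Finset.sum_comm
    _ = ∑ _Q : Sylow p G, ∑ g,
        if g ∈ Subgroup.centralizer ((P : Subgroup G) : Set G) then F g else 0 :=
        Finset.sum_congr rfl (fun Q _ => h2 Q)
    _ = _ := by
      rw [Finset.sum_const, Finset.card_univ, nsmul_eq_mul, ← Nat.card_eq_fintype_card,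
        Sylow.card_eq_index_normalizer P]
      rfl

end Cfsg.Agent.Lib.Helper23.FrobN
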