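import Cfsg.Agent.Lib.Helper23.FrobS1
import Cfsg.Agent.Lib.Helper23.Contrib2

/-! The centralizer of `P` as `P × (p-regular elements)`; vanishing of isotypic parts. -/

set_option autoImplicit false
set_option linter.unusedSectionVars false

universe u

namespace Cfsg.Agent.Lib.Helper23.FrobN

open Cfsg Cfsg.Agent.CharLib Cfsg.Agent.BlockLib Cfsg.Agent.Lib.Helper10 Cfsg.Agent.Lib.Helper23
  Cfsg.Agent.Lib.Helper23.DualAct
open scoped ComplexConjugate
open Classical

variable {G : Type u} [Group G] {p : ℕ}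

theorem sum_centralizer [Fintype G] [Fact p.Prime] {P : Sylow p G} [Fintype ↥(P : Subgroup G)]
    (h : Star P) (F : G → ℂ) :
    ∑ g, (if g ∈ Subgroup.centralizer ((P : Subgroup G) : Set G) then F g else 0) =
    ∑ y : ↥(P : Subgroup G), ∑ v,
      if v ∈ Subgroup.centralizer ((P : Subgroup G) : Set G) ∧ ¬ p ∣ orderOf v
        then F (y * v) else 0 := by
  have hp : p.Prime := Fact.out
  obtain ⟨e, he⟩ := Cfsg.Agent.H6.exists_pPart_exp G hp
  set C := Subgroup.centralizer ((P : Subgroup G) : Set G) with hC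
  have hmem : ∀ g ∈ C, g ^ e ∈ (P : Subgroup G) := by
    intro g hg
    apply mem_sylow_of_mem_centralizer P _ (C.zpow_mem hg e)
    obtain ⟨-, -, -, ⟨k, hk⟩, -⟩ := (he g).1
    apply IsPGroup.of_card (n := k)
    rw [Nat.card_zpowers, hk]
  have h1 : ∀ g, (if g ∈ C then F g else 0) =
      ∑ y : ↥(P : Subgroup G), if g ∈ C ∧ g ^ e = y then F g else 0 := by
    intro g
    by_cases hg : g ∈ C
    · rw [if_pos hg, Finset.sum_eq_single ⟨g ^ e, hmem g hg⟩, if_pos ⟨hg, rfl⟩]
      · intro y _ hne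
        rw [if_neg]
        rintro ⟨-, h'⟩
        exact hne (Subtype.ext h'.symm)
      · intro h'; exact absurd (Finset.mem_univ _) h'
    · rw [if_neg hg]
      symm
      apply Finset.sum_eq_zero
      intro y _
      rw [if_neg (fun h' => hg h'.1)]
  rw [Finset.sum_congr rfl (fun g _ => h1 g), Finset.sum_comm]
  apply Finset.sum_congr rfl
  intro y _
  symm
  apply Fintype.sum_equiv (Equiv.mulLeft (y : G))
  intro v
  have : Equiv.mulLeft (y : G) v = y * v := rfl
  rw [this]
  have hyC : (y : G) ∈ C := h.le_centralizer y.2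
  have hiff : (v ∈ C ∧ ¬ p ∣ orderOf v) ↔ ((y : G) * v ∈ C ∧ ((y : G) * v) ^ e = y) := by
    constructor
    · rintro ⟨hv, hv'⟩
      refine ⟨C.mul_mem hyC hv, ?_⟩
      obtain ⟨k, hk⟩ := IsPGroup.iff_orderOf.1 P.2 y
      have hk' : orderOf (y : G) = p ^ k := by rw [← hk, Subgroup.orderOf_coe]
      have hcomm : Commute (y : G) v := (Subgroup.mem_centralizer_iff.1 hv y y.2)
      exact ((he _).2 _ (Sect.isPPart_mul hk' hcomm hv')).symm
    · rintro ⟨h1, h2⟩
      have hv : v ∈ C := by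
        have := C.mul_mem (C.inv_mem hyC) h1
        simpa using this
      refine ⟨hv, ?_⟩
      obtain ⟨v', hv1, -, -, hv2⟩ := (he ((y : G) * v)).1
      rw [h2] at hv1
      rwa [mul_left_cancel hv1] at hv2
  by_cases hc : v ∈ C ∧ ¬ p ∣ orderOf v
  · rw [if_pos hc, if_pos (hiff.1 hc)]
  · rw [if_neg hc, if_neg (fun h' => hc (hiff.2 h'))]

/-- if the `ψ`-isotypic part of a character for a central subgroup has degree zero, it vanishes -/
theorem central_vanish {K W : Type*} [Group K] [Fintype K] [Group W] [Fintype W] (ι : W →* K)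
    (hι : ∀ w, ι w ∈ Subgroup.center K) {f : K → ℂ} (hf : IsCharacter K f) (ψ : W →* ℂˣ)
    (h0 : ∑ w, f (ι w) * conj (ψ w : ℂ) = 0) (v : K) :
    ∑ w, f (ι w * v) * conj (ψ w : ℂ) = 0 := by
  set s : IrrCharacter K → ℂ := fun φ => ∑ w, Contrib.lam (φ : K → ℂ) (ι w) * conj (ψ w : ℂ) with hs
  have hs01 : ∀ φ, s φ = 0 ∨ s φ = (Fintype.card W : ℂ) := by
    intro φ
    by_cases h : s φ = 0
    · exact Or.inl h
    right
    have hmul : ∀ w₀ w, Contrib.lam (φ : K → ℂ) (ι (w₀ * w)) * conj (ψ (w₀ * w) : ℂ) =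
        (Contrib.lam (φ : K → ℂ) (ι w₀) * conj (ψ w₀ : ℂ)) *
          (Contrib.lam (φ : K → ℂ) (ι w) * conj (ψ w : ℂ)) := by
      intro w₀ w
      rw [map_mul, map_mul, Contrib.lam_mul φ (hι w₀), Units.val_mul, map_mul]
      ring
    have h1 : ∀ w₀, Contrib.lam (φ : K → ℂ) (ι w₀) * conj (ψ w₀ : ℂ) = 1 := by
      intro w₀
      have h2 : s φ = ∑ w, Contrib.lam (φ : K → ℂ) (ι (w₀ * w)) * conj (ψ (w₀ * w) : ℂ) :=
        (Fintype.sum_equiv (Equiv.mulLeft w₀) _ _ (fun w => rfl)).symm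
      simp only [hmul] at h2
      rw [← Finset.mul_sum] at h2
      have h3 : (Contrib.lam (φ : K → ℂ) (ι w₀) * conj (ψ w₀ : ℂ) - 1) * s φ = 0 := by
        rw [sub_mul, one_mul]
        exact sub_eq_zero.2 h2.symm
      rcases mul_eq_zero.1 h3 with h4 | h4
      · exact sub_eq_zero.1 h4
      · exact absurd h4 h
    simp only [hs, h1, Finset.sum_const, Finset.card_univ, nsmul_eq_mul, mul_one]
  have hexp : ∀ v, ∑ w, f (ι w * v) * conj (ψ w : ℂ) =
      ∑ φ : IrrCharacter K, classInner f (φ : K → ℂ) * (φ : K → ℂ) v * s φ := by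
    intro v
    have h1 : ∀ w, f (ι w * v) = ∑ φ : IrrCharacter K,
        classInner f (φ : K → ℂ) * (Contrib.lam (φ : K → ℂ) (ι w) * (φ : K → ℂ) v) := by
      intro w
      conv_lhs => rw [classFunction_eq_sum (isClassFunction_of_char hf)]
      rw [Finset.sum_apply]
      apply Finset.sum_congr rfl
      intro φ _
      rw [Pi.smul_apply, smul_eq_mul, Contrib.irr_central_mul' φ (hι w)]
    simp only [h1, Finset.sum_mul, hs, Finset.mul_sum]
    rw [Finset.sum_comm]
    apply Finset.sum_congr rfl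
    intro φ _
    apply Finset.sum_congr rfl
    intro w _
    ring
  have hn : ∀ φ : IrrCharacter K, ∃ n : ℕ, classInner f (φ : K → ℂ) = n := fun φ =>
    classInner_char_nat hf (isCharacter_of_irr φ.2)
  choose n hn using hn
  have hb : ∀ φ, ∃ b : ℕ, s φ = b := by
    intro φ
    rcases hs01 φ with h | h
    · exact ⟨0, by rw [h]; simp⟩
    · exact ⟨_, h⟩
  choose b hb using hb
  have h1 := hexp 1
  simp only [mul_one] at h1
  rw [h0] at h1
  have h2 : ∑ φ : IrrCharacter K, n φ * charDegree (φ : K → ℂ) * b φ = 0 := by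
    have : ((∑ φ : IrrCharacter K, n φ * charDegree (φ : K → ℂ) * b φ : ℕ) : ℂ) = 0 := by
      push_cast
      rw [h1]
      apply Finset.sum_congr rfl
      intro φ _
      rw [hn, hb, charDegree_cast_irr]
    exact_mod_cast this
  rw [hexp v]
  apply Finset.sum_eq_zero
  intro φ _
  have h3 := (Finset.sum_eq_zero_iff.1 h2) φ (Finset.mem_univ _)
  have h4 : n φ * b φ = 0 := by
    rcases Nat.mul_eq_zero.1 h3 with h | h
    · rcases Nat.mul_eq_zero.1 h with h | h
      · rw [h, zero_mul]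
      · exact absurd h (charDegree_pos_irr φ).ne'
    · rw [h, mul_zero]
  have h5 : (n φ : ℂ) * (b φ : ℂ) = 0 := by exact_mod_cast h4
  rw [hn, hb]
  linear_combination (φ : K → ℂ) v * h5

end Cfsg.Agent.Lib.Helper23.FrobN
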