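import Cfsg.Agent.Lib.Helper23.FrobS2

/-! Multiplicities of the linear characters of `P` in the restriction of a character. -/

set_option autoImplicit false
set_option linter.unusedSectionVars false

universe u

namespace Cfsg.Agent.Lib.Helper23.FrobN

open Cfsg Cfsg.Agent.CharLib Cfsg.Agent.BlockLib Cfsg.Agent.Lib.Helper10 Cfsg.Agent.Lib.Helper23
  Cfsg.Agent.Lib.Helper23.DualAct
open scoped ComplexConjugate
open Classical

variable {G : Type u} [Group G] [Fintype G] {p : ℕ} [Fact p.Prime] (P : Sylow p G)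
variable [Fintype ↥(P : Subgroup G)] [Fintype (↥(P : Subgroup G) →* ℂˣ)]

/-- the multiplicity of `ψ` in `f|_P` -/
noncomputable def mu (f : G → ℂ) (ψ : ↥(P : Subgroup G) →* ℂˣ) : ℂ :=
  classInner (fun w : ↥(P : Subgroup G) => f w) (fun w => (ψ w : ℂ))

theorem exists_nat_mu {f : G → ℂ} (hf : IsCharacter G f) (ψ : ↥(P : Subgroup G) →* ℂˣ) :
    ∃ n : ℕ, mu P f ψ = n :=
  classInner_char_nat (isCharacter_restrict hf (P : Subgroup G))
    (isCharacter_of_irr (isIrrCharacter_of_hom ψ))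

/-- the multiplicity as a natural number -/
noncomputable def mult (f : G → ℂ) (ψ : ↥(P : Subgroup G) →* ℂˣ) : ℕ :=
  if h : ∃ n : ℕ, mu P f ψ = n then h.choose else 0

theorem mult_cast {f : G → ℂ} (hf : IsCharacter G f) (ψ : ↥(P : Subgroup G) →* ℂˣ) :
    (mult P f ψ : ℂ) = mu P f ψ := by
  rw [mult, dif_pos (exists_nat_mu P hf ψ)]
  exact (exists_nat_mu P hf ψ).choose_spec.symm

theorem apply_eq_sum_mu (hab : IsMulCommutative P) (f : G → ℂ) (y : ↥(P : Subgroup G)) :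
    f y = ∑ ψ : ↥(P : Subgroup G) →* ℂˣ, mu P f ψ * (ψ y : ℂ) :=
  fourier (comm_of_isMulCommutative P hab) (fun w : ↥(P : Subgroup G) => f w) y

theorem sum_mult (hab : IsMulCommutative P) {f : G → ℂ} (hf : IsCharacter G f) :
    ∑ ψ : ↥(P : Subgroup G) →* ℂˣ, mult P f ψ = charDegree f := by
  have h := apply_eq_sum_mu P hab f 1
  have h2 : ((∑ ψ : ↥(P : Subgroup G) →* ℂˣ, mult P f ψ : ℕ) : ℂ) = (charDegree f : ℂ) := by
    rw [charDegree_cast hf]
    push_cast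
    rw [show f 1 = f ((1 : ↥(P : Subgroup G)) : G) from rfl, h]
    apply Finset.sum_congr rfl
    intro ψ _
    rw [mult_cast P hf, map_one, Units.val_one, mul_one]
  exact_mod_cast h2

theorem mu_of_R {f : G → ℂ} (hf : IsClassFunction G f) {ψ ψ' : ↥(P : Subgroup G) →* ℂˣ}
    (h : R (autE P) ψ ψ') : mu P f ψ = mu P f ψ' := by
  obtain ⟨σ, hσ, h⟩ := h
  obtain ⟨n, hn, hσn⟩ := (mem_autE P).1 hσ
  simp only [mu, classInner]
  congr 1
  apply Fintype.sum_equiv σ.toEquiv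
  intro w
  have : σ.toEquiv w = σ w := rfl
  rw [this, h w, hσn w, hf]

theorem mult_of_R {f : G → ℂ} (hf : IsCharacter G f) {ψ ψ' : ↥(P : Subgroup G) →* ℂˣ}
    (h : R (autE P) ψ ψ') : mult P f ψ = mult P f ψ' := by
  have := mu_of_R P (isClassFunction_of_char hf) h
  rw [← mult_cast P hf, ← mult_cast P hf] at this
  exact_mod_cast this

theorem mu_mul_conj (hab : IsMulCommutative P) (χ : G → ℂ) :
    mu P (fun g => χ g * conj (χ g)) 1 =
      ∑ ψ : ↥(P : Subgroup G) →* ℂˣ, mu P χ ψ * conj (mu P χ ψ) := by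
  have h1 : ∀ ψ : ↥(P : Subgroup G) →* ℂˣ, conj (mu P χ ψ) =
      (Nat.card ↥(P : Subgroup G) : ℂ)⁻¹ * ∑ w : ↥(P : Subgroup G), conj (χ w) * (ψ w : ℂ) := by
    intro ψ
    simp only [mu, classInner, map_mul, map_inv₀, map_natCast, map_sum, Complex.conj_conj]
  simp only [h1]
  have h2 : ∑ ψ : ↥(P : Subgroup G) →* ℂˣ, mu P χ ψ *
      ((Nat.card ↥(P : Subgroup G) : ℂ)⁻¹ * ∑ w : ↥(P : Subgroup G), conj (χ w) * (ψ w : ℂ)) =
      (Nat.card ↥(P : Subgroup G) : ℂ)⁻¹ * ∑ w : ↥(P : Subgroup G), conj (χ w) *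
        ∑ ψ : ↥(P : Subgroup G) →* ℂˣ, mu P χ ψ * (ψ w : ℂ) := by
    simp only [Finset.mul_sum]
    rw [Finset.sum_comm]
    apply Finset.sum_congr rfl
    intro w _
    apply Finset.sum_congr rfl
    intro ψ _
    ring
  rw [h2]
  have h3 : ∀ w : ↥(P : Subgroup G), ∑ ψ : ↥(P : Subgroup G) →* ℂˣ, mu P χ ψ * (ψ w : ℂ) = χ w :=
    fun w => (apply_eq_sum_mu P hab χ w).symm
  simp only [h3]
  simp only [mu, classInner]
  congr 1
  apply Finset.sum_congr rfl
  intro w _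
  simp
  ring

theorem mult_mul_conj (hab : IsMulCommutative P) {χ : G → ℂ} (hχ : IsCharacter G χ)
    (hξ : IsCharacter G (fun g => χ g * conj (χ g))) :
    mult P (fun g => χ g * conj (χ g)) 1 =
      ∑ ψ : ↥(P : Subgroup G) →* ℂˣ, mult P χ ψ ^ 2 := by
  have h := mu_mul_conj P hab χ
  rw [← mult_cast P hξ] at h
  simp only [← mult_cast P hχ, map_natCast] at h
  have h2 : ((mult P (fun g => χ g * conj (χ g)) 1 : ℕ) : ℂ) =
      ((∑ ψ : ↥(P : Subgroup G) →* ℂˣ, mult P χ ψ ^ 2 : ℕ) : ℂ) := by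
    rw [h]
    push_cast
    apply Finset.sum_congr rfl
    intro ψ _
    ring
  exact_mod_cast h2

theorem mu_sum {ι : Type*} (s : Finset ι) (a : ι → ℂ) (F : ι → G → ℂ)
    (ψ : ↥(P : Subgroup G) →* ℂˣ) :
    mu P (fun g => ∑ i ∈ s, a i * F i g) ψ = ∑ i ∈ s, a i * mu P (F i) ψ := by
  simp only [mu, classInner, Finset.sum_mul, Finset.mul_sum]
  rw [Finset.sum_comm]
  apply Finset.sum_congr rfl
  intro i _
  apply Finset.sum_congr rfl
  intro w _
  ring

theorem mu_eq_sum {ξ : G → ℂ} (hξ : IsClassFunction G ξ) (ψ : ↥(P : Subgroup G) →* ℂˣ) :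
    mu P ξ ψ = ∑ η : IrrCharacter G, classInner ξ (η : G → ℂ) * mu P (η : G → ℂ) ψ := by
  rw [← mu_sum]
  congr 1
  funext g
  conv_lhs => rw [classFunction_eq_sum hξ]
  rw [Finset.sum_apply]
  rfl

/-- a constituent has smaller multiplicities -/
theorem mult_le_of_constituent {ξ : G → ℂ} (hξ : IsCharacter G ξ) {η : IrrCharacter G}
    (hη : classInner ξ (η : G → ℂ) ≠ 0) (ψ : ↥(P : Subgroup G) →* ℂˣ) :
    mult P (η : G → ℂ) ψ ≤ mult P ξ ψ := by
  have hn : ∀ φ : IrrCharacter G, ∃ n : ℕ, classInner ξ (φ : G → ℂ) = n := fun φ =>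
    classInner_char_nat hξ (isCharacter_of_irr φ.2)
  choose n hn using hn
  have h := mu_eq_sum P (isClassFunction_of_char hξ) ψ
  have h2 : mult P ξ ψ = ∑ φ : IrrCharacter G, n φ * mult P (φ : G → ℂ) ψ := by
    have : ((mult P ξ ψ : ℕ) : ℂ) = ((∑ φ : IrrCharacter G, n φ * mult P (φ : G → ℂ) ψ : ℕ) : ℂ) := by
      rw [mult_cast P hξ, h]
      push_cast
      apply Finset.sum_congr rfl
      intro φ _
      rw [hn, mult_cast P (isCharacter_of_irr φ.2)]
    exact_mod_cast this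
  rw [h2]
  have h3 : n η * mult P (η : G → ℂ) ψ ≤ ∑ φ : IrrCharacter G, n φ * mult P (φ : G → ℂ) ψ :=
    Finset.single_le_sum (f := fun φ : IrrCharacter G => n φ * mult P (φ : G → ℂ) ψ)
      (fun _ _ => Nat.zero_le _) (Finset.mem_univ η)
  have h4 : 1 ≤ n η := by
    rcases Nat.eq_zero_or_pos (n η) with h0 | h0
    · exfalso; apply hη; rw [hn, h0]; simp
    · exact h0
  calc mult P (η : G → ℂ) ψ = 1 * mult P (η : G → ℂ) ψ := (one_mul _).symm
    _ ≤ n η * mult P (η : G → ℂ) ψ := Nat.mul_le_mul_right _ h4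
    _ ≤ _ := h3

theorem apply_eq_of_mult_eq_zero (hab : IsMulCommutative P) {f : G → ℂ} (hf : IsCharacter G f)
    (h : ∀ ψ : ↥(P : Subgroup G) →* ℂˣ, ψ ≠ 1 → mult P f ψ = 0) (y : ↥(P : Subgroup G)) :
    f y = f 1 := by
  have key : ∀ y : ↥(P : Subgroup G), f y = mu P f 1 := by
    intro y
    rw [apply_eq_sum_mu P hab f y, Finset.sum_eq_single 1]
    · simp
    · intro ψ _ hψ
      rw [← mult_cast P hf, h ψ hψ]
      simp
    · intro h'; exact absurd (Finset.mem_univ _) h'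
  rw [key y, show f 1 = f ((1 : ↥(P : Subgroup G)) : G) from rfl, key 1]

variable {P} in
theorem Coh.c_eq_mult {M : Ideal AlgInt} (D : Coh P M) (η : IrrCharacter G)
    (ψ : ↥(P : Subgroup G) →* ℂˣ) :
    D.c η ψ = (mult P (η : G → ℂ) 1 : ℤ) - (mult P (η : G → ℂ) ψ : ℤ) := by
  have h := D.hc η ψ
  have h2 : ((D.c η ψ : ℤ) : ℂ) =
      (((mult P (η : G → ℂ) 1 : ℤ) - (mult P (η : G → ℂ) ψ : ℤ) : ℤ) : ℂ) := by
    rw [h]
    push_cast
    rw [mult_cast P (isCharacter_of_irr η.2), mult_cast P (isCharacter_of_irr η.2)]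
    rfl
  exact_mod_cast h2

end Cfsg.Agent.Lib.Helper23.FrobN
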