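import Cfsg.Agent.Lib.Helper23.FrobS3

/-! The generalized character `Φ` and the key identity. -/

set_option autoImplicit false
set_option linter.unusedSectionVars false

universe u

namespace Cfsg.Agent.Lib.Helper23.FrobN

open Cfsg Cfsg.Agent.CharLib Cfsg.Agent.BlockLib Cfsg.Agent.Lib.Helper10 Cfsg.Agent.Lib.Helper23
  Cfsg.Agent.Lib.Helper23.DualAct
open scoped ComplexConjugate
open Classical

theorem orbit_sum {W : Type*} [Group W] [Fintype W] (E : Subgroup (MulAut W))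
    (hE : ∀ σ ∈ E, ∀ w, w ≠ 1 → σ w = w → σ = 1) (g : W → ℂ) (w' : W) (hw' : w' ≠ 1) :
    ∑ w, g w * (if ∃ σ ∈ E, σ w' = w then (Nat.card W : ℂ) else 0) =
      (Nat.card W : ℂ) * ∑ σ : E, g (σ.1 w') := by
  simp only [mul_ite, mul_zero]
  rw [← Finset.sum_filter]
  have himg : Finset.univ.filter (fun w => ∃ σ ∈ E, σ w' = w) =
      Finset.univ.image (fun σ : E => σ.1 w') := by
    ext w
    simp only [Finset.mem_filter, Finset.mem_univ, true_and, Finset.mem_image, Subtype.exists,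
      exists_prop]
  rw [himg, Finset.sum_image, Finset.mul_sum]
  · apply Finset.sum_congr rfl
    intro σ _
    ring
  · intro σ _ τ _ h
    have h2 : (τ.1⁻¹ * σ.1 : MulAut W) = 1 := by
      apply hE _ (E.mul_mem (E.inv_mem τ.2) σ.2) w' hw'
      rw [MulAut.mul_apply]
      dsimp only at h
      rw [h, MulAut.inv_apply_self]
    apply Subtype.ext
    rw [inv_mul_eq_one] at h2
    exact h2.symm

variable {G : Type u} [Group G] [Fintype G] {p : ℕ} [Fact p.Prime] {P : Sylow p G}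
  {M : Ideal AlgInt}
variable [Fintype ↥(P : Subgroup G)] [Fintype (↥(P : Subgroup G) →* ℂˣ)]

namespace Coh

variable (D : Coh P M) (ψ₀ : ↥(P : Subgroup G) →* ℂˣ)

/-- the generalized character `Φ` -/
noncomputable def Phi (g : G) : ℂ := ∑ η ∈ Bf M, (D.c η ψ₀ : ℂ) * (η : G → ℂ) g

theorem Phi_class : IsClassFunction G (D.Phi ψ₀) := by
  intro g h
  simp only [Phi]
  apply Finset.sum_congr rfl
  intro η _
  rw [isClassFunction_of_irr η.2]

theorem Phi_regular (hM : IsPModular p M) {g : G} (hg : ¬ p ∣ orderOf g) : D.Phi ψ₀ g = 0 :=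
  D.regular hM ψ₀ hg

theorem not_dvd_orderOf_one : ¬ p ∣ orderOf (1 : G) := by
  have hp : p.Prime := Fact.out
  rw [orderOf_one]
  exact hp.one_lt.ne' ∘ Nat.dvd_one.1

theorem conj_Phi_P (hM : IsPModular p M) (hab : IsMulCommutative P) (hfrob : Frob P)
    (y : ↥(P : Subgroup G)) :
    conj (D.Phi ψ₀ y) = ∑ σ : autE P, (1 - conj (ψ₀ (σ.1 y) : ℂ)) := by
  by_cases hy : y = 1
  · subst hy
    rw [show (((1 : ↥(P : Subgroup G)) : G)) = 1 from rfl, D.Phi_regular ψ₀ hM not_dvd_orderOf_one]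
    simp
  cases nonempty_fintype (principalBlock M G)
  have hq : (Nat.card ↥(P : Subgroup G) : ℂ) ≠ 0 := by exact_mod_cast Nat.card_pos.ne'
  have h1 : conj (D.Phi ψ₀ y) = (Nat.card ↥(P : Subgroup G) : ℂ)⁻¹ *
      ∑ w : ↥(P : Subgroup G), (1 - conj (ψ₀ w : ℂ)) *
        ∑ η ∈ (Bf M : Finset (IrrCharacter G)), (η : G → ℂ) w * conj ((η : G → ℂ) y) := by
    simp only [Phi, map_sum, map_mul, map_intCast]
    simp only [D.hc, cc_eq, Finset.mul_sum, Finset.sum_mul]
    rw [Finset.sum_comm]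
    apply Finset.sum_congr rfl
    intro w _
    apply Finset.sum_congr rfl
    intro η _
    ring
  have h2 : ∀ w : ↥(P : Subgroup G),
      ∑ η ∈ (Bf M : Finset (IrrCharacter G)), (η : G → ℂ) w * conj ((η : G → ℂ) y) =
      if ∃ σ ∈ autE P, σ y = w then (Nat.card ↥(P : Subgroup G) : ℂ) else 0 := by
    intro w
    rw [← sum_Bf (fun η : IrrCharacter G => (η : G → ℂ) w * conj ((η : G → ℂ) y)),
      sum_principal P hM hab hfrob w y hy]
    congr
  simp only [h2] at h1
  have h3 := orbit_sum (autE P) (autE_semiregular P hfrob) (fun w => 1 - conj (ψ₀ w : ℂ)) y hy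
  have h4 : ∑ x : ↥(P : Subgroup G), (1 - conj (ψ₀ x : ℂ)) *
      (if ∃ σ ∈ autE P, σ y = x then (Nat.card ↥(P : Subgroup G) : ℂ) else 0) =
      (Nat.card ↥(P : Subgroup G) : ℂ) * ∑ σ : autE P, (1 - conj (ψ₀ (σ.1 y) : ℂ)) := by
    convert h3
  rw [h1, h4, ← mul_assoc, inv_mul_cancel₀ hq, one_mul]

theorem Phi_mul (hM : IsPModular p M) (hab : IsMulCommutative P) (hfrob : Frob P)
    (y : ↥(P : Subgroup G)) {v : G} (hv : v ∈ Subgroup.centralizer ((P : Subgroup G) : Set G))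
    (hv' : ¬ p ∣ orderOf v) : D.Phi ψ₀ (y * v) = D.Phi ψ₀ y := by
  by_cases hy : y = 1
  · subst hy
    rw [show (((1 : ↥(P : Subgroup G)) : G)) = 1 from rfl, one_mul, D.Phi_regular ψ₀ hM hv',
      D.Phi_regular ψ₀ hM not_dvd_orderOf_one]
  simp only [Phi]
  apply Finset.sum_congr rfl
  intro η hη
  obtain ⟨k, hk⟩ := IsPGroup.iff_orderOf.1 P.2 y
  have hk' : orderOf (y : G) = p ^ k := by rw [← hk, Subgroup.orderOf_coe]
  have hcomm : Commute (y : G) v := (Subgroup.mem_centralizer_iff.1 hv y y.2)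
  rw [apply_of_isPPart P hM hab hfrob (mem_Bf.1 hη) (Sect.isPPart_mul hk' hcomm hv') y.2
    (fun h => hy (Subtype.ext h))]

end Coh

/-- vanishing of the `ψ₀ ∘ σ`-part of `ξ` on `C_G(P)` -/
theorem sum_vanish (hstar : Star P) {ξ : G → ℂ} (hξ : IsCharacter G ξ)
    {ψ₀ : ↥(P : Subgroup G) →* ℂˣ} (h0 : mult P ξ ψ₀ = 0) {σ : MulAut ↥(P : Subgroup G)}
    (hσ : σ ∈ autE P) {v : G} (hv : v ∈ Subgroup.centralizer ((P : Subgroup G) : Set G)) :
    ∑ y : ↥(P : Subgroup G), ξ (y * v) * conj (ψ₀ (σ y) : ℂ) = 0 := by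
  have hq : (Nat.card ↥(P : Subgroup G) : ℂ) ≠ 0 := by exact_mod_cast Nat.card_pos.ne'
  have hR : R (autE P) (ψ₀.comp σ.toMonoidHom) ψ₀ := ⟨σ, hσ, fun w => rfl⟩
  have h1 : mu P ξ (ψ₀.comp σ.toMonoidHom) = 0 := by
    rw [← mult_cast P hξ, mult_of_R P hξ hR, h0, Nat.cast_zero]
  have h2 : ∑ w : ↥(P : Subgroup G), ξ w * conj ((ψ₀.comp σ.toMonoidHom) w : ℂ) = 0 := by
    simp only [mu, classInner] at h1
    rcases mul_eq_zero.1 h1 with h | h
    · exact absurd h (inv_ne_zero hq)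
    · exact h
  have hι : ∀ w : ↥(P : Subgroup G), Subgroup.inclusion hstar.le_centralizer w ∈
      Subgroup.center ↥(Subgroup.centralizer ((P : Subgroup G) : Set G)) := by
    intro w
    rw [Subgroup.mem_center_iff]
    intro c
    apply Subtype.ext
    exact (Subgroup.mem_centralizer_iff.1 c.2 w w.2).symm
  exact central_vanish (Subgroup.inclusion hstar.le_centralizer) hι
    (isCharacter_restrict hξ (Subgroup.centralizer ((P : Subgroup G) : Set G)))
    (ψ₀.comp σ.toMonoidHom) h2 ⟨v, hv⟩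

theorem key_identity (D : Coh P M) (hM : IsPModular p M) (hstar : Star P) {ξ : G → ℂ}
    (hξ : IsCharacter G ξ) {ψ₀ : ↥(P : Subgroup G) →* ℂˣ} (h0 : mult P ξ ψ₀ = 0) :
    ∑ η ∈ Bf M, (D.c η ψ₀ : ℂ) * classInner ξ (η : G → ℂ) =
      (Nat.card (Subgroup.centralizer ((P : Subgroup G) : Set G)) : ℂ)⁻¹ *
        ∑ g, if g ∈ Subgroup.centralizer ((P : Subgroup G) : Set G) then ξ g else 0 := by
  have hab := hstar.isMulCommutative
  have hfrob := hstar.frob
  set C := Subgroup.centralizer ((P : Subgroup G) : Set G) with hC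
  set N := Subgroup.normalizer ((P : Subgroup G) : Set G) with hN
  have s1 : ∑ η ∈ Bf M, (D.c η ψ₀ : ℂ) * classInner ξ (η : G → ℂ) =
      (Nat.card G : ℂ)⁻¹ * ∑ g, ξ g * conj (D.Phi ψ₀ g) := by
    simp only [classInner, Coh.Phi, map_sum, map_mul, map_intCast, Finset.mul_sum]
    rw [Finset.sum_comm]
    apply Finset.sum_congr rfl
    intro g _
    apply Finset.sum_congr rfl
    intro η _
    ring
  have hF : IsClassFunction G (fun g => ξ g * conj (D.Phi ψ₀ g)) := by
    intro g h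
    dsimp only
    rw [isClassFunction_of_char hξ, D.Phi_class ψ₀]
  have hreg : ∀ g, ¬ p ∣ orderOf g → (fun g => ξ g * conj (D.Phi ψ₀ g)) g = 0 := by
    intro g hg
    dsimp only
    rw [D.Phi_regular ψ₀ hM hg, map_zero, mul_zero]
  have s2 := sum_singular hstar hF hreg
  have s3 := sum_centralizer hstar (fun g => ξ g * conj (D.Phi ψ₀ g))
  have s4 : ∑ y : ↥(P : Subgroup G), ∑ v, (if v ∈ C ∧ ¬ p ∣ orderOf v
        then (fun g => ξ g * conj (D.Phi ψ₀ g)) (y * v) else 0) =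
      (Nat.card (autE P) : ℂ) * ∑ y : ↥(P : Subgroup G), ∑ v, (if v ∈ C ∧ ¬ p ∣ orderOf v
        then ξ (y * v) else 0) := by
    rw [Finset.sum_comm, Finset.sum_comm (f := fun (y : ↥(P : Subgroup G)) (v : G) =>
      if v ∈ C ∧ ¬ p ∣ orderOf v then ξ (y * v) else 0), Finset.mul_sum]
    apply Finset.sum_congr rfl
    intro v _
    by_cases hv : v ∈ C ∧ ¬ p ∣ orderOf v
    · simp only [if_pos hv]
      have e1 : ∀ y : ↥(P : Subgroup G), ξ (y * v) * conj (D.Phi ψ₀ (y * v)) =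
          ∑ σ : autE P, (ξ (y * v) - ξ (y * v) * conj (ψ₀ (σ.1 y) : ℂ)) := by
        intro y
        rw [D.Phi_mul ψ₀ hM hab hfrob y hv.1 hv.2, D.conj_Phi_P ψ₀ hM hab hfrob y, Finset.mul_sum]
        apply Finset.sum_congr rfl
        intro σ _
        ring
      simp only [e1]
      rw [Finset.sum_comm]
      simp only [Finset.sum_sub_distrib, sum_vanish hstar hξ h0 (Subtype.property _) hv.1, sub_zero,
        Finset.sum_const, Finset.card_univ, nsmul_eq_mul, Nat.card_eq_fintype_card]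
    · simp only [if_neg hv, Finset.sum_const_zero, mul_zero]
  rw [s1, s2, s3, s4, ← sum_centralizer hstar ξ, ← mul_assoc, ← mul_assoc]
  congr 1
  have hCN : C ≤ N := Subgroup.centralizer_le_normalizer _
  have e1 : Nat.card (autE P) * N.index = C.index := by
    rw [card_autE]
    exact Subgroup.relIndex_mul_index hCN
  have e2 : Nat.card C * C.index = Nat.card G := C.card_mul_index
  have hc : (Nat.card C : ℂ) ≠ 0 := by exact_mod_cast Nat.card_pos.ne'
  have hg : (Nat.card G : ℂ) ≠ 0 := by exact_mod_cast Nat.card_pos.ne'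
  have e3 : (Nat.card C : ℂ) * ((Nat.card (autE P) : ℂ) * (N.index : ℂ)) = (Nat.card G : ℂ) := by
    rw [← e2, ← e1]; push_cast; ring
  field_simp
  linear_combination e3

end Cfsg.Agent.Lib.Helper23.FrobN
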