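import Cfsg.Agent.Lib.Helper23.FrobS4
import Cfsg.Agent.Lib.Helper23.DefectZero
import Cfsg.Agent.H25.Codeg
import Cfsg.Agent.CharLib.MGroup

/-! Characters of small degree (Brauer--Leonard): combinatorial part. -/

set_option autoImplicit false
set_option linter.unusedSectionVars false

universe u

namespace Cfsg.Agent.Lib.Helper23.FrobN

open Cfsg Cfsg.Agent.CharLib Cfsg.Agent.BlockLib Cfsg.Agent.Lib.Helper10 Cfsg.Agent.Lib.Helper23
  Cfsg.Agent.Lib.Helper23.DualAct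
open scoped ComplexConjugate
open Classical

variable {G : Type u} [Group G] [Fintype G] {p : ℕ} [Fact p.Prime] {P : Sylow p G}
  {M : Ideal AlgInt}
variable [Fintype ↥(P : Subgroup G)] [Fintype (↥(P : Subgroup G) →* ℂˣ)]

theorem sum_R (hab : IsMulCommutative P) (hfrob : Frob P) {ψ : ↥(P : Subgroup G) →* ℂˣ}
    (hψ : ψ ≠ 1) :
    ∑ ψ' : ↥(P : Subgroup G) →* ℂˣ, (if R (autE P) ψ ψ' then 1 else 0) = Nat.card (autE P) := by
  rw [← card_R (autE P) (comm_of_isMulCommutative P hab) (autE_semiregular P hfrob) hψ,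
    Nat.card_eq_fintype_card, Fintype.card_subtype, Finset.card_filter]

theorem card_le_sum_of_R (hab : IsMulCommutative P) (hfrob : Frob P)
    {ψ : ↥(P : Subgroup G) →* ℂˣ} (hψ : ψ ≠ 1) (f : (↥(P : Subgroup G) →* ℂˣ) → ℕ)
    (hf : ∀ ψ', R (autE P) ψ ψ' → 1 ≤ f ψ') : Nat.card (autE P) ≤ ∑ ψ', f ψ' := by
  rw [← sum_R hab hfrob hψ]
  apply Finset.sum_le_sum
  intro ψ' _
  by_cases h : R (autE P) ψ ψ'
  · rw [if_pos h]; exact hf ψ' h
  · rw [if_neg h]; exact Nat.zero_le _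

/-- an irreducible character whose restriction to `P` is trivial is trivial, if no proper normal
subgroup contains `P` -/
theorem eq_one_of_mult (hab : IsMulCommutative P)
    (noK : ∀ K : Subgroup G, K.Normal → (P : Subgroup G) ≤ K → K = ⊤) (η : IrrCharacter G)
    (h : ∀ ψ : ↥(P : Subgroup G) →* ℂˣ, ψ ≠ 1 → mult P (η : G → ℂ) ψ = 0) :
    (η : G → ℂ) = fun _ => 1 := by
  apply Cfsg.Agent.H25.eq_one_of_kerSub_eq_top
  apply noK _ inferInstance
  intro y hy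
  rw [Cfsg.Agent.H25.mem_kerSub]
  exact apply_eq_of_mult_eq_zero P hab (isCharacter_of_irr η.2) h ⟨y, hy⟩

/-- the counting lemma -/
theorem exists_mult_eq_zero (hab : IsMulCommutative P) (hfrob : Frob P) {ξ : G → ℂ}
    (hξ : IsCharacter G ξ) (h1 : Nat.card (autE P) ≤ mult P ξ 1)
    (hdeg : charDegree ξ + 1 < Nat.card P) {ψ₀ : ↥(P : Subgroup G) →* ℂˣ} (hψ₀ : ψ₀ ≠ 1) :
    ∃ ψ₂ : ↥(P : Subgroup G) →* ℂˣ, ψ₂ ≠ 1 ∧ ¬ R (autE P) ψ₀ ψ₂ ∧ mult P ξ ψ₂ = 0 := by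
  by_contra hcon
  push Not at hcon
  have ha : ∑ ψ : ↥(P : Subgroup G) →* ℂˣ, (if ψ = 1 then Nat.card (autE P) else 1) ≤
      ∑ ψ : ↥(P : Subgroup G) →* ℂˣ, (mult P ξ ψ + if R (autE P) ψ₀ ψ then 1 else 0) := by
    apply Finset.sum_le_sum
    intro ψ _
    by_cases h : ψ = 1
    · rw [if_pos h, h]
      exact h1.trans (Nat.le_add_right _ _)
    · rw [if_neg h]
      by_cases hR : R (autE P) ψ₀ ψ
      · rw [if_pos hR]; exact Nat.le_add_left _ _
      · rw [if_neg hR, add_zero]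
        exact Nat.one_le_iff_ne_zero.2 (hcon ψ h hR)
  have hb : ∑ ψ : ↥(P : Subgroup G) →* ℂˣ, (if ψ = 1 then Nat.card (autE P) else 1) + 1 =
      Nat.card (autE P) + Nat.card P := by
    have e : ∀ ψ : ↥(P : Subgroup G) →* ℂˣ, (if ψ = 1 then Nat.card (autE P) else 1) +
        (if ψ = 1 then 1 else 0) = (if ψ = 1 then Nat.card (autE P) else 0) + 1 := by
      intro ψ
      by_cases h : ψ = 1
      · simp [h]
      · simp [h]
    have e2 := Finset.sum_congr (rfl : (Finset.univ : Finset (↥(P : Subgroup G) →* ℂˣ)) = _)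
      (fun ψ _ => e ψ)
    rw [Finset.sum_add_distrib, Finset.sum_add_distrib, Finset.sum_ite_eq', Finset.sum_ite_eq',
      if_pos (Finset.mem_univ _), if_pos (Finset.mem_univ _)] at e2
    rw [e2]
    simp only [Finset.sum_const, Finset.card_univ, smul_eq_mul, mul_one]
    rw [← Nat.card_eq_fintype_card, card_lin (comm_of_isMulCommutative P hab)]
  rw [Finset.sum_add_distrib, sum_R hab hfrob hψ₀, sum_mult P hab hξ] at ha
  omega

namespace Coh

variable (D : Coh P M)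

/-- `d = 0` if there are many exceptional characters and `δ = 1` -/
theorem d_eq_zero (hM : IsPModular p M) (hab : IsMulCommutative P) (hfrob : Frob P)
    (hm : Nat.card (autE P) + 1 < Nat.card P) (hr : Nat.card (autE P) + 1 ≤ D.Yf.card)
    (hδ : D.δ = 1) (hd : 0 ≤ D.d) : D.d = 0 := by
  by_contra hd0
  have hd1 : 1 ≤ D.d := by omega
  obtain ⟨ψ₀, hψ₀⟩ := exists_ne_one P hab (by omega)
  have h1 := D.norm_eq hM hab hfrob hψ₀
  have ht := D.triv_mem_Xf hM hab hfrob hm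
  rw [← Finset.add_sum_erase _ _ ht, D.c_triv hψ₀, hδ] at h1
  have hS : 0 ≤ ∑ χ ∈ D.Xf.erase (trivIrr G), D.c χ ψ₀ ^ 2 :=
    Finset.sum_nonneg (fun χ _ => sq_nonneg _)
  have hr' : (Nat.card (autE P) : ℤ) + 1 ≤ (D.Yf.card : ℤ) := by exact_mod_cast hr
  have hm0 : (0 : ℤ) ≤ (Nat.card (autE P) : ℤ) := Int.natCast_nonneg _
  have hdd : 1 ≤ D.d ^ 2 := by nlinarith
  have h2 : (Nat.card (autE P) : ℤ) ≤ ((D.Yf.card : ℤ) - 1) * D.d ^ 2 := by nlinarith
  have h3 : (D.d - 1) ^ 2 + ∑ χ ∈ D.Xf.erase (trivIrr G), D.c χ ψ₀ ^ 2 ≤ 0 := by linarith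
  have h4 : ∑ χ ∈ D.Xf.erase (trivIrr G), D.c χ ψ₀ ^ 2 = 0 := by
    have := sq_nonneg (D.d - 1)
    linarith
  have h5 : D.d = 1 := by
    have h6 : (D.d - 1) ^ 2 = 0 := by
      have := sq_nonneg (D.d - 1)
      linarith
    have := pow_eq_zero_iff (two_ne_zero) |>.1 h6
    omega
  have h7 : ∀ χ ∈ D.Xf.erase (trivIrr G), D.c χ ψ₀ = 0 := by
    intro χ hχ
    have := (Finset.sum_eq_zero_iff_of_nonneg (fun χ _ => sq_nonneg (D.c χ ψ₀))).1 h4 χ hχ
    exact pow_eq_zero_iff (two_ne_zero) |>.1 this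
  have h8 := D.rel_regular hM hψ₀ (D.ζ_mem_Yf hψ₀) (g := 1) not_dvd_orderOf_one
  rw [← Finset.add_sum_erase _ _ ht, D.c_triv hψ₀, hδ, h5,
    Finset.sum_eq_zero (fun χ hχ => by rw [h7 χ hχ, Int.cast_zero, zero_mul]),
    ← charDegree_cast_irr] at h8
  have h9 : ((trivIrr G : IrrCharacter G) : G → ℂ) 1 = 1 := rfl
  rw [h9] at h8
  have h10 : (((D.Yf.card : ℤ) * 1 - 1) * (charDegree (D.ζ ψ₀ : G → ℂ) : ℤ) + (1 * 1 + 0) : ℤ) = 0 := by
    have : ((((D.Yf.card : ℤ) * 1 - 1) * (charDegree (D.ζ ψ₀ : G → ℂ) : ℤ) + (1 * 1 + 0) : ℤ) : ℂ)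
        = 0 := by
      push_cast
      push_cast at h8
      linear_combination h8
    exact_mod_cast this
  have h11 : (0 : ℤ) ≤ (charDegree (D.ζ ψ₀ : G → ℂ) : ℤ) := Int.natCast_nonneg _
  nlinarith

end Coh

end Cfsg.Agent.Lib.Helper23.FrobN
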