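import Cfsg.Agent.Lib.Helper23.FrobS5

/-! Characters of small degree (Brauer--Leonard): the main theorem. -/

set_option autoImplicit false
set_option linter.unusedSectionVars false

universe u

namespace Cfsg.Agent.Lib.Helper23.FrobN

open Cfsg Cfsg.Agent.CharLib Cfsg.Agent.BlockLib Cfsg.Agent.Lib.Helper10 Cfsg.Agent.Lib.Helper23
  Cfsg.Agent.Lib.Helper23.DualAct
open scoped ComplexConjugate
open Classical

section

variable {G : Type u} [Group G] [Finite G] {p : ℕ} [Fact p.Prime] {P : Sylow p G}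
  {M : Ideal AlgInt}
  [Fintype ↥(P : Subgroup G)] [Fintype (↥(P : Subgroup G) →* ℂˣ)] [Fintype (IrrCharacter G)]

theorem Coh.mem_Xf (D : Coh P M) {η : IrrCharacter G} : η ∈ D.Xf ↔ η ∈ Bf M ∧ η ∉ D.Yf := by
  rw [Coh.Xf, Finset.mem_sdiff]

end

variable {G : Type u} [Group G] [Fintype G] {p : ℕ} [Fact p.Prime] {P : Sylow p G}
variable [Fintype ↥(P : Subgroup G)] [Fintype (↥(P : Subgroup G) →* ℂˣ)]

theorem small_degree (hstar : Star P) (χ : IrrCharacter G) (h1 : (χ : G → ℂ) ≠ fun _ => 1)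
    (hdeg : charDegree (χ : G → ℂ) ^ 2 + 1 < Nat.card P)
    (noK : ∀ K : Subgroup G, K.Normal → (P : Subgroup G) ≤ K → K = ⊤) :
    charDegree (χ : G → ℂ) = 1 ∧ Nat.card (autE P) = 1 := by
  have hp : p.Prime := Fact.out
  obtain ⟨M, hM⟩ := exists_isPModular p hp
  have hab := hstar.isMulCommutative
  have hfrob := hstar.frob
  have hχc := isCharacter_of_irr χ.2
  set x := charDegree (χ : G → ℂ) with hx
  set m := Nat.card (autE P) with hm
  have hxpos : 0 < x := charDegree_pos_irr χ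
  have hx1 : (χ : G → ℂ) 1 = (x : ℂ) := (charDegree_cast_irr χ).symm
  set ξ : G → ℂ := fun g => (χ : G → ℂ) g * conj ((χ : G → ℂ) g) with hξdef
  have hξ : IsCharacter G ξ := isCharacter_mul hχc (isCharacter_conj hχc)
  have hξdeg : charDegree ξ = x ^ 2 := by
    apply Cfsg.Agent.H25.charDegree_of_apply_one
    rw [hξdef]
    dsimp only
    rw [hx1]
    simp [sq]
  -- (a)
  obtain ⟨ψ₁, hψ₁, hμ₁⟩ : ∃ ψ₁ : ↥(P : Subgroup G) →* ℂˣ, ψ₁ ≠ 1 ∧ mult P (χ : G → ℂ) ψ₁ ≠ 0 := by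
    by_contra hcon
    push Not at hcon
    exact h1 (eq_one_of_mult hab noK χ hcon)
  have hμR : ∀ ψ', R (autE P) ψ₁ ψ' → 1 ≤ mult P (χ : G → ℂ) ψ' := by
    intro ψ' h
    rw [← mult_of_R P hχc h]
    exact Nat.one_le_iff_ne_zero.2 hμ₁
  -- (b)
  have hmx : m ≤ x := by
    rw [hx, ← sum_mult P hab hχc]
    exact card_le_sum_of_R hab hfrob hψ₁ _ hμR
  have hmξ : m ≤ mult P ξ 1 := by
    rw [mult_mul_conj P hab hχc hξ]
    exact card_le_sum_of_R hab hfrob hψ₁ _ (fun ψ' h => Nat.one_le_pow _ _ (hμR ψ' h))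
  have hxx : x ≤ x ^ 2 := Nat.le_self_pow two_ne_zero x
  have hmq : m + 1 < Nat.card P := by omega
  obtain ⟨D⟩ := nonempty_coh (M := M) P hM hab hfrob hmq
  have hdegξ : charDegree ξ + 1 < Nat.card P := by rw [hξdeg]; exact hdeg
  obtain ⟨ψa, hψa⟩ := exists_ne_one P hab (by omega)
  obtain ⟨ψ₀, hψ₀, -, h0⟩ := exists_mult_eq_zero hab hfrob hξ hmξ hdegξ hψa
  obtain ⟨ψ₂, hψ₂, hnR, h02⟩ := exists_mult_eq_zero hab hfrob hξ hmξ hdegξ hψ₀
  have hr : D.Yf.card * m = Nat.card P - 1 := D.card_Yf hab hfrob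
  have hrm : m + 1 ≤ D.Yf.card := by
    by_contra hcon
    have h1 : D.Yf.card ≤ m := by omega
    have h2 : D.Yf.card * m ≤ m * m := Nat.mul_le_mul_right _ h1
    have h3 : m * m ≤ x ^ 2 := by rw [sq]; exact Nat.mul_le_mul hmx hmx
    omega
  -- (f)
  have hf : ∀ η ∈ Bf M, η ≠ trivIrr G → classInner ξ (η : G → ℂ) ≠ 0 → D.c η ψ₀ = 0 := by
    intro η hηB hne hc
    have hz : mult P (η : G → ℂ) ψ₀ = 0 :=
      Nat.le_zero.1 (h0 ▸ mult_le_of_constituent P hξ hc ψ₀)
    have hz2 : mult P (η : G → ℂ) ψ₂ = 0 :=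
      Nat.le_zero.1 (h02 ▸ mult_le_of_constituent P hξ hc ψ₂)
    by_cases hY : η ∈ D.Yf
    · obtain ⟨ψ, hψ, rfl⟩ := D.mem_Yf.1 hY
      have e1 := D.hval ψ₀ ψ hψ₀ hψ
      by_cases hR : R (autE P) ψ ψ₀
      · exfalso
        have e2 := D.hval ψ₂ ψ hψ₂ hψ
        have hnR2 : ¬ R (autE P) ψ ψ₂ := fun h =>
          hnR ((R_equiv _).trans ((R_equiv _).symm hR) h)
        rw [if_pos hR, D.c_eq_mult, hz] at e1
        rw [if_neg hnR2, D.c_eq_mult, hz2] at e2
        rcases D.hδ with h | h <;> rw [h] at e1 <;> omega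
      · rw [if_neg hR] at e1
        rw [e1, mul_zero, sub_zero]
        have e1' := e1
        rw [D.c_eq_mult, hz] at e1'
        have e3 := D.hval ψ ψ hψ hψ
        rw [if_pos ((R_equiv _).refl _), D.c_eq_mult] at e3
        have hd : 0 ≤ D.d := by omega
        have hδ : D.δ = 1 := by
          rcases D.hδ with h | h
          · exact h
          · rw [h] at e3; omega
        exact D.d_eq_zero hM hab hfrob hmq hrm hδ hd
    · exfalso
      have hX : η ∈ D.Xf := D.mem_Xf.2 ⟨hηB, hY⟩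
      apply hne
      apply Subtype.ext
      apply eq_one_of_mult hab noK η
      intro ψ hψ
      have := D.c_of_mem_Xf hX hψ hψ₀
      rw [D.c_eq_mult, D.c_eq_mult, hz] at this
      omega
  -- (g)
  have htB : trivIrr G ∈ Bf M := (D.mem_Xf.1 (D.triv_mem_Xf hM hab hfrob hmq)).1
  have hsum : ∑ η ∈ Bf M, (D.c η ψ₀ : ℂ) * classInner ξ (η : G → ℂ) = 1 := by
    rw [Finset.sum_eq_single (trivIrr G)]
    · rw [D.c_triv hψ₀]
      have : classInner ξ ((trivIrr G : IrrCharacter G) : G → ℂ) =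
          classInner (χ : G → ℂ) (χ : G → ℂ) := by
        simp only [classInner, trivIrr, hξdef, map_one, mul_one]
      rw [this, classInner_irr_self χ.2]
      simp
    · intro η hη hne
      by_cases hc : classInner ξ (η : G → ℂ) = 0
      · rw [hc, mul_zero]
      · rw [hf η hη hne hc]; simp
    · intro h; exact absurd htB h
  rw [key_identity D hM hstar hξ h0] at hsum
  -- (h)
  set C := Subgroup.centralizer ((P : Subgroup G) : Set G) with hC
  have hnorm : classInner (fun c : ↥C => (χ : G → ℂ) c) (fun c : ↥C => (χ : G → ℂ) c) = 1 := by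
    rw [classInner_def, ← hsum]
    congr 1
    rw [← Finset.sum_filter]
    exact (Finset.sum_subtype (Finset.univ.filter (· ∈ C)) (by simp) ξ).symm
  let θ : IrrCharacter ↥C := ⟨_, isIrrCharacter_of_norm_one (isCharacter_restrict hχc C) hnorm⟩
  have hnormP : ∀ y ∈ (P : Subgroup G), ‖(χ : G → ℂ) y‖ = (x : ℝ) := by
    intro y hy
    have hyC : y ∈ C := hstar.le_centralizer hy
    have hz : (⟨y, hyC⟩ : ↥C) ∈ Subgroup.center ↥C := by
      rw [Subgroup.mem_center_iff]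
      intro c
      apply Subtype.ext
      exact (Subgroup.mem_centralizer_iff.1 c.2 y hy).symm
    have e1 := Contrib.irr_central_mul' θ hz 1
    rw [mul_one] at e1
    have e2 : Contrib.lam (θ : ↥C → ℂ) ⟨y, hyC⟩ ^ orderOf (⟨y, hyC⟩ : ↥C) = 1 := by
      rw [← Contrib.lam_pow θ hz, pow_orderOf_eq_one, Contrib.lam_one]
    have e3 : ‖Contrib.lam (θ : ↥C → ℂ) ⟨y, hyC⟩‖ = 1 :=
      Complex.norm_eq_one_of_pow_eq_one e2 (orderOf_pos _).ne'
    have e4 : (χ : G → ℂ) y = Contrib.lam (θ : ↥C → ℂ) ⟨y, hyC⟩ * (χ : G → ℂ) 1 := e1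
    rw [e4, norm_mul, e3, one_mul, hx1]
    simp
  obtain ⟨n, ρ, hρ, hχρ⟩ := χ.2
  have hfin : (Module.finrank ℂ (Fin n → ℂ) : ℂ) = x := by
    rw [← hx1, ← hχρ, Representation.char_one]
  have hfin' : Module.finrank ℂ (Fin n → ℂ) = x := by exact_mod_cast hfin
  have hPZ : (P : Subgroup G) ≤ H2.scalarSub ρ := by
    intro y hy
    rw [H2.mem_scalarSub, ← norm_character_eq_iff, hχρ, hnormP y hy, hfin']
  have htop := noK _ inferInstance hPZ
  have hall : ∀ g, ‖(χ : G → ℂ) g‖ = (x : ℝ) := by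
    intro g
    have : g ∈ H2.scalarSub ρ := by rw [htop]; exact Subgroup.mem_top g
    rw [H2.mem_scalarSub, ← norm_character_eq_iff, hχρ, hfin'] at this
    exact this
  have hone := classInner_irr_self χ.2
  rw [classInner_def] at hone
  have hsq : ∀ g, (χ : G → ℂ) g * conj ((χ : G → ℂ) g) = (x : ℂ) ^ 2 := by
    intro g
    rw [Complex.mul_conj, Complex.normSq_eq_norm_sq, hall g]
    push_cast
    rfl
  have hg : (Nat.card G : ℂ) ≠ 0 := by exact_mod_cast Nat.card_pos.ne'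
  simp only [hsq, Finset.sum_const, Finset.card_univ, nsmul_eq_mul] at hone
  rw [← Nat.card_eq_fintype_card, ← mul_assoc, inv_mul_cancel₀ hg, one_mul] at hone
  have hx2 : x ^ 2 = 1 := by exact_mod_cast hone
  have hxe : x = 1 := by nlinarith
  refine ⟨hxe, ?_⟩
  have : 0 < m := Nat.card_pos
  omega

end Cfsg.Agent.Lib.Helper23.FrobN
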