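import Cfsg.Agent.Lib.Helper23.FrobS6

/-! Characters of small degree (Brauer--Leonard): final statements. -/

set_option autoImplicit false
set_option linter.unusedSectionVars false

universe u

namespace Cfsg.Agent.Lib.Helper23.FrobN

open Cfsg Cfsg.Agent.CharLib Cfsg.Agent.BlockLib Cfsg.Agent.Lib.Helper10 Cfsg.Agent.Lib.Helper23
  Cfsg.Agent.Lib.Helper23.DualAct
open scoped ComplexConjugate

theorem brauer_leonard {G : Type u} [Group G] [Finite G] (p : ℕ) (hp : p.Prime) (P : Sylow p G)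
    (hstar : ∀ x ∈ (P : Subgroup G), x ≠ 1 → Subgroup.centralizer ({x} : Set G) =
      Subgroup.centralizer ((P : Subgroup G) : Set G))
    (χ : Cfsg.IrrCharacter G) (h1 : (χ : G → ℂ) ≠ fun _ => 1)
    (hdeg : Cfsg.charDegree (χ : G → ℂ) ^ 2 + 1 < Nat.card P) :
    (∃ K : Subgroup G, K.Normal ∧ K ≠ ⊤ ∧ (P : Subgroup G) ≤ K) ∨
      ((∃ N : Subgroup G, N.Normal ∧ N.index = Nat.card P) ∧
        Cfsg.charDegree (χ : G → ℂ) = 1) := by
  classical
  have : Fact p.Prime := ⟨hp⟩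
  cases nonempty_fintype G
  by_cases hK : ∃ K : Subgroup G, K.Normal ∧ K ≠ ⊤ ∧ (P : Subgroup G) ≤ K
  · exact Or.inl hK
  right
  have noK : ∀ K : Subgroup G, K.Normal → (P : Subgroup G) ≤ K → K = ⊤ := by
    intro K hKn hPK
    by_contra hne
    exact hK ⟨K, hKn, hne, hPK⟩
  cases nonempty_fintype ↥(P : Subgroup G)
  cases nonempty_fintype (↥(P : Subgroup G) →* ℂˣ)
  have hstar' : Star P := hstar
  obtain ⟨hx, hm⟩ := small_degree hstar' χ h1 hdeg noK
  refine ⟨?_, hx⟩
  rw [card_autE, Subgroup.relIndex_eq_one] at hm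
  have hcomp := MonoidHom.ker_transferSylow_isComplement' P hm
  exact ⟨(MonoidHom.transferSylow P hm).ker, inferInstance, hcomp.symm.index_eq_card⟩

end Cfsg.Agent.Lib.Helper23.FrobN
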