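import Cfsg.Agent.Lib.Helper23.FrobS7
import Cfsg.Agent.CharLib.L.Linear

/-! Faithful characters of small degree (Brauer--Leonard). -/

set_option autoImplicit false
set_option linter.unusedSectionVars false

universe u

namespace Cfsg.Agent.Lib.Helper23.FrobN

open Cfsg Cfsg.Agent.CharLib Cfsg.Agent.BlockLib Cfsg.Agent.Lib.Helper10 Cfsg.Agent.Lib.Helper23
  Cfsg.Agent.Lib.Helper23.DualAct
open scoped ComplexConjugate

theorem faithful_small {G : Type u} [Group G] [Finite G] (p : ℕ) (hp : p.Prime) (P : Sylow p G)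
    (hstar : ∀ x ∈ (P : Subgroup G), x ≠ 1 → Subgroup.centralizer ({x} : Set G) =
      Subgroup.centralizer ((P : Subgroup G) : Set G))
    (χ : G → ℂ) (hχ : Cfsg.IsCharacter G χ) (hfaith : ∀ g : G, χ g = χ 1 → g = 1)
    (hdeg : Cfsg.charDegree χ ^ 2 + 1 < Nat.card P) : (P : Subgroup G).Normal := by
  classical
  have : Fact p.Prime := ⟨hp⟩
  set H := Subgroup.normalClosure ((P : Subgroup G) : Set G) with hH
  have hHn : H.Normal := Subgroup.normalClosure_normal
  have hPH : (P : Subgroup G) ≤ H := Subgroup.le_normalClosure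
  let Q : Sylow p H := P.subtype hPH
  have hQ : (Q : Subgroup H) = (P : Subgroup G).subgroupOf H := Sylow.coe_subtype ..
  have memQ : ∀ z : H, z ∈ (Q : Subgroup H) ↔ (z : G) ∈ (P : Subgroup G) := by
    intro z
    rw [hQ, Subgroup.mem_subgroupOf]
  have hcardQ : Nat.card Q = Nat.card P :=
    Nat.card_congr (Subgroup.subgroupOfEquivOfLe hPH).toEquiv
  -- conjugates of elements of `P`
  have L1 : ∀ (g a : G), a ∈ (P : Subgroup G) → ∃ (hx : g * a * g⁻¹ ∈ H) (h : H),
      h⁻¹ * ⟨g * a * g⁻¹, hx⟩ * h ∈ (Q : Subgroup H) := by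
    intro g a ha
    have hle : ((g • P : Sylow p G) : Subgroup G) ≤ H := by
      intro x hx
      rw [mem_sylow_smul] at hx
      have := hHn.conj_mem _ (hPH hx) g
      simpa [mul_assoc] using this
    have hmem : g * a * g⁻¹ ∈ ((g • P : Sylow p G) : Subgroup G) := by
      rw [mem_sylow_smul]
      have : g⁻¹ * (g * a * g⁻¹) * g = a := by group
      rw [this]; exact ha
    obtain ⟨h, hh⟩ := MulAction.exists_smul_eq H Q ((g • P : Sylow p G).subtype hle)
    refine ⟨hle hmem, h, ?_⟩
    rw [← mem_sylow_smul, hh, Sylow.coe_subtype, Subgroup.mem_subgroupOf]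
    exact hmem
  -- the hypothesis for `Q`
  have hstarQ : ∀ x ∈ (Q : Subgroup H), x ≠ 1 → Subgroup.centralizer ({x} : Set H) =
      Subgroup.centralizer ((Q : Subgroup H) : Set H) := by
    intro x hx hx1
    have h0 := hstar (x : G) ((memQ x).1 hx) (fun h => hx1 (Subtype.ext h))
    ext z
    have h1 : z ∈ Subgroup.centralizer ({x} : Set H) ↔
        (z : G) ∈ Subgroup.centralizer ({(x : G)} : Set G) := by
      rw [Subgroup.mem_centralizer_singleton_iff, Subgroup.mem_centralizer_singleton_iff]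
      constructor
      · intro e; exact congrArg Subtype.val e
      · intro e; exact Subtype.ext e
    rw [h1, h0, Subgroup.mem_centralizer_iff, Subgroup.mem_centralizer_iff]
    constructor
    · intro e w hw
      exact Subtype.ext (e (w : G) ((memQ w).1 hw))
    · intro e w hw
      exact congrArg Subtype.val (e ⟨w, hPH hw⟩ ((memQ _).2 hw))
  -- no proper normal subgroup of `H` contains `Q`
  have noK : ¬ ∃ K : Subgroup H, K.Normal ∧ K ≠ ⊤ ∧ (Q : Subgroup H) ≤ K := by
    rintro ⟨K, hKn, hKtop, hQK⟩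
    apply hKtop
    have h1 : H ≤ K.map H.subtype := by
      have h0 : Subgroup.closure (Group.conjugatesOfSet ((P : Subgroup G) : Set G)) ≤
          K.map H.subtype := by
        rw [Subgroup.closure_le]
        intro x hx
        obtain ⟨a, ha, hc⟩ := Group.mem_conjugatesOfSet_iff.1 hx
        obtain ⟨g, rfl⟩ := isConj_iff.1 hc
        obtain ⟨hx', h, hh⟩ := L1 g a ha
        have h2 := hKn.conj_mem _ (hQK hh) h
        have h3 : h * (h⁻¹ * ⟨g * a * g⁻¹, hx'⟩ * h) * h⁻¹ = ⟨g * a * g⁻¹, hx'⟩ := by group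
        rw [h3] at h2
        exact ⟨_, h2, rfl⟩
      exact h0
    rw [eq_top_iff]
    intro z _
    obtain ⟨k, hk, hkz⟩ := h1 z.2
    have : k = z := Subtype.ext hkz
    rwa [← this]
  cases nonempty_fintype H
  -- the constituents of the restriction are linear
  obtain ⟨mm, hmm⟩ := isCharacter_iff.1 (isCharacter_restrict hχ H)
  have happ : ∀ z : H, χ z = ∑ φ : IrrCharacter H, (mm φ : ℂ) * (φ : H → ℂ) z := by
    intro z
    have := congrFun hmm z
    rw [Finset.sum_apply] at this
    exact this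
  have hdegsum : charDegree χ = ∑ φ : IrrCharacter H, mm φ * charDegree (φ : H → ℂ) := by
    have : ((charDegree χ : ℕ) : ℂ) =
        ((∑ φ : IrrCharacter H, mm φ * charDegree (φ : H → ℂ) : ℕ) : ℂ) := by
      rw [charDegree_cast hχ]
      push_cast
      rw [show χ 1 = χ ((1 : H) : G) from rfl, happ 1]
      apply Finset.sum_congr rfl
      intro φ _
      rw [charDegree_cast_irr]
    exact_mod_cast this
  have hlin : ∀ φ : IrrCharacter H, mm φ ≠ 0 → (φ : H → ℂ) 1 = 1 := by
    intro φ hφ
    have h1 : charDegree (φ : H → ℂ) ≤ charDegree χ := by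
      rw [hdegsum]
      calc charDegree (φ : H → ℂ) = 1 * charDegree (φ : H → ℂ) := (one_mul _).symm
        _ ≤ mm φ * charDegree (φ : H → ℂ) :=
          Nat.mul_le_mul_right _ (Nat.one_le_iff_ne_zero.2 hφ)
        _ ≤ _ := Finset.single_le_sum
          (f := fun φ : IrrCharacter H => mm φ * charDegree (φ : H → ℂ))
          (fun _ _ => Nat.zero_le _) (Finset.mem_univ φ)
    by_cases h1φ : (φ : H → ℂ) = fun _ => 1
    · rw [h1φ]
    · have h2 : charDegree (φ : H → ℂ) ^ 2 + 1 < Nat.card Q := by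
        rw [hcardQ]
        have := Nat.pow_le_pow_left h1 2
        omega
      rcases brauer_leonard p hp Q hstarQ φ h1φ h2 with h | h
      · exact absurd h noK
      · rw [← charDegree_cast_irr, h.2, Nat.cast_one]
  -- `H` is abelian
  have hcomm : ∀ a b : H, a * b = b * a := by
    intro a b
    have h1 : χ ((a * b * a⁻¹ * b⁻¹ : H) : G) = χ 1 := by
      rw [show χ 1 = χ ((1 : H) : G) from rfl, happ, happ]
      apply Finset.sum_congr rfl
      intro φ _
      by_cases hφ : mm φ = 0
      · rw [hφ]; simp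
      · rw [L.irr_commutator_of_apply_one_eq_one φ (hlin φ hφ), hlin φ hφ]
    have h2 := hfaith _ h1
    have h3 : a * b * a⁻¹ * b⁻¹ = 1 := Subtype.ext h2
    calc a * b = (a * b * a⁻¹ * b⁻¹) * (b * a) := by group
      _ = b * a := by rw [h3, one_mul]
  refine ⟨fun a ha g => ?_⟩
  obtain ⟨hx', h, hh⟩ := L1 g a ha
  rw [hcomm h⁻¹, mul_assoc, inv_mul_cancel, mul_one, memQ] at hh
  exact hh

end Cfsg.Agent.Lib.Helper23.FrobN
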