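import Mathlib

/-! Odd-order automorphism groups of an abelian `2`-group with at most three involutions. -/

set_option autoImplicit false

namespace Cfsg.Agent.Lib.Helper23.Homo

variable {W : Type*} [Group W]

theorem fix_of_sq_fix [Finite W] {σ : MulAut W} (hodd : Odd (orderOf σ)) {w : W}
    (h : σ (σ w) = w) : σ w = w := by
  obtain ⟨k, hk⟩ := hodd
  have h1 : ∀ j : ℕ, ((σ ^ 2) ^ j) w = w := by
    intro j
    induction j with
    | zero => simp
    | succ j ih =>
      have h0 : (σ ^ 2) w = w := by rw [pow_two, MulAut.mul_apply, h]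
      rw [pow_succ, MulAut.mul_apply, h0, ih]
  have h2 : (σ ^ 2) ^ (k + 1) = σ := by
    rw [← pow_mul, show 2 * (k + 1) = orderOf σ + 1 by omega, pow_succ, pow_orderOf_eq_one, one_mul]
  have h3 := h1 (k + 1)
  rwa [h2] at h3

open Classical in
theorem semiregular [Fintype W] (hW : ∀ a b : W, a * b = b * a) (h2 : IsPGroup 2 W)
    (hΩ : (Finset.univ.filter (fun w : W => w ^ 2 = 1)).card ≤ 4)
    {σ : MulAut W} (hodd : Odd (orderOf σ)) {w : W} (hw : w ≠ 1) (hfix : σ w = w) : σ = 1 := by
  -- an involution fixed by `σ`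
  obtain ⟨t₁, ht₁, ht₁', hσt₁⟩ : ∃ t₁ : W, t₁ ≠ 1 ∧ t₁ ^ 2 = 1 ∧ σ t₁ = t₁ := by
    obtain ⟨a, ha⟩ := IsPGroup.iff_orderOf.1 h2 w
    rcases Nat.eq_zero_or_pos a with rfl | ha0
    · rw [pow_zero, orderOf_eq_one_iff] at ha
      exact absurd ha hw
    refine ⟨w ^ 2 ^ (a - 1), ?_, ?_, ?_⟩
    · intro h
      have h3 := orderOf_dvd_of_pow_eq_one h
      rw [ha] at h3
      have h4 := Nat.le_of_dvd (by positivity) h3
      have h5 : 2 ^ (a - 1) < 2 ^ a := Nat.pow_lt_pow_right (by norm_num) (by omega)
      omega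
    · rw [← pow_mul, ← pow_succ, show a - 1 + 1 = a by omega, ← ha, pow_orderOf_eq_one]
    · rw [map_pow, hfix]
  -- all involutions are fixed
  have hinv : ∀ t : W, t ^ 2 = 1 → σ t = t := by
    intro t ht
    by_cases h1 : t = 1
    · rw [h1, map_one]
    by_cases h2 : t = t₁
    · rw [h2, hσt₁]
    have hsub : ({1, t₁, t, t₁ * t} : Finset W) ⊆ Finset.univ.filter (fun w : W => w ^ 2 = 1) := by
      intro s hs
      simp only [Finset.mem_insert, Finset.mem_singleton] at hs
      simp only [Finset.mem_filter, Finset.mem_univ, true_and]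
      rcases hs with rfl | rfl | rfl | rfl
      · simp
      · exact ht₁'
      · exact ht
      · rw [(show Commute t₁ t from hW _ _).mul_pow 2, ht₁', ht, one_mul]
    have hcard : ({1, t₁, t, t₁ * t} : Finset W).card = 4 := by
      rw [Finset.card_insert_of_notMem, Finset.card_insert_of_notMem, Finset.card_insert_of_notMem,
        Finset.card_singleton]
      · simp only [Finset.mem_singleton]
        intro h
        exact ht₁ (by simpa using h.symm)
      · simp only [Finset.mem_insert, Finset.mem_singleton, not_or]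
        refine ⟨fun h => h2 h.symm, fun h => h1 ?_⟩
        simpa using h.symm
      · simp only [Finset.mem_insert, Finset.mem_singleton, not_or]
        refine ⟨fun h => ht₁ h.symm, fun h => h1 h.symm, fun h => ?_⟩
        apply h2
        have h5 : t₁ * t₁ = t₁ * t := by rw [← pow_two, ht₁', h]
        exact (mul_left_cancel h5).symm
    have heq := Finset.eq_of_subset_of_card_le hsub (by rw [hcard]; exact hΩ)
    have hmem : σ t ∈ ({1, t₁, t, t₁ * t} : Finset W) := by
      rw [heq]
      simp only [Finset.mem_filter, Finset.mem_univ, true_and]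
      rw [← map_pow, ht, map_one]
    simp only [Finset.mem_insert, Finset.mem_singleton] at hmem
    rcases hmem with h | h | h | h
    · exact absurd ((map_eq_one_iff σ σ.injective).1 h) h1
    · rw [← hσt₁] at h
      exact absurd (σ.injective h) h2
    · exact h
    · apply fix_of_sq_fix hodd
      rw [h, map_mul, hσt₁, h, ← mul_assoc, ← pow_two, ht₁', one_mul]
  have hall : ∀ (a : ℕ) (w : W), w ^ 2 ^ a = 1 → σ w = w := by
    intro a
    induction a with
    | zero =>
      intro w hw
      rw [pow_zero, pow_one] at hw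
      rw [hw, map_one]
    | succ a ih =>
      intro w hw
      have h3 : σ (w ^ 2) = w ^ 2 := by
        apply ih
        rw [← pow_mul, ← pow_succ']
        exact hw
      have h4 : (w⁻¹ * σ w) ^ 2 = 1 := by
        rw [(show Commute w⁻¹ (σ w) from hW _ _).mul_pow 2, ← map_pow, h3, inv_pow, inv_mul_cancel]
      have h5 := hinv _ h4
      apply fix_of_sq_fix hodd
      have h6 : σ w = w * (w⁻¹ * σ w) := by group
      calc σ (σ w) = σ (w * (w⁻¹ * σ w)) := by rw [← h6]
        _ = σ w * (w⁻¹ * σ w) := by rw [map_mul, h5]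
        _ = w * (w⁻¹ * σ w) ^ 2 := by rw [pow_two]; group
        _ = w := by rw [h4, mul_one]
  ext w
  obtain ⟨a, ha⟩ := IsPGroup.iff_orderOf.1 h2 w
  rw [MulAut.one_apply]
  apply hall a
  rw [← ha, pow_orderOf_eq_one]

open Classical in
theorem card_le_three [Fintype W] (hW : ∀ a b : W, a * b = b * a) (h2 : IsPGroup 2 W)
    (hΩ : (Finset.univ.filter (fun w : W => w ^ 2 = 1)).card ≤ 4) (E : Subgroup (MulAut W))
    (hE : Odd (Nat.card E)) {t : W} (ht1 : t ≠ 1) (ht : t ^ 2 = 1) : Nat.card E ≤ 3 := by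
  have hodd : ∀ σ ∈ E, Odd (orderOf σ) := by
    intro σ hσ
    have h1 : orderOf σ ∣ Nat.card E := by
      have := orderOf_dvd_natCard (⟨σ, hσ⟩ : E)
      rwa [Subgroup.orderOf_mk] at this
    exact hE.of_dvd_nat h1
  let f : E → {w : W // w ∈ (Finset.univ.filter (fun w : W => w ^ 2 = 1)).erase 1} := fun σ =>
    ⟨σ.1 t, by
      simp only [Finset.mem_erase, Finset.mem_filter, Finset.mem_univ, true_and]
      refine ⟨fun h => ht1 ((map_eq_one_iff σ.1 σ.1.injective).1 h), ?_⟩
      rw [← map_pow, ht, map_one]⟩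
  have hf : Function.Injective f := by
    intro σ τ h
    have h1 : σ.1 t = τ.1 t := congrArg Subtype.val h
    have h2' : (τ.1⁻¹ * σ.1 : MulAut W) = 1 := by
      apply semiregular hW h2 hΩ (hodd _ (E.mul_mem (E.inv_mem τ.2) σ.2)) ht1
      rw [MulAut.mul_apply, h1, MulAut.inv_apply_self]
    apply Subtype.ext
    rw [inv_mul_eq_one] at h2'
    exact h2'.symm
  have h3 := Nat.card_le_card_of_injective f hf
  rw [Nat.card_eq_fintype_card (α := {w : W // _}), Fintype.card_coe,
    Finset.card_erase_of_mem (by simp)] at h3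
  omega

end Cfsg.Agent.Lib.Helper23.Homo
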