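import Cfsg.Agent.Lib.Helper23.Homo1

/-! Facts about the homocyclic group `Z/2^m × Z/2^m`. -/

set_option autoImplicit false

namespace Cfsg.Agent.Lib.Helper23.Homo

theorem zmod_add_self {m : ℕ} (hm : 1 ≤ m) (a : ZMod (2 ^ m)) (h : a + a = 0) :
    a = 0 ∨ a = ((2 ^ (m - 1) : ℕ) : ZMod (2 ^ m)) := by
  have : NeZero (2 ^ m) := ⟨by positivity⟩
  have h1 : ((a.val + a.val : ℕ) : ZMod (2 ^ m)) = 0 := by
    rw [Nat.cast_add, ZMod.natCast_zmod_val, h]
  rw [ZMod.natCast_eq_zero_iff] at h1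
  have h2 : a.val < 2 ^ m := ZMod.val_lt a
  have h3 : 2 ^ m = 2 * 2 ^ (m - 1) := by
    rw [← pow_succ', show m - 1 + 1 = m by omega]
  obtain ⟨k, hk⟩ := h1
  obtain ⟨v, hv⟩ : ∃ v, v = a.val := ⟨_, rfl⟩
  rw [← hv] at hk h2
  rw [h3] at hk h2
  obtain ⟨N, hN⟩ : ∃ N, N = 2 ^ (m - 1) := ⟨_, rfl⟩
  rw [← hN] at hk h2 ⊢
  have hNpos : 0 < N := by rw [hN]; positivity
  have hk2 : k < 2 := by
    by_contra hcon
    have : 2 ≤ k := by omega
    nlinarith
  interval_cases k
  · left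
    have : a.val = 0 := by omega
    exact (ZMod.val_eq_zero a).1 this
  · right
    have : a.val = N := by omega
    rw [← this, ZMod.natCast_zmod_val]

variable {W : Type*} [Group W] {m : ℕ}

theorem comm_of_equiv (e : W ≃* Multiplicative (ZMod (2 ^ m) × ZMod (2 ^ m))) (a b : W) :
    a * b = b * a := by
  apply e.injective
  rw [map_mul, map_mul, mul_comm]

theorem card_of_equiv (e : W ≃* Multiplicative (ZMod (2 ^ m) × ZMod (2 ^ m))) :
    Nat.card W = (2 ^ m) ^ 2 := by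
  rw [Nat.card_congr e.toEquiv, Nat.card_congr Multiplicative.toAdd, Nat.card_prod, Nat.card_zmod,
    sq]

open Classical in
theorem card_sq_eq_one_le [Fintype W] (hm : 1 ≤ m)
    (e : W ≃* Multiplicative (ZMod (2 ^ m) × ZMod (2 ^ m))) :
    (Finset.univ.filter (fun w : W => w ^ 2 = 1)).card ≤ 4 := by
  set h : ZMod (2 ^ m) := ((2 ^ (m - 1) : ℕ) : ZMod (2 ^ m)) with hh
  have h1 : (Finset.univ.filter (fun w : W => w ^ 2 = 1)).card ≤
      (({0, h} : Finset (ZMod (2 ^ m))) ×ˢ ({0, h} : Finset (ZMod (2 ^ m)))).card := by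
    apply Finset.card_le_card_of_injOn (fun w => Multiplicative.toAdd (e w))
    · intro w hw
      simp only [Finset.coe_filter, Finset.mem_univ, true_and, Set.mem_ofPred_eq] at hw
      have h2 : (e w) ^ 2 = 1 := by rw [← map_pow, hw, map_one]
      have h3 : (2 : ℕ) • Multiplicative.toAdd (e w) = 0 := by
        rw [← toAdd_pow, h2]; rfl
      rw [two_nsmul] at h3
      have h4 := congrArg Prod.fst h3
      have h5 := congrArg Prod.snd h3
      simp only [Prod.fst_add, Prod.snd_add, Prod.fst_zero, Prod.snd_zero] at h4 h5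
      simp only [Finset.coe_product, Set.mem_prod, Finset.coe_insert, Finset.coe_singleton,
        Set.mem_insert_iff, Set.mem_singleton_iff]
      exact ⟨zmod_add_self hm _ h4, zmod_add_self hm _ h5⟩
    · intro a _ b _ hab
      exact e.injective (Multiplicative.toAdd.injective hab)
  refine h1.trans ?_
  rw [Finset.card_product]
  have : ({0, h} : Finset (ZMod (2 ^ m))).card ≤ 2 := Finset.card_le_two
  nlinarith

theorem exists_sq_ne_one (hm : 2 ≤ m) (e : W ≃* Multiplicative (ZMod (2 ^ m) × ZMod (2 ^ m))) :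
    ∃ z : W, z ^ 2 ≠ 1 := by
  refine ⟨e.symm (Multiplicative.ofAdd (1, 0)), fun h => ?_⟩
  have h1 : (Multiplicative.ofAdd ((1 : ZMod (2 ^ m)), (0 : ZMod (2 ^ m)))) ^ 2 = 1 := by
    have := congrArg e h
    rwa [map_pow, MulEquiv.apply_symm_apply, map_one] at this
  have h2 : (2 : ℕ) • ((1 : ZMod (2 ^ m)), (0 : ZMod (2 ^ m))) = 0 := by
    have := congrArg Multiplicative.toAdd h1
    rwa [toAdd_pow] at this
  rw [two_nsmul] at h2
  have h3 := congrArg Prod.fst h2
  simp only [Prod.fst_add, Prod.fst_zero] at h3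
  have h4 : ((2 : ℕ) : ZMod (2 ^ m)) = 0 := by
    rw [← h3]; norm_num
  rw [ZMod.natCast_eq_zero_iff] at h4
  have h5 := Nat.le_of_dvd (by norm_num) h4
  have h6 : 2 ^ 2 ≤ 2 ^ m := Nat.pow_le_pow_right (by norm_num) hm
  omega

end Cfsg.Agent.Lib.Helper23.Homo
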