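import Cfsg.Agent.Lib.Helper23.Homo2
import Cfsg.Agent.Lib.Helper23.FrobS6

/-! Products of two involutions and the principal block. -/

set_option autoImplicit false
set_option linter.unusedSectionVars false

universe u

namespace Cfsg.Agent.Lib.Helper23.Homo

open Cfsg Cfsg.Agent.CharLib Cfsg.Agent.BlockLib Cfsg.Agent.Lib.Helper10 Cfsg.Agent.Lib.Helper23
  Cfsg.Agent.Lib.Helper23.DualAct Cfsg.Agent.Lib.Helper23.FrobN
open scoped ComplexConjugate
open Classical

variable {G : Type u} [Group G] [Fintype G]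

/-- indicator of the class of `t` -/
noncomputable def ind (t a : G) : ℂ := if IsConj t a then 1 else 0

theorem ind_class (t : G) : IsClassFunction G (ind t) := by
  intro a h
  have : IsConj t (h * a * h⁻¹) ↔ IsConj t a := by
    constructor
    · intro h1
      exact h1.trans (isConj_iff.2 ⟨h⁻¹, by group⟩)
    · intro h1
      exact h1.trans (isConj_iff.2 ⟨h, rfl⟩)
  simp only [ind, this]

theorem conj_ind (t a : G) : conj (ind t a) = ind t a := by
  unfold ind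
  split_ifs <;> simp

/-- the number of ways of writing `u` as a product of two conjugates of `t` -/
noncomputable def theta (t u : G) : ℂ := ∑ a, ind t a * ind t (a⁻¹ * u)

theorem theta_class (t : G) : IsClassFunction G (theta t) := by
  intro u h
  unfold theta
  symm
  apply Fintype.sum_equiv (MulAut.conj h).toEquiv
  intro a
  have h1 : (MulAut.conj h).toEquiv a = h * a * h⁻¹ := rfl
  rw [h1, ind_class t a h]
  have h2 : (h * a * h⁻¹)⁻¹ * (h * u * h⁻¹) = h * (a⁻¹ * u) * h⁻¹ := by group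
  rw [h2, ind_class t _ h]

theorem conj_theta (t u : G) : conj (theta t u) = theta t u := by
  unfold theta
  rw [map_sum]
  apply Finset.sum_congr rfl
  intro a _
  rw [map_mul, conj_ind, conj_ind]

theorem sum_ind_mul (t : G) {χ : G → ℂ} (hχ : IsClassFunction G χ) :
    ∑ a, ind t a * χ a = (∑ a, ind t a) * χ t := by
  rw [Finset.sum_mul]
  apply Finset.sum_congr rfl
  intro a _
  unfold ind
  split_ifs with h
  · obtain ⟨c, rfl⟩ := isConj_iff.1 h
    rw [hχ]
  · simp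

theorem sum_theta_mul (t : G) (χ : IrrCharacter G) :
    ∑ u, theta t u * (χ : G → ℂ) u = ((∑ a, ind t a) * (χ : G → ℂ) t) ^ 2 / (χ : G → ℂ) 1 := by
  have hcf := isClassFunction_of_irr χ.2
  have h1 : ∑ u, theta t u * (χ : G → ℂ) u =
      ∑ a, ind t a * ∑ b, ind t b * (χ : G → ℂ) (b * a) := by
    simp only [theta, Finset.sum_mul, Finset.mul_sum]
    rw [Finset.sum_comm]
    apply Finset.sum_congr rfl
    intro a _
    apply Fintype.sum_equiv (Equiv.mulLeft a⁻¹)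
    intro u
    have h2 : Equiv.mulLeft a⁻¹ u = a⁻¹ * u := rfl
    rw [h2]
    have h3 : (χ : G → ℂ) (a⁻¹ * u * a) = (χ : G → ℂ) u := by
      have := hcf u a⁻¹
      rwa [inv_inv] at this
    rw [h3]
    ring
  rw [h1]
  simp only [Cfsg.Agent.H6.sum_mul_irr_mul χ.2 (ind_class t)]
  have h5 : ∑ x, ind t x * ((∑ g, ind t g * (χ : G → ℂ) g) / (χ : G → ℂ) 1 * (χ : G → ℂ) x) =
      (∑ g, ind t g * (χ : G → ℂ) g) / (χ : G → ℂ) 1 * ∑ x, ind t x * (χ : G → ℂ) x := by
    rw [Finset.mul_sum]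
    apply Finset.sum_congr rfl
    intro x _
    ring
  rw [h5, sum_ind_mul t hcf]
  ring

theorem classInner_theta (t : G) (χ : IrrCharacter G) :
    classInner (theta t) (χ : G → ℂ) = (Nat.card G : ℂ)⁻¹ *
      (((∑ a, ind t a) * conj ((χ : G → ℂ) t)) ^ 2 / (χ : G → ℂ) 1) := by
  have h1 : ∑ u, theta t u * conj ((χ : G → ℂ) u) = conj (∑ u, theta t u * (χ : G → ℂ) u) := by
    rw [map_sum]
    apply Finset.sum_congr rfl
    intro u _
    rw [map_mul, conj_theta]
  rw [classInner_def, h1, sum_theta_mul, map_div₀, map_pow, map_mul, map_sum]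
  simp only [conj_ind]
  rw [← charDegree_cast_irr, Complex.conj_natCast]

theorem sum_ind_ne_zero (t : G) : ∑ a, ind t a ≠ 0 := by
  have h1 : ∑ a, ind t a = ((Finset.univ.filter (fun a => IsConj t a)).card : ℂ) := by
    simp only [ind]
    rw [Finset.sum_boole]
  rw [h1]
  have : 0 < (Finset.univ.filter (fun a => IsConj t a)).card :=
    Finset.card_pos.2 ⟨t, by
      simp only [Finset.mem_filter, Finset.mem_univ, true_and]
      exact IsConj.refl t⟩
  exact_mod_cast this.ne'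

theorem exists_inverting {t u : G} (ht : t ^ 2 = 1) (h : theta t u ≠ 0) :
    ∃ a : G, a * u * a⁻¹ = u⁻¹ := by
  unfold theta at h
  obtain ⟨a, -, ha⟩ := Finset.exists_ne_zero_of_sum_ne_zero h
  have h1 : IsConj t a := by
    by_contra hc
    apply ha
    rw [ind, if_neg hc, zero_mul]
  have h2 : IsConj t (a⁻¹ * u) := by
    by_contra hc
    apply ha
    rw [ind, ind, if_neg hc, mul_zero]
  have hsq : ∀ b, IsConj t b → b ^ 2 = 1 := by
    intro b hb
    obtain ⟨c, rfl⟩ := isConj_iff.1 hb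
    rw [conj_pow, ht]
    group
  have h3 := hsq a h1
  have h4 := hsq _ h2
  refine ⟨a, ?_⟩
  have h5 : a⁻¹ = a := by
    rw [inv_eq_iff_mul_eq_one, ← pow_two, h3]
  rw [h5] at h4 ⊢
  rw [pow_two] at h4
  rw [eq_inv_iff_mul_eq_one]
  calc a * u * a * u = a * u * (a * u) := by group
    _ = 1 := h4

variable [Fact (Nat.Prime 2)] {P : Sylow 2 G} {M : Ideal AlgInt}

/-- an element of `P` whose square is not `1` is not real -/
theorem not_real (hab : IsMulCommutative P) (hfrob : Frob P) (hodd : Odd (Nat.card (autE P)))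
    {z : G} (hz : z ∈ (P : Subgroup G)) (hz2 : z ^ 2 ≠ 1) (a : G) : a * z * a⁻¹ ≠ z⁻¹ := by
  intro h
  have h1 : (a⁻¹)⁻¹ * z * a⁻¹ ∈ (P : Subgroup G) := by
    rw [inv_inv, h]
    exact inv_mem hz
  obtain ⟨n, hn, hn'⟩ := P.conj_eq_normalizer_conj_of_mem z a⁻¹ hz h1
  rw [inv_inv, h] at hn'
  have hn1 : n⁻¹ ∈ Subgroup.normalizer ((P : Subgroup G) : Set G) := inv_mem hn
  let σ : MulAut ↥(P : Subgroup G) := (P : Subgroup G).normalizerMonoidHom ⟨n⁻¹, hn1⟩
  have hσ : σ ∈ autE P := ⟨_, rfl⟩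
  have hσz : ∀ w : ↥(P : Subgroup G), ((σ w : ↥(P : Subgroup G)) : G) = n⁻¹ * w * n := by
    intro w
    have : ((σ w : ↥(P : Subgroup G)) : G) = n⁻¹ * w * (n⁻¹)⁻¹ := rfl
    rw [this, inv_inv]
  have hoσ : Odd (orderOf σ) := by
    have h2 : orderOf σ ∣ Nat.card (autE P) := by
      have := orderOf_dvd_natCard (⟨σ, hσ⟩ : autE P)
      rwa [Subgroup.orderOf_mk] at this
    exact hodd.of_dvd_nat h2
  have h3 : σ ⟨z, hz⟩ = (⟨z, hz⟩ : ↥(P : Subgroup G))⁻¹ := by
    apply Subtype.ext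
    rw [hσz]
    exact hn'.symm
  have h4 : σ (σ ⟨z, hz⟩) = ⟨z, hz⟩ := by rw [h3, map_inv, h3, inv_inv]
  have h5 := fix_of_sq_fix hoσ h4
  rw [h3] at h5
  apply hz2
  have h6 : z⁻¹ = z := congrArg Subtype.val h5
  rw [pow_two]
  nth_rewrite 1 [← h6]
  exact inv_mul_cancel z

theorem sum_structure (hM : IsPModular 2 M) (hab : IsMulCommutative P) (hfrob : Frob P)
    (hodd : Odd (Nat.card (autE P))) {t z : G} (ht : t ^ 2 = 1) (hz : z ∈ (P : Subgroup G))
    (hz2 : z ^ 2 ≠ 1) :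
    ∑ χ ∈ (Bf M : Finset (IrrCharacter G)),
      conj ((χ : G → ℂ) t) ^ 2 * (χ : G → ℂ) z / (χ : G → ℂ) 1 = 0 := by
  have hp : Nat.Prime 2 := Fact.out
  obtain ⟨e, he⟩ := Cfsg.Agent.H6.exists_pPart_exp G hp
  have hk : ∃ k : ℕ, orderOf z = 2 ^ k := by
    obtain ⟨k, hk⟩ := IsPGroup.iff_orderOf.1 P.2 ⟨z, hz⟩
    exact ⟨k, by rw [← hk, Subgroup.orderOf_mk]⟩
  have hvan : ∀ u z' : G, IsPPart 2 u z' → IsConj z z' → theta t u = 0 := by
    intro u z' hu hc
    by_contra hne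
    obtain ⟨a, ha⟩ := exists_inverting ht hne
    have h1 : z' = u ^ e := (he u).2 z' hu
    have h2 : a * z' * a⁻¹ = z'⁻¹ := by
      rw [h1, ← conj_zpow, ha, inv_zpow]
    obtain ⟨g, rfl⟩ := isConj_iff.1 hc
    apply not_real hab hfrob hodd hz hz2 (g⁻¹ * a * g)
    have h3 : g⁻¹ * a * g * z * (g⁻¹ * a * g)⁻¹ = g⁻¹ * (a * (g * z * g⁻¹) * a⁻¹) * g := by group
    rw [h3, h2]
    group
  have hpb : IsPBlock M (principalBlock M G) := ⟨trivIrr G, rfl⟩
  have h1 := (Cfsg.Agent.S0925.result 2 M hM).1 (theta t) (theta_class t) z hk hvan _ hpb z z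
    (isPPart_self P hz) (IsConj.refl z)
  rw [Cfsg.Agent.H6.BlockSection.blockPart_eq_filter] at h1
  simp only [classInner_theta] at h1
  have hg : (Nat.card G : ℂ)⁻¹ ≠ 0 := inv_ne_zero (by exact_mod_cast Nat.card_pos.ne')
  have hs := sum_ind_ne_zero t
  have h2 : ∑ χ ∈ (Bf M : Finset (IrrCharacter G)),
      conj ((χ : G → ℂ) t) ^ 2 * (χ : G → ℂ) z / (χ : G → ℂ) 1 =
      ((Nat.card G : ℂ)⁻¹ * (∑ a, ind t a) ^ 2)⁻¹ * ∑ χ ∈ (Bf M : Finset (IrrCharacter G)),
        (Nat.card G : ℂ)⁻¹ * (((∑ a, ind t a) * conj ((χ : G → ℂ) t)) ^ 2 / (χ : G → ℂ) 1) *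
          (χ : G → ℂ) z := by
    rw [Finset.mul_sum]
    apply Finset.sum_congr rfl
    intro χ _
    field_simp
  rw [h2]
  have h3 : ∑ χ ∈ (Bf M : Finset (IrrCharacter G)),
        (Nat.card G : ℂ)⁻¹ * (((∑ a, ind t a) * conj ((χ : G → ℂ) t)) ^ 2 / (χ : G → ℂ) 1) *
          (χ : G → ℂ) z = 0 := by
    rw [← h1]
    rfl
  rw [h3, mul_zero]

end Cfsg.Agent.Lib.Helper23.Homo
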