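import Cfsg.Agent.Lib.Helper23.Homo3

/-! Sums over the exceptional characters. -/

set_option autoImplicit false
set_option linter.unusedSectionVars false

universe u

namespace Cfsg.Agent.Lib.Helper23.FrobN

open Cfsg Cfsg.Agent.CharLib Cfsg.Agent.BlockLib Cfsg.Agent.Lib.Helper10 Cfsg.Agent.Lib.Helper23
  Cfsg.Agent.Lib.Helper23.DualAct
open scoped ComplexConjugate
open Classical

section

variable {G : Type u} [Group G] [Finite G] {p : ℕ} [Fact p.Prime] {P : Sylow p G}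
  {M : Ideal AlgInt}
  [Fintype ↥(P : Subgroup G)] [Fintype (↥(P : Subgroup G) →* ℂˣ)] [Fintype (IrrCharacter G)]

namespace Coh

variable (D : Coh P M)

theorem sum_Yf_eq (hab : IsMulCommutative P) (hfrob : Frob P) (F : IrrCharacter G → ℂ) :
    ∑ ψ ∈ Finset.univ.filter (fun ψ : ↥(P : Subgroup G) →* ℂˣ => ψ ≠ 1), F (D.ζ ψ) =
      (Nat.card (autE P) : ℂ) * ∑ η ∈ D.Yf, F η := by
  have hW := comm_of_isMulCommutative P hab
  rw [Finset.sum_comp F D.ζ, Finset.mul_sum]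
  apply Finset.sum_congr rfl
  intro η hη
  obtain ⟨ψ, hψ, rfl⟩ := D.mem_Yf.1 hη
  rw [nsmul_eq_mul]
  congr 2
  rw [← card_R (autE P) hW (autE_semiregular P hfrob) hψ, Nat.card_eq_fintype_card,
    Fintype.card_subtype]
  congr 1
  ext ψ'
  simp only [Finset.mem_filter, Finset.mem_univ, true_and]
  constructor
  · rintro ⟨h1, h2⟩
    exact (D.hinj ψ ψ' hψ h1).1 h2.symm
  · intro h
    have h1 := ne_one_of_R (autE P) hψ h
    exact ⟨h1, ((D.hinj ψ ψ' hψ h1).2 h).symm⟩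

end Coh

end

variable {G : Type u} [Group G] [Fintype G] {p : ℕ} [Fact p.Prime] {P : Sylow p G}
  {M : Ideal AlgInt}
variable [Fintype ↥(P : Subgroup G)] [Fintype (↥(P : Subgroup G) →* ℂˣ)]

theorem sum_filter_R (hab : IsMulCommutative P) (hfrob : Frob P)
    {ψ : ↥(P : Subgroup G) →* ℂˣ} (hψ : ψ ≠ 1) (g : (↥(P : Subgroup G) →* ℂˣ) → ℂ) :
    ∑ ψ' ∈ Finset.univ.filter (fun ψ' => R (autE P) ψ ψ'), g ψ' =
      ∑ σ : autE P, g (ψ.comp (σ.1⁻¹ : MulAut ↥(P : Subgroup G)).toMonoidHom) := by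
  have hW := comm_of_isMulCommutative P hab
  have hE := autE_semiregular P hfrob
  have himg : Finset.univ.filter (fun ψ' => R (autE P) ψ ψ') =
      Finset.univ.image (fun σ : autE P =>
        ψ.comp (σ.1⁻¹ : MulAut ↥(P : Subgroup G)).toMonoidHom) := by
    ext ψ'
    simp only [Finset.mem_filter, Finset.mem_univ, true_and, Finset.mem_image]
    constructor
    · rintro ⟨σ, hσ, h⟩
      refine ⟨⟨σ, hσ⟩, ?_⟩
      ext w
      simp only [MonoidHom.comp_apply, MulEquiv.coe_toMonoidHom]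
      rw [← h, MulAut.apply_inv_self]
    · rintro ⟨σ, rfl⟩
      exact ⟨σ.1, σ.2, fun w => by simp⟩
  rw [himg, Finset.sum_image]
  intro σ _ τ _ h
  have h1 : ∀ w, ψ ((σ.1⁻¹ : MulAut ↥(P : Subgroup G)) w) =
      ψ ((τ.1⁻¹ : MulAut ↥(P : Subgroup G)) w) := fun w => DFunLike.congr_fun h w
  have h2 : (σ.1⁻¹ * τ.1 : MulAut ↥(P : Subgroup G)) = 1 := by
    apply dual_semiregular (autE P) hW hE ((autE P).mul_mem ((autE P).inv_mem σ.2) τ.2) hψ
    intro w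
    rw [MulAut.mul_apply, h1, MulAut.inv_apply_self]
  apply Subtype.ext
  rw [inv_mul_eq_one] at h2
  exact h2

namespace Coh

variable (D : Coh P M)

theorem value_Y' (hab : IsMulCommutative P) (hfrob : Frob P)
    {ψ : ↥(P : Subgroup G) →* ℂˣ} (hψ : ψ ≠ 1) {y : ↥(P : Subgroup G)} (hy : y ≠ 1) :
    (D.ζ ψ : G → ℂ) y = (D.d : ℂ) + (D.δ : ℂ) *
      ∑ σ : autE P, (ψ ((σ.1⁻¹ : MulAut ↥(P : Subgroup G)) y) : ℂ) := by
  rw [D.value_Y hab hψ hy, sum_filter_R hab hfrob hψ (fun ψ' => (ψ' y : ℂ))]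
  rfl

end Coh

/-- the triple sum -/
theorem triple_sum (hab : IsMulCommutative P) {t z : ↥(P : Subgroup G)} (ht : t ^ 2 = 1)
    (hz : z ^ 2 ≠ 1) :
    ∑ ψ ∈ Finset.univ.filter (fun ψ : ↥(P : Subgroup G) →* ℂˣ => ψ ≠ 1),
      (∑ σ : autE P, (ψ ((σ.1⁻¹ : MulAut ↥(P : Subgroup G)) t) : ℂ)) ^ 2 *
        ∑ σ : autE P, (ψ ((σ.1⁻¹ : MulAut ↥(P : Subgroup G)) z) : ℂ) =
      - (Nat.card (autE P) : ℂ) ^ 3 := by
  have hW := comm_of_isMulCommutative P hab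
  have h1 : ∀ ψ : ↥(P : Subgroup G) →* ℂˣ,
      (∑ σ : autE P, (ψ ((σ.1⁻¹ : MulAut ↥(P : Subgroup G)) t) : ℂ)) ^ 2 *
        ∑ σ : autE P, (ψ ((σ.1⁻¹ : MulAut ↥(P : Subgroup G)) z) : ℂ) =
      ∑ σ : autE P, ∑ τ : autE P, ∑ ρ : autE P,
        (ψ ((σ.1⁻¹ : MulAut ↥(P : Subgroup G)) t * (τ.1⁻¹ : MulAut ↥(P : Subgroup G)) t *
          (ρ.1⁻¹ : MulAut ↥(P : Subgroup G)) z) : ℂ) := by
    intro ψ
    rw [pow_two, Finset.sum_mul_sum, Finset.sum_mul]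
    apply Finset.sum_congr rfl
    intro σ _
    rw [Finset.sum_mul]
    apply Finset.sum_congr rfl
    intro τ _
    rw [Finset.mul_sum]
    apply Finset.sum_congr rfl
    intro ρ _
    rw [map_mul, map_mul, Units.val_mul, Units.val_mul]
  simp only [h1]
  rw [Finset.sum_comm]
  have h2 : ∀ σ τ ρ : autE P, ∑ ψ ∈ Finset.univ.filter (fun ψ : ↥(P : Subgroup G) →* ℂˣ => ψ ≠ 1),
      (ψ ((σ.1⁻¹ : MulAut ↥(P : Subgroup G)) t * (τ.1⁻¹ : MulAut ↥(P : Subgroup G)) t *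
          (ρ.1⁻¹ : MulAut ↥(P : Subgroup G)) z) : ℂ) = -1 := by
    intro σ τ ρ
    apply Coh.sum_ne_one_apply hab
    intro h
    apply hz
    have h3 : ((σ.1⁻¹ : MulAut ↥(P : Subgroup G)) t * (τ.1⁻¹ : MulAut ↥(P : Subgroup G)) t *
          (ρ.1⁻¹ : MulAut ↥(P : Subgroup G)) z) ^ 2 = 1 := by rw [h, one_pow]
    rw [(show Commute _ _ from hW _ _).mul_pow, (show Commute _ _ from hW _ _).mul_pow,
      ← map_pow, ← map_pow, ← map_pow, ht, map_one, map_one, one_mul, one_mul] at h3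
    exact (map_eq_one_iff _ (MulEquiv.injective _)).1 h3
  have h3 : ∀ σ : autE P, ∑ ψ ∈ Finset.univ.filter (fun ψ : ↥(P : Subgroup G) →* ℂˣ => ψ ≠ 1),
      ∑ τ : autE P, ∑ ρ : autE P,
        (ψ ((σ.1⁻¹ : MulAut ↥(P : Subgroup G)) t * (τ.1⁻¹ : MulAut ↥(P : Subgroup G)) t *
          (ρ.1⁻¹ : MulAut ↥(P : Subgroup G)) z) : ℂ) = - (Nat.card (autE P) : ℂ) ^ 2 := by
    intro σ
    rw [Finset.sum_comm]
    have h4 : ∀ τ : autE P, ∑ ψ ∈ Finset.univ.filter (fun ψ : ↥(P : Subgroup G) →* ℂˣ => ψ ≠ 1),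
      ∑ ρ : autE P,
        (ψ ((σ.1⁻¹ : MulAut ↥(P : Subgroup G)) t * (τ.1⁻¹ : MulAut ↥(P : Subgroup G)) t *
          (ρ.1⁻¹ : MulAut ↥(P : Subgroup G)) z) : ℂ) = - (Nat.card (autE P) : ℂ) := by
      intro τ
      rw [Finset.sum_comm]
      simp only [h2, Finset.sum_const, Finset.card_univ, nsmul_eq_mul, Nat.card_eq_fintype_card]
      ring
    simp only [h4, Finset.sum_const, Finset.card_univ, nsmul_eq_mul, Nat.card_eq_fintype_card]
    ring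
  simp only [h3, Finset.sum_const, Finset.card_univ, nsmul_eq_mul, Nat.card_eq_fintype_card]
  ring

end Cfsg.Agent.Lib.Helper23.FrobN
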