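import Cfsg.Agent.Lib.Helper23.Homo4

/-! Sylow `2`-subgroups of type `(2^m, 2^m)`: the arithmetic of the principal block. -/

set_option autoImplicit false
set_option linter.unusedSectionVars false

universe u

namespace Cfsg.Agent.Lib.Helper23.Homo

open Cfsg Cfsg.Agent.CharLib Cfsg.Agent.BlockLib Cfsg.Agent.Lib.Helper10 Cfsg.Agent.Lib.Helper23
  Cfsg.Agent.Lib.Helper23.DualAct Cfsg.Agent.Lib.Helper23.FrobN
open scoped ComplexConjugate
open Classical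

variable {G : Type u} [Group G] [Fintype G] [Fact (Nat.Prime 2)] {P : Sylow 2 G}
  {M : Ideal AlgInt}
variable [Fintype ↥(P : Subgroup G)] [Fintype (↥(P : Subgroup G) →* ℂˣ)]

theorem card_filter_ne_one (hab : IsMulCommutative P) :
    (Finset.univ.filter (fun ψ : ↥(P : Subgroup G) →* ℂˣ => ψ ≠ 1)).card = Nat.card P - 1 := by
  rw [Finset.filter_ne' Finset.univ 1, Finset.card_erase_of_mem (Finset.mem_univ _),
    Finset.card_univ, ← Nat.card_eq_fintype_card, card_lin (comm_of_isMulCommutative P hab)]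

theorem exists_kernel_char (hM : IsPModular 2 M) (hab : IsMulCommutative P) (hfrob : Frob P)
    (hm3 : Nat.card (autE P) = 3) (hq : 16 ≤ Nat.card P) {t z : ↥(P : Subgroup G)} (ht1 : t ≠ 1)
    (ht : t ^ 2 = 1) (hz : z ^ 2 ≠ 1) :
    ∃ χ : IrrCharacter G, χ ≠ trivIrr G ∧
      ∀ ψ : ↥(P : Subgroup G) →* ℂˣ, ψ ≠ 1 → mult P (χ : G → ℂ) ψ = 0 := by
  have hmq : Nat.card (autE P) + 1 < Nat.card P := by omega
  obtain ⟨D⟩ := nonempty_coh (M := M) P hM hab hfrob hmq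
  obtain ⟨ψ₀, hψ₀⟩ := exists_ne_one P hab (by omega)
  have hz1 : z ≠ 1 := by
    rintro rfl
    exact hz (one_pow 2)
  have hr := D.card_Yf hab hfrob
  have hr5 : 5 ≤ D.Yf.card := by
    rw [hm3] at hr; omega
  have hnorm := D.norm_eq hM hab hfrob hψ₀
  have ht' := D.triv_mem_Xf hM hab hfrob hmq
  rw [← Finset.add_sum_erase _ _ ht', D.c_triv hψ₀, hm3] at hnorm
  have hS : 0 ≤ ∑ χ ∈ D.Xf.erase (trivIrr G), D.c χ ψ₀ ^ 2 :=
    Finset.sum_nonneg (fun χ _ => sq_nonneg _)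
  have hr5' : (5 : ℤ) ≤ (D.Yf.card : ℤ) := by exact_mod_cast hr5
  have hd : D.d = 0 := by
    by_contra hd0
    have h1 : 1 ≤ D.d ^ 2 := by
      have : 0 < D.d ^ 2 := by positivity
      omega
    have h2 := sq_nonneg (D.d - D.δ)
    push_cast at hnorm
    nlinarith
  have hS2 : ∑ χ ∈ D.Xf.erase (trivIrr G), D.c χ ψ₀ ^ 2 = 2 := by
    rw [hd] at hnorm
    have := D.δ_sq
    push_cast at hnorm
    nlinarith
  by_contra hcon
  push Not at hcon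
  -- degrees of the nontrivial non-exceptional characters
  have hx : ∀ χ ∈ D.Xf.erase (trivIrr G), 15 ≤ charDegree (χ : G → ℂ) := by
    intro χ hχ
    obtain ⟨hne, hχX⟩ := Finset.mem_erase.1 hχ
    obtain ⟨ψ₁, hψ₁, hmne⟩ := hcon χ hne
    have hconst : ∀ ψ : ↥(P : Subgroup G) →* ℂˣ, ψ ≠ 1 → 1 ≤ mult P (χ : G → ℂ) ψ := by
      intro ψ hψ
      have := D.c_of_mem_Xf hχX hψ hψ₁
      rw [D.c_eq_mult, D.c_eq_mult] at this
      omega
    rw [← sum_mult P hab (isCharacter_of_irr χ.2)]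
    have h1 : (Finset.univ.filter (fun ψ : ↥(P : Subgroup G) →* ℂˣ => ψ ≠ 1)).card ≤
        ∑ ψ : ↥(P : Subgroup G) →* ℂˣ, mult P (χ : G → ℂ) ψ := by
      rw [Finset.card_eq_sum_ones]
      calc ∑ _ψ ∈ Finset.univ.filter (fun ψ : ↥(P : Subgroup G) →* ℂˣ => ψ ≠ 1), 1
          ≤ ∑ ψ ∈ Finset.univ.filter (fun ψ : ↥(P : Subgroup G) →* ℂˣ => ψ ≠ 1),
            mult P (χ : G → ℂ) ψ :=
            Finset.sum_le_sum (fun ψ hψ => hconst ψ (Finset.mem_filter.1 hψ).2)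
        _ ≤ _ := Finset.sum_le_sum_of_subset (Finset.filter_subset _ _)
    rw [card_filter_ne_one hab] at h1
    omega
  have hc1 : ∀ χ ∈ D.Xf.erase (trivIrr G), -1 ≤ D.c χ ψ₀ ∧ D.c χ ψ₀ ≤ 1 := by
    intro χ hχ
    have h1 : D.c χ ψ₀ ^ 2 ≤ 2 := by
      rw [← hS2]
      exact Finset.single_le_sum (f := fun χ => D.c χ ψ₀ ^ 2) (fun χ _ => sq_nonneg _) hχ
    constructor <;> nlinarith
  -- the degree of the exceptional characters
  obtain ⟨f, hf⟩ : ∃ f, f = charDegree (D.ζ ψ₀ : G → ℂ) := ⟨_, rfl⟩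
  obtain ⟨s, hs⟩ : ∃ s, s = mult P (D.ζ ψ₀ : G → ℂ) 1 := ⟨_, rfl⟩
  have hfpos : 0 < f := by rw [hf]; exact charDegree_pos_irr _
  have hfs : (f : ℤ) = (Nat.card P : ℤ) * s + 3 * D.δ := by
    have h1 : ∀ ψ : ↥(P : Subgroup G) →* ℂˣ, (mult P (D.ζ ψ₀ : G → ℂ) ψ : ℤ) =
        (s : ℤ) + D.δ * ((if R (autE P) ψ₀ ψ then 1 else 0 : ℕ) : ℤ) := by
      intro ψ
      by_cases hψ : ψ = 1
      · have : ¬ R (autE P) ψ₀ ψ := fun h => ne_one_of_R _ hψ₀ h hψ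
        rw [if_neg this, hψ, hs]
        simp
      · have h2 := D.hval ψ ψ₀ hψ hψ₀
        rw [D.c_eq_mult, hd, ← hs] at h2
        by_cases hR : R (autE P) ψ₀ ψ
        · rw [if_pos hR] at h2 ⊢
          push_cast
          linarith
        · rw [if_neg hR] at h2 ⊢
          push_cast
          linarith
    have h2 := sum_mult P hab (isCharacter_of_irr (D.ζ ψ₀).2)
    have h3 : ((∑ ψ : ↥(P : Subgroup G) →* ℂˣ, mult P (D.ζ ψ₀ : G → ℂ) ψ : ℕ) : ℤ) = (f : ℤ) := by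
      rw [h2, hf]
    rw [← h3]
    push_cast
    simp only [h1]
    have h4 : ∑ i : ↥(P : Subgroup G) →* ℂˣ, ((if R (autE P) ψ₀ i then 1 else 0 : ℕ) : ℤ) = 3 := by
      rw [← Nat.cast_sum, sum_R hab hfrob hψ₀, hm3]
      rfl
    rw [Finset.sum_add_distrib, ← Finset.mul_sum, h4]
    simp only [Finset.sum_const, Finset.card_univ, nsmul_eq_mul]
    rw [← Nat.card_eq_fintype_card, card_lin (comm_of_isMulCommutative P hab)]
    push_cast
    ring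
  -- the structure equation
  have hstr := sum_structure hM hab hfrob (by rw [hm3]; decide) (t := (t : G)) (z := (z : G))
    (by exact_mod_cast congrArg Subtype.val ht) z.2
    (fun h => hz (Subtype.ext (by exact_mod_cast h)))
  have hreal : ∀ χ : IrrCharacter G, conj ((χ : G → ℂ) t) = (χ : G → ℂ) t := by
    intro χ
    have h1 : t⁻¹ = t := by
      rw [inv_eq_iff_mul_eq_one, ← pow_two, ht]
    have h2 : (t : G)⁻¹ = t := by exact_mod_cast congrArg Subtype.val h1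
    rw [← isCharacter_inv (isCharacter_of_irr χ.2), h2]
  simp only [hreal] at hstr
  rw [D.sum_Bf_eq, ← Finset.add_sum_erase _ _ ht'] at hstr
  have hX : ∀ χ ∈ D.Xf.erase (trivIrr G),
      (χ : G → ℂ) t ^ 2 * (χ : G → ℂ) z / (χ : G → ℂ) 1 =
        (((D.c χ ψ₀ : ℝ) ^ 3 / (charDegree (χ : G → ℂ) : ℝ) : ℝ) : ℂ) := by
    intro χ hχ
    have hχX := (Finset.mem_erase.1 hχ).2
    rw [D.value_X hab hχX hψ₀ ht1, D.value_X hab hχX hψ₀ hz1, ← charDegree_cast_irr]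
    push_cast
    ring
  have hY : ∑ η ∈ D.Yf, (η : G → ℂ) t ^ 2 * (η : G → ℂ) z / (η : G → ℂ) 1 =
      ((- 9 * (D.δ : ℝ) / (f : ℝ) : ℝ) : ℂ) := by
    have e1 : ∀ η ∈ D.Yf, (η : G → ℂ) 1 = (f : ℂ) := by
      intro η hη
      rw [D.agree hM hη (D.ζ_mem_Yf hψ₀) Coh.not_dvd_orderOf_one, hf, charDegree_cast_irr]
    have e2 := D.sum_Yf_eq hab hfrob (fun η => (η : G → ℂ) t ^ 2 * (η : G → ℂ) z)
    have e3 : ∀ ψ ∈ Finset.univ.filter (fun ψ : ↥(P : Subgroup G) →* ℂˣ => ψ ≠ 1),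
        (D.ζ ψ : G → ℂ) t ^ 2 * (D.ζ ψ : G → ℂ) z = (D.δ : ℂ) ^ 3 *
        ((∑ σ : autE P, (ψ ((σ.1⁻¹ : MulAut ↥(P : Subgroup G)) t) : ℂ)) ^ 2 *
          ∑ σ : autE P, (ψ ((σ.1⁻¹ : MulAut ↥(P : Subgroup G)) z) : ℂ)) := by
      intro ψ hψ
      have hψ1 := (Finset.mem_filter.1 hψ).2
      rw [D.value_Y' hab hfrob hψ1 ht1, D.value_Y' hab hfrob hψ1 hz1, hd]
      push_cast
      ring
    rw [Finset.sum_congr rfl e3, ← Finset.mul_sum, triple_sum hab ht hz, hm3] at e2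
    have e4 : (D.δ : ℂ) ^ 3 = D.δ := by
      have := D.δ_sq
      have h' : (D.δ : ℂ) ^ 2 = 1 := by exact_mod_cast this
      rw [pow_succ, h', one_mul]
    rw [e4] at e2
    have e5 : ∑ η ∈ D.Yf, (η : G → ℂ) t ^ 2 * (η : G → ℂ) z = - 9 * (D.δ : ℂ) := by
      push_cast at e2
      linear_combination (-1 / 3 : ℂ) * e2
    rw [Finset.sum_congr rfl (fun η hη => by rw [e1 η hη]), ← Finset.sum_div, e5]
    push_cast
    ring
  rw [Finset.sum_congr rfl hX, hY] at hstr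
  have htriv : ((trivIrr G : IrrCharacter G) : G → ℂ) t ^ 2 *
      ((trivIrr G : IrrCharacter G) : G → ℂ) z / ((trivIrr G : IrrCharacter G) : G → ℂ) 1 = 1 := by
    simp [trivIrr]
  rw [htriv] at hstr
  have hreq : (1 : ℝ) + ∑ χ ∈ D.Xf.erase (trivIrr G),
      (D.c χ ψ₀ : ℝ) ^ 3 / (charDegree (χ : G → ℂ) : ℝ) + - 9 * (D.δ : ℝ) / (f : ℝ) = 0 := by
    have : (((1 : ℝ) + ∑ χ ∈ D.Xf.erase (trivIrr G),
      (D.c χ ψ₀ : ℝ) ^ 3 / (charDegree (χ : G → ℂ) : ℝ) + - 9 * (D.δ : ℝ) / (f : ℝ) : ℝ) : ℂ) = 0 := by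
      rw [← hstr]
      push_cast
      ring
    exact_mod_cast this
  -- bounds
  have hb : ∀ χ ∈ D.Xf.erase (trivIrr G),
      - ((D.c χ ψ₀ : ℝ) ^ 2 / 15) ≤ (D.c χ ψ₀ : ℝ) ^ 3 / (charDegree (χ : G → ℂ) : ℝ) ∧
      (D.c χ ψ₀ : ℝ) ^ 3 / (charDegree (χ : G → ℂ) : ℝ) ≤ (D.c χ ψ₀ : ℝ) ^ 2 / 15 := by
    intro χ hχ
    have h15 : (15 : ℝ) ≤ (charDegree (χ : G → ℂ) : ℝ) := by exact_mod_cast hx χ hχ
    obtain ⟨h1, h2⟩ := hc1 χ hχ
    have h3 : D.c χ ψ₀ = -1 ∨ D.c χ ψ₀ = 0 ∨ D.c χ ψ₀ = 1 := by omega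
    have hpos : (0 : ℝ) < (charDegree (χ : G → ℂ) : ℝ) := by linarith
    have hinv : 1 / (charDegree (χ : G → ℂ) : ℝ) ≤ 1 / 15 :=
      one_div_le_one_div_of_le (by norm_num) h15
    have hinv0 : 0 < 1 / (charDegree (χ : G → ℂ) : ℝ) := by positivity
    rw [div_eq_mul_one_div ((D.c χ ψ₀ : ℝ) ^ 3)]
    rcases h3 with h | h | h <;> rw [h] <;> push_cast <;> constructor <;> linarith
  have hS2' : ∑ χ ∈ D.Xf.erase (trivIrr G), (D.c χ ψ₀ : ℝ) ^ 2 / 15 = 2 / 15 := by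
    rw [← Finset.sum_div]
    have : (∑ χ ∈ D.Xf.erase (trivIrr G), (D.c χ ψ₀ : ℝ) ^ 2) = 2 := by exact_mod_cast hS2
    rw [this]
  have hlow : - (2 / 15 : ℝ) ≤ ∑ χ ∈ D.Xf.erase (trivIrr G),
      (D.c χ ψ₀ : ℝ) ^ 3 / (charDegree (χ : G → ℂ) : ℝ) := by
    rw [← hS2', ← Finset.sum_neg_distrib]
    exact Finset.sum_le_sum (fun χ hχ => (hb χ hχ).1)
  have hup : ∑ χ ∈ D.Xf.erase (trivIrr G),
      (D.c χ ψ₀ : ℝ) ^ 3 / (charDegree (χ : G → ℂ) : ℝ) ≤ 2 / 15 := by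
    rw [← hS2']
    exact Finset.sum_le_sum (fun χ hχ => (hb χ hχ).2)
  have hfR : (0 : ℝ) < (f : ℝ) := by exact_mod_cast hfpos
  have h9 : 9 * (D.δ : ℝ) = (1 + ∑ χ ∈ D.Xf.erase (trivIrr G),
      (D.c χ ψ₀ : ℝ) ^ 3 / (charDegree (χ : G → ℂ) : ℝ)) * f := by
    field_simp at hreq ⊢
    linarith
  rcases D.hδ with hδ | hδ
  · rw [hδ] at h9 hfs
    push_cast at h9
    have h10 : (f : ℝ) ≤ 10.5 := by nlinarith
    have h11 : f ≤ 10 := by
      have : (f : ℝ) < 11 := by linarith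
      have : f < 11 := by exact_mod_cast this
      omega
    have hs0 : s = 0 := by
      by_contra hs0
      have : 1 ≤ s := Nat.one_le_iff_ne_zero.2 hs0
      have h12 : (16 : ℤ) ≤ (Nat.card P : ℤ) := by exact_mod_cast hq
      have h13 : (1 : ℤ) ≤ (s : ℤ) := by exact_mod_cast this
      have h14 : (f : ℤ) ≤ 10 := by exact_mod_cast h11
      nlinarith
    rw [hs0] at hfs
    have hf3 : f = 3 := by
      have : (f : ℤ) = 3 := by rw [hfs]; simp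
      exact_mod_cast this
    rw [hf3] at h9
    push_cast at h9
    linarith
  · rw [hδ] at h9
    push_cast at h9
    nlinarith

end Cfsg.Agent.Lib.Helper23.Homo
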