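import Cfsg.Agent.Lib.Helper23.Homo5

/-! Brauer's theorem on Sylow `2`-subgroups of type `(2^m, 2^m)`. -/

set_option autoImplicit false
set_option linter.unusedSectionVars false

universe u

namespace Cfsg.Agent.Lib.Helper23.Homo

open Cfsg Cfsg.Agent.CharLib Cfsg.Agent.BlockLib Cfsg.Agent.Lib.Helper10 Cfsg.Agent.Lib.Helper23
  Cfsg.Agent.Lib.Helper23.DualAct Cfsg.Agent.Lib.Helper23.FrobN
open scoped ComplexConjugate

theorem normal_of_normal_subtype {G : Type u} [Group G] [Finite G] {p : ℕ} [Fact p.Prime]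
    (P : Sylow p G) (H : Subgroup G) [hHn : H.Normal] (hPH : (P : Subgroup G) ≤ H)
    (hn : ((P.subtype hPH : Sylow p H) : Subgroup H).Normal) : (P : Subgroup G).Normal := by
  refine ⟨fun a ha g => ?_⟩
  have hle : ((g • P : Sylow p G) : Subgroup G) ≤ H := by
    intro x hx
    rw [mem_sylow_smul] at hx
    have := hHn.conj_mem _ (hPH hx) g
    simpa [mul_assoc] using this
  have hmem : g * a * g⁻¹ ∈ ((g • P : Sylow p G) : Subgroup G) := by
    rw [mem_sylow_smul]
    have : g⁻¹ * (g * a * g⁻¹) * g = a := by group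
    rw [this]; exact ha
  obtain ⟨h, hh⟩ := MulAction.exists_smul_eq H (P.subtype hPH) ((g • P : Sylow p G).subtype hle)
  rw [Sylow.smul_eq_of_normal] at hh
  have h1 : (⟨g * a * g⁻¹, hle hmem⟩ : H) ∈ (((g • P : Sylow p G).subtype hle : Sylow p H) :
      Subgroup H) := by
    rw [Sylow.coe_subtype, Subgroup.mem_subgroupOf]
    exact hmem
  rw [← hh, Sylow.coe_subtype, Subgroup.mem_subgroupOf] at h1
  exact h1

theorem pPrimeCore_eq_bot {G : Type u} [Group G] [Finite G]
    (hO : ∀ N : Subgroup G, N.Normal → Odd (Nat.card N) → N = ⊥) : pPrimeCore 2 G = ⊥ := by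
  apply hO _ (h23_pPrimeCore_normal 2)
  have := h23_pPrimeCore_coprime (G := G) 2
  exact Nat.Coprime.odd_of_right this

theorem hO_of_normal {G : Type u} [Group G] [Finite G]
    (hO : ∀ N : Subgroup G, N.Normal → Odd (Nat.card N) → N = ⊥) (L : Subgroup G) [L.Normal] :
    ∀ A : Subgroup L, A.Normal → Odd (Nat.card A) → A = ⊥ := by
  intro A hA hodd
  have h1 : A ≤ pPrimeCore 2 L := h23_le_pPrimeCore hA (Nat.Coprime.symm (Nat.coprime_two_left.2 hodd))
  have h2 := h23_map_pPrimeCore_le 2 L
  rw [pPrimeCore_eq_bot hO, le_bot_iff, (Subgroup.map_eq_bot_iff_of_injective _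
    L.subtype_injective)] at h2
  rw [h2] at h1
  exact le_bot_iff.1 h1

section facts

variable {G : Type u} [Group G] [Finite G] (P : Sylow 2 G) {m : ℕ}

theorem odd_card_autE [Fact (Nat.Prime 2)] (hab : IsMulCommutative P) : Odd (Nat.card (autE P)) := by
  rw [card_autE]
  have hPC : (P : Subgroup G) ≤ Subgroup.centralizer ((P : Subgroup G) : Set G) := by
    intro x hx
    rw [Subgroup.mem_centralizer_iff]
    intro w hw
    exact congrArg Subtype.val (hab.is_comm.comm (⟨w, hw⟩ : P) ⟨x, hx⟩)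
  have h1 := Subgroup.relIndex_dvd_of_le_left
    (Subgroup.normalizer ((P : Subgroup G) : Set G)) hPC
  have h2 : (P : Subgroup G).relIndex (Subgroup.normalizer ((P : Subgroup G) : Set G)) ∣
      (P : Subgroup G).index := Subgroup.relIndex_dvd_index_of_le Subgroup.le_normalizer
  have h3 : ¬ 2 ∣ (P : Subgroup G).index := P.not_dvd_index
  rw [← Nat.not_even_iff_odd, even_iff_two_dvd]
  exact fun h => h3 (h.trans (h1.trans h2))

theorem facts [Fact (Nat.Prime 2)] (hm : 2 ≤ m)
    (e : (P : Subgroup G) ≃* Multiplicative (ZMod (2 ^ m) × ZMod (2 ^ m))) :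
    IsMulCommutative P ∧ Frob P ∧ (Nat.card (autE P) = 1 ∨ Nat.card (autE P) = 3) ∧
      16 ≤ Nat.card P ∧ (∃ t : ↥(P : Subgroup G), t ≠ 1 ∧ t ^ 2 = 1) ∧
      ∃ z : ↥(P : Subgroup G), z ^ 2 ≠ 1 := by
  classical
  cases nonempty_fintype ↥(P : Subgroup G)
  have hW := comm_of_equiv e
  have hab : IsMulCommutative P := ⟨⟨hW⟩⟩
  have hcard : Nat.card P = (2 ^ m) ^ 2 := card_of_equiv e
  have h16 : 16 ≤ Nat.card P := by
    rw [hcard]
    have : 2 ^ 2 ≤ 2 ^ m := Nat.pow_le_pow_right (by norm_num) hm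
    nlinarith
  have hΩ := card_sq_eq_one_le (by omega) e
  have h2 : IsPGroup 2 ↥(P : Subgroup G) := P.2
  have hEodd := odd_card_autE P hab
  have hodd : ∀ σ ∈ autE P, Odd (orderOf σ) := by
    intro σ hσ
    have h1 : orderOf σ ∣ Nat.card (autE P) := by
      have := orderOf_dvd_natCard (⟨σ, hσ⟩ : autE P)
      rwa [Subgroup.orderOf_mk] at this
    exact hEodd.of_dvd_nat h1
  obtain ⟨t, ht⟩ : ∃ t : ↥(P : Subgroup G), orderOf t = 2 := by
    apply exists_prime_orderOf_dvd_card' 2
    have : Nat.card ↥(P : Subgroup G) = (2 ^ m) ^ 2 := hcard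
    rw [this, ← pow_mul]
    exact dvd_pow_self 2 (by omega)
  have ht1 : t ≠ 1 := by
    rintro rfl
    rw [orderOf_one] at ht
    omega
  have ht2 : t ^ 2 = 1 := by
    have := pow_orderOf_eq_one t
    rwa [ht] at this
  have hfrob : Frob P := by
    intro y hy hy1
    apply le_antisymm
    · rintro n ⟨hn1, hn2⟩
      let σ : MulAut ↥(P : Subgroup G) := (P : Subgroup G).normalizerMonoidHom ⟨n, hn2⟩
      have hσ : σ ∈ autE P := ⟨_, rfl⟩
      have hfix : σ ⟨y, hy⟩ = ⟨y, hy⟩ := by
        apply Subtype.ext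
        have h3 : ((σ ⟨y, hy⟩ : ↥(P : Subgroup G)) : G) = n * y * n⁻¹ := rfl
        rw [h3, Subgroup.mem_centralizer_singleton_iff.1 hn1, mul_inv_cancel_right]
      have h4 : σ = 1 := semiregular hW h2 hΩ (hodd σ hσ)
        (fun h => hy1 (congrArg Subtype.val h)) hfix
      have h5 : (⟨n, hn2⟩ : Subgroup.normalizer ((P : Subgroup G) : Set G)) ∈
          (P : Subgroup G).normalizerMonoidHom.ker := h4
      rw [Subgroup.normalizerMonoidHom_ker, Subgroup.mem_subgroupOf] at h5
      exact h5
    · apply le_inf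
      · exact Subgroup.centralizer_le (Set.singleton_subset_iff.2 hy)
      · exact Subgroup.centralizer_le_normalizer _
  have h3 := card_le_three hW h2 hΩ (autE P) hEodd ht1 ht2
  have h13 : Nat.card (autE P) = 1 ∨ Nat.card (autE P) = 3 := by
    obtain ⟨k, hk⟩ := hEodd
    omega
  exact ⟨hab, hfrob, h13, h16, ⟨t, ht1, ht2⟩, exists_sq_ne_one hm e⟩

end facts

theorem sylow_normal_aux (n : ℕ) : ∀ (G : Type u) [Group G] [Finite G], Nat.card G = n →
    ∀ (P : Sylow 2 G) (m : ℕ), 2 ≤ m →
    ((P : Subgroup G) ≃* Multiplicative (ZMod (2 ^ m) × ZMod (2 ^ m))) →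
    (∀ N : Subgroup G, N.Normal → Odd (Nat.card N) → N = ⊥) → (P : Subgroup G).Normal := by
  induction n using Nat.strong_induction_on with
  | _ n ih =>
    intro G _ _ hn P m hm e hO
    classical
    have : Fact (Nat.Prime 2) := ⟨Nat.prime_two⟩
    obtain ⟨hab, hfrob, h13, h16, ⟨t, ht1, ht2⟩, ⟨z, hz⟩⟩ := facts P hm e
    rcases h13 with h1 | h3
    · rw [card_autE, Subgroup.relIndex_eq_one] at h1
      have hcomp := MonoidHom.ker_transferSylow_isComplement' P h1
      have hidx := hcomp.index_eq_card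
      have hodd : Odd (Nat.card (MonoidHom.transferSylow P h1).ker) := by
        rw [← hidx, ← Nat.not_even_iff_odd, even_iff_two_dvd]
        exact P.not_dvd_index
      have hbot := hO _ inferInstance hodd
      rw [hbot, Subgroup.card_bot, Subgroup.index_eq_one] at hidx
      rw [hidx]
      infer_instance
    · cases nonempty_fintype G
      cases nonempty_fintype ↥(P : Subgroup G)
      cases nonempty_fintype (↥(P : Subgroup G) →* ℂˣ)
      obtain ⟨M, hM⟩ := exists_isPModular 2 Nat.prime_two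
      obtain ⟨χ, hχ1, hχ⟩ := exists_kernel_char hM hab hfrob h3 h16 ht1 ht2 hz
      set L := Cfsg.Agent.H25.kerSub χ with hL
      have hPL : (P : Subgroup G) ≤ L := by
        intro y hy
        rw [Cfsg.Agent.H25.mem_kerSub]
        exact apply_eq_of_mult_eq_zero P hab (isCharacter_of_irr χ.2) hχ ⟨y, hy⟩
      have hLtop : L ≠ ⊤ := by
        intro h
        apply hχ1
        apply Subtype.ext
        exact Cfsg.Agent.H25.eq_one_of_kerSub_eq_top χ h
      have hlt : Nat.card L < n := by
        rw [← hn]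
        have h4 := L.card_mul_index
        have h5 : L.index ≠ 1 := fun h => hLtop (Subgroup.index_eq_one.1 h)
        have h6 : 0 < L.index := Nat.pos_of_ne_zero (Subgroup.index_ne_zero_of_finite)
        have h7 : 0 < Nat.card L := Nat.card_pos
        have h8 : 2 ≤ L.index := by omega
        nlinarith
      have e' : ((P.subtype hPL : Sylow 2 L) : Subgroup L) ≃*
          Multiplicative (ZMod (2 ^ m) × ZMod (2 ^ m)) :=
        ((MulEquiv.subgroupCongr (Sylow.coe_subtype ..)).trans
          (Subgroup.subgroupOfEquivOfLe hPL)).trans e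
      have hnorm := ih _ hlt L rfl (P.subtype hPL) m hm e' (hO_of_normal hO L)
      exact normal_of_normal_subtype P L hPL hnorm

theorem brauer_homocyclic {G : Type u} [Group G] [Finite G] (P : Sylow 2 G) (m : ℕ) (hm : 2 ≤ m)
    (e : (P : Subgroup G) ≃* Multiplicative (ZMod (2 ^ m) × ZMod (2 ^ m)))
    (hO : ∀ N : Subgroup G, N.Normal → Odd (Nat.card N) → N = ⊥) :
    (P : Subgroup G).Normal ∧ Subgroup.centralizer (P : Set G) = (P : Subgroup G) ∧
      ((P : Subgroup G).index = 1 ∨ (P : Subgroup G).index = 3) := by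
  have : Fact (Nat.Prime 2) := ⟨Nat.prime_two⟩
  have hn := sylow_normal_aux _ G rfl P m hm e hO
  obtain ⟨hab, hfrob, h13, -, -, -⟩ := facts P hm e
  set C := Subgroup.centralizer ((P : Subgroup G) : Set G) with hC
  have hCn : C.Normal := Subgroup.normal_centralizer
  have hPC : (P : Subgroup G) ≤ C := by
    intro x hx
    rw [hC, Subgroup.mem_centralizer_iff]
    intro w hw
    exact congrArg Subtype.val (hab.is_comm.comm (⟨w, hw⟩ : P) ⟨x, hx⟩)
  have hCP : C = (P : Subgroup G) := by
    apply le_antisymm _ hPC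
    let Q : Sylow 2 C := P.subtype hPC
    have hQ : (Q : Subgroup C) = (P : Subgroup G).subgroupOf C := Sylow.coe_subtype ..
    have hNC : Subgroup.normalizer ((Q : Subgroup C) : Set C) ≤
        Subgroup.centralizer ((Q : Subgroup C) : Set C) := by
      intro c _
      rw [Subgroup.mem_centralizer_iff]
      intro w hw
      have hw' : (w : G) ∈ (P : Subgroup G) := by
        have : w ∈ (Q : Subgroup C) := hw
        rw [hQ, Subgroup.mem_subgroupOf] at this
        exact this
      apply Subtype.ext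
      exact Subgroup.mem_centralizer_iff.1 c.2 w hw'
    have hcomp := MonoidHom.ker_transferSylow_isComplement' Q hNC
    have hidx := hcomp.index_eq_card
    have hodd : Odd (Nat.card (MonoidHom.transferSylow Q hNC).ker) := by
      rw [← hidx, ← Nat.not_even_iff_odd, even_iff_two_dvd]
      exact Q.not_dvd_index
    have hbot := hO_of_normal hO C _ inferInstance hodd
    rw [hbot, Subgroup.card_bot, Subgroup.index_eq_one] at hidx
    intro c hc
    have h1 : (⟨c, hc⟩ : C) ∈ (Q : Subgroup C) := by rw [hidx]; exact Subgroup.mem_top _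
    rw [hQ, Subgroup.mem_subgroupOf] at h1
    exact h1
  refine ⟨hn, hCP, ?_⟩
  rw [card_autE, Subgroup.normalizer_eq_top, Subgroup.relIndex_top_right, ← hC, hCP] at h13
  exact h13

end Cfsg.Agent.Lib.Helper23.Homo
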