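import Cfsg.Agent.Lib.Helper23.DualAct

/-! Isometric representations of finite abelian groups: the isotypic projections. -/

set_option autoImplicit false
set_option linter.unusedSectionVars false

namespace Cfsg.Agent.Lib.Helper23.Jordan

open Cfsg Cfsg.Agent.Lib.Helper10 Cfsg.Agent.Lib.Helper23.DualAct
open scoped ComplexConjugate InnerProductSpace

universe u v

variable {E : Type v} [NormedAddCommGroup E] [InnerProductSpace ℂ E]

theorem norm_sq_sum_of_orthogonal {ι : Type*} [Fintype ι] (w : ι → E)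
    (h : ∀ i j, i ≠ j → ⟪w i, w j⟫_ℂ = 0) : ‖∑ i, w i‖ ^ 2 = ∑ i, ‖w i‖ ^ 2 := by
  classical
  rw [norm_sq_eq_re_inner (𝕜 := ℂ), sum_inner, map_sum]
  apply Finset.sum_congr rfl
  intro i _
  rw [inner_sum, Finset.sum_eq_single i (fun j _ hj => h i j hj.symm) (fun h' => absurd (Finset.mem_univ i) h'),
    norm_sq_eq_re_inner (𝕜 := ℂ)]

variable {W : Type u} [Group W] (σ : Representation ℂ W E)

theorem inner_map_map (hiso : ∀ g u, ‖σ g u‖ = ‖u‖) (g : W) (x y : E) :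
    ⟪σ g x, σ g y⟫_ℂ = ⟪x, y⟫_ℂ :=
  LinearIsometry.inner_map_map (⟨σ g, hiso g⟩ : E →ₗᵢ[ℂ] E) x y

/-- eigenvectors for different linear characters are orthogonal -/
theorem inner_eq_zero_of_ne [Finite W] (hiso : ∀ g u, ‖σ g u‖ = ‖u‖) {l m : W →* ℂˣ} (hlm : l ≠ m)
    {x y : E} (hx : ∀ h, σ h x = (l h : ℂ) • x) (hy : ∀ h, σ h y = (m h : ℂ) • y) :
    ⟪x, y⟫_ℂ = 0 := by
  obtain ⟨h, hh⟩ : ∃ h, l h ≠ m h := by
    by_contra hcon
    push Not at hcon
    exact hlm (MonoidHom.ext hcon)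
  have h1 := inner_map_map σ hiso h x y
  rw [hx, hy, inner_smul_left, inner_smul_right, conj_lin] at h1
  have h2 : ((l h⁻¹ : ℂ) * (m h : ℂ) - 1) * ⟪x, y⟫_ℂ = 0 := by linear_combination h1
  rcases mul_eq_zero.1 h2 with h3 | h3
  · exfalso
    apply hh
    have h4 : (l h⁻¹ * m h : ℂˣ) = 1 := by
      apply Units.ext
      rw [Units.val_mul, Units.val_one]
      linear_combination h3
    rw [map_inv, inv_mul_eq_one] at h4
    exact h4
  · exact h3

variable [Fintype W]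

/-- the projection onto the `l`-isotypic component -/
noncomputable def proj (l : W →* ℂˣ) : E →ₗ[ℂ] E :=
  (Nat.card W : ℂ)⁻¹ • ∑ w : W, (l w⁻¹ : ℂ) • σ w

theorem proj_apply (l : W →* ℂˣ) (u : E) :
    proj σ l u = (Nat.card W : ℂ)⁻¹ • ∑ w : W, (l w⁻¹ : ℂ) • σ w u := by
  simp [proj, LinearMap.sum_apply]

theorem map_proj (l : W →* ℂˣ) (h : W) (u : E) : σ h (proj σ l u) = (l h : ℂ) • proj σ l u := by
  rw [proj_apply, map_smul, map_sum, smul_comm (l h : ℂ)]
  congr 1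
  rw [Finset.smul_sum]
  symm
  apply Fintype.sum_equiv (Equiv.mulLeft h⁻¹)
  intro w
  have h1 : Equiv.mulLeft h⁻¹ w = h⁻¹ * w := rfl
  rw [h1, map_smul, ← Module.End.mul_apply, ← map_mul, mul_inv_cancel_left, smul_smul, mul_inv_rev,
    inv_inv, map_mul, Units.val_mul, mul_comm]

theorem sum_proj (hW : ∀ a b : W, a * b = b * a) [Fintype (W →* ℂˣ)] (u : E) :
    ∑ l : W →* ℂˣ, proj σ l u = u := by
  classical
  simp only [proj_apply]
  rw [← Finset.smul_sum, Finset.sum_comm]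
  have h1 : ∀ w : W, ∑ l : W →* ℂˣ, (l w⁻¹ : ℂ) • σ w u =
      if w = 1 then (Nat.card W : ℂ) • u else 0 := by
    intro w
    rw [← Finset.sum_smul]
    split_ifs with hw
    · subst hw
      simp only [inv_one, map_one, Units.val_one, Finset.sum_const, Finset.card_univ,
        nsmul_eq_mul, mul_one, Module.End.one_apply]
      rw [← Nat.card_eq_fintype_card, card_lin hW]
    · rw [sum_lin_apply hW (inv_ne_one.2 hw), zero_smul]
  simp only [h1, Finset.sum_ite_eq', Finset.mem_univ, if_true]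
  rw [smul_smul, inv_mul_cancel₀ (by exact_mod_cast Nat.card_pos.ne'), one_smul]

theorem inner_proj_proj (hiso : ∀ g u, ‖σ g u‖ = ‖u‖) {l m : W →* ℂˣ} (hlm : l ≠ m) (x y : E) :
    ⟪proj σ l x, proj σ m y⟫_ℂ = 0 :=
  inner_eq_zero_of_ne σ hiso hlm (fun h => map_proj σ l h x) (fun h => map_proj σ m h y)

/-- Pythagoras for the isotypic decomposition -/
theorem norm_sq_sum_smul_proj (hiso : ∀ g u, ‖σ g u‖ = ‖u‖) [Fintype (W →* ℂˣ)]
    (a : (W →* ℂˣ) → ℂ) (u : E) :
    ‖∑ l : W →* ℂˣ, a l • proj σ l u‖ ^ 2 = ∑ l : W →* ℂˣ, ‖a l‖ ^ 2 * ‖proj σ l u‖ ^ 2 := by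
  rw [norm_sq_sum_of_orthogonal]
  · apply Finset.sum_congr rfl
    intro l _
    rw [norm_smul, mul_pow]
  · intro l m hlm
    rw [inner_smul_left, inner_smul_right, inner_proj_proj σ hiso hlm, mul_zero, mul_zero]

theorem norm_sq_eq_sum_proj (hW : ∀ a b : W, a * b = b * a) (hiso : ∀ g u, ‖σ g u‖ = ‖u‖)
    [Fintype (W →* ℂˣ)] (u : E) : ‖u‖ ^ 2 = ∑ l : W →* ℂˣ, ‖proj σ l u‖ ^ 2 := by
  have h := norm_sq_sum_smul_proj σ hiso (fun _ => 1) u
  simp only [one_smul, norm_one, one_pow, one_mul] at h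
  rw [sum_proj σ hW] at h
  exact h

/-- `(σ h - c) u` in terms of the isotypic decomposition -/
theorem map_sub_smul_eq (hW : ∀ a b : W, a * b = b * a) [Fintype (W →* ℂˣ)] (h : W) (c : ℂ)
    (u : E) : σ h u - c • u = ∑ l : W →* ℂˣ, ((l h : ℂ) - c) • proj σ l u := by
  simp only [sub_smul, Finset.sum_sub_distrib, ← Finset.smul_sum, sum_proj σ hW]
  congr 1
  conv_lhs => rw [← sum_proj σ hW u, map_sum]
  exact Finset.sum_congr rfl (fun l _ => map_proj σ l h u)

/-- the number of linear characters occurring is at most the dimension -/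
theorem card_proj_ne_zero [FiniteDimensional ℂ E] (hiso : ∀ g u, ‖σ g u‖ = ‖u‖)
    [Fintype (W →* ℂˣ)] [Fintype {l : W →* ℂˣ // proj σ l ≠ 0}] :
    Fintype.card {l : W →* ℂˣ // proj σ l ≠ 0} ≤ Module.finrank ℂ E := by
  have hex : ∀ l : {l : W →* ℂˣ // proj σ l ≠ 0}, ∃ u : E, proj σ l.1 u ≠ 0 := by
    intro l
    by_contra hcon
    push Not at hcon
    exact l.2 (LinearMap.ext hcon)
  choose u hu using hex
  have hli : LinearIndependent ℂ (fun l : {l : W →* ℂˣ // proj σ l ≠ 0} => proj σ l.1 (u l)) := by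
    apply linearIndependent_of_ne_zero_of_inner_eq_zero hu
    intro l m hlm
    exact inner_proj_proj σ hiso (fun h => hlm (Subtype.ext h)) _ _
  exact hli.fintype_card_le_finrank

end Cfsg.Agent.Lib.Helper23.Jordan
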