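import Cfsg.Agent.Lib.Helper23.Jordan1

/-! Finite groups of isometries: elements close to a scalar commute. -/

set_option autoImplicit false
set_option linter.unusedSectionVars false

namespace Cfsg.Agent.Lib.Helper23.Jordan

open Cfsg Cfsg.Agent.Lib.Helper10 Cfsg.Agent.Lib.Helper23.DualAct
open scoped ComplexConjugate InnerProductSpace

universe u v

variable {E : Type v} [NormedAddCommGroup E] [InnerProductSpace ℂ E]
variable {G : Type u} [Group G] (ρ : Representation ℂ G E)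

theorem map_eq_sum_proj [Fintype G] (hW : ∀ a b : G, a * b = b * a) [Fintype (G →* ℂˣ)] (h : G)
    (u : E) : ρ h u = ∑ l : G →* ℂˣ, (l h : ℂ) • proj ρ l u := by
  conv_lhs => rw [← sum_proj ρ hW u, map_sum]
  exact Finset.sum_congr rfl (fun l _ => map_proj ρ l h u)

theorem map_inv_map (g : G) (u : E) : ρ g⁻¹ (ρ g u) = u := by
  rw [← Module.End.mul_apply, ← map_mul, inv_mul_cancel, map_one, Module.End.one_apply]

theorem map_map_inv (g : G) (u : E) : ρ g (ρ g⁻¹ u) = u := by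
  rw [← Module.End.mul_apply, ← map_mul, mul_inv_cancel, map_one, Module.End.one_apply]

/-- Frobenius' lemma -/
theorem frobenius_comm [Finite G] (hiso : ∀ g u, ‖ρ g u‖ = ‖u‖) (hinj : Function.Injective ρ)
    {X Y : G} (hc : X * (Y * X * Y⁻¹) = (Y * X * Y⁻¹) * X)
    (hpos : ∀ u : E, u ≠ 0 → 0 < (⟪ρ Y u, u⟫_ℂ).re) : X * Y = Y * X := by
  classical
  by_contra hne
  obtain ⟨X', hX'⟩ : ∃ X', X' = Y * X * Y⁻¹ := ⟨_, rfl⟩
  rw [← hX'] at hc
  have hXX' : X ≠ X' := by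
    intro h
    apply hne
    rw [hX', eq_mul_inv_iff_mul_eq] at h
    exact h
  obtain ⟨K, hK⟩ : ∃ K, K = Subgroup.closure ({X, X'} : Set G) := ⟨_, rfl⟩
  have hKc : IsMulCommutative K := by
    rw [hK]
    apply Subgroup.isMulCommutative_closure
    intro a ha b hb
    simp only [Set.mem_insert_iff, Set.mem_singleton_iff] at ha hb
    rcases ha with rfl | rfl <;> rcases hb with rfl | rfl <;> first | rfl | exact hc | exact hc.symm
  have hW : ∀ a b : K, a * b = b * a := fun a b => hKc.is_comm.comm a b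
  have hXK : X ∈ K := by rw [hK]; exact Subgroup.subset_closure (by simp)
  have hX'K : X' ∈ K := by rw [hK]; exact Subgroup.subset_closure (by simp)
  cases nonempty_fintype K
  have : Finite (K →* ℂˣ) := finite_lin
  cases nonempty_fintype (K →* ℂˣ)
  let σ : Representation ℂ K E := ρ.comp K.subtype
  have hσ : ∀ (k : K) (u : E), σ k u = ρ k u := fun _ _ => rfl
  have hσiso : ∀ (g : K) (u : E), ‖σ g u‖ = ‖u‖ := fun g u => hiso g u
  obtain ⟨l, hl0, hl⟩ : ∃ l : K →* ℂˣ, proj σ l ≠ 0 ∧ l ⟨X, hXK⟩ ≠ l ⟨X', hX'K⟩ := by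
    by_contra hcon
    push Not at hcon
    apply hXX'
    apply hinj
    ext u
    have h1 := map_eq_sum_proj σ hW ⟨X, hXK⟩ u
    have h2 := map_eq_sum_proj σ hW ⟨X', hX'K⟩ u
    rw [hσ] at h1 h2
    rw [h1, h2]
    apply Finset.sum_congr rfl
    intro l _
    by_cases h0 : proj σ l = 0
    · rw [h0]; simp
    · rw [hcon l h0]
  obtain ⟨w, hw⟩ : ∃ w, proj σ l w ≠ 0 := by
    by_contra hcon
    push Not at hcon
    exact hl0 (LinearMap.ext hcon)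
  obtain ⟨v, hv⟩ : ∃ v, v = proj σ l w := ⟨_, rfl⟩
  rw [← hv] at hw
  have hXv : ρ X v = (l ⟨X, hXK⟩ : ℂ) • v := by rw [hv]; exact map_proj σ l ⟨X, hXK⟩ w
  have hX'v : ρ X' v = (l ⟨X', hX'K⟩ : ℂ) • v := by rw [hv]; exact map_proj σ l ⟨X', hX'K⟩ w
  obtain ⟨u, hu⟩ : ∃ u, u = ρ Y⁻¹ v := ⟨_, rfl⟩
  have hYu : ρ Y u = v := by rw [hu, map_map_inv]
  have hu0 : u ≠ 0 := by
    intro h
    apply hw
    rw [← hYu, h, map_zero]
  have hXu : ρ X u = (l ⟨X', hX'K⟩ : ℂ) • u := by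
    have h1 : X * Y⁻¹ = Y⁻¹ * X' := by rw [hX']; group
    rw [hu, ← Module.End.mul_apply, ← map_mul, h1, map_mul, Module.End.mul_apply, hX'v, map_smul]
  have h1 := inner_map_map ρ hiso X u v
  rw [hXu, hXv, inner_smul_left, inner_smul_right, conj_lin] at h1
  have h2 : ((l (⟨X', hX'K⟩ : K)⁻¹ : ℂ) * (l ⟨X, hXK⟩ : ℂ) - 1) * ⟪u, v⟫_ℂ = 0 := by
    linear_combination h1
  have h3 : ⟪u, v⟫_ℂ = 0 := by
    rcases mul_eq_zero.1 h2 with h3 | h3
    · exfalso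
      apply hl
      have h4 : (l (⟨X', hX'K⟩ : K)⁻¹ * l ⟨X, hXK⟩ : ℂˣ) = 1 := by
        apply Units.ext
        rw [Units.val_mul, Units.val_one]
        linear_combination h3
      rw [map_inv, inv_mul_eq_one] at h4
      exact h4.symm
    · exact h3
  have h4 := hpos u hu0
  rw [hYu, ← inner_conj_symm, h3] at h4
  simp at h4

/-- `ρ g` is within `r` of the scalar `c` -/
def Close (g : G) (c : ℂ) (r : ℝ) : Prop := ∀ u : E, ‖ρ g u - c • u‖ ≤ r * ‖u‖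

variable {ρ}

theorem Close.comm (hiso : ∀ g u, ‖ρ g u‖ = ‖u‖) {X Y : G} {c : ℂ} {x δ : ℝ}
    (hX : Close ρ X c x) (hY : Close ρ Y 1 δ) (hx : 0 ≤ x) (hδ : 0 ≤ δ) :
    Close ρ (X⁻¹ * (Y * X * Y⁻¹)) 1 (2 * x * δ) := by
  intro u
  obtain ⟨w, hw⟩ : ∃ w, w = ρ Y⁻¹ u := ⟨_, rfl⟩
  have huw : u = ρ Y w := by rw [hw, map_map_inv]
  have hnw : ‖w‖ = ‖u‖ := by rw [hw, hiso]
  have h1 : ρ (X⁻¹ * (Y * X * Y⁻¹)) u - (1 : ℂ) • u =
      ρ X⁻¹ (ρ Y (ρ X w) - ρ X (ρ Y w)) := by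
    rw [map_sub, map_inv_map, ← huw, one_smul, map_mul, map_mul, map_mul, Module.End.mul_apply,
      Module.End.mul_apply, Module.End.mul_apply, ← hw]
  rw [h1, hiso]
  have h2 : ρ Y (ρ X w) - ρ X (ρ Y w) =
      (ρ Y (ρ X w - c • w) - (1 : ℂ) • (ρ X w - c • w)) -
      (ρ X (ρ Y w - (1 : ℂ) • w) - c • (ρ Y w - (1 : ℂ) • w)) := by
    simp only [map_sub, map_smul, one_smul, smul_sub]
    abel
  rw [h2]
  calc ‖(ρ Y (ρ X w - c • w) - (1 : ℂ) • (ρ X w - c • w)) -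
      (ρ X (ρ Y w - (1 : ℂ) • w) - c • (ρ Y w - (1 : ℂ) • w))‖
      ≤ ‖ρ Y (ρ X w - c • w) - (1 : ℂ) • (ρ X w - c • w)‖ +
        ‖ρ X (ρ Y w - (1 : ℂ) • w) - c • (ρ Y w - (1 : ℂ) • w)‖ := norm_sub_le _ _
    _ ≤ δ * ‖ρ X w - c • w‖ + x * ‖ρ Y w - (1 : ℂ) • w‖ := add_le_add (hY _) (hX _)
    _ ≤ δ * (x * ‖w‖) + x * (δ * ‖w‖) :=
        add_le_add (mul_le_mul_of_nonneg_left (hX w) hδ) (mul_le_mul_of_nonneg_left (hY w) hx)
    _ = 2 * x * δ * ‖u‖ := by rw [hnw]; ring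

theorem Close.conj (hiso : ∀ g u, ‖ρ g u‖ = ‖u‖) {X : G} {c : ℂ} {x : ℝ} (hX : Close ρ X c x)
    (h : G) : Close ρ (h * X * h⁻¹) c x := by
  intro u
  have h1 : ρ (h * X * h⁻¹) u - c • u = ρ h (ρ X (ρ h⁻¹ u) - c • ρ h⁻¹ u) := by
    rw [map_sub, map_smul, map_map_inv, map_mul, map_mul, Module.End.mul_apply,
      Module.End.mul_apply]
  rw [h1, hiso]
  have := hX (ρ h⁻¹ u)
  rwa [hiso h⁻¹ u] at this

variable (ρ) [FiniteDimensional ℂ E]

/-- the distance of `ρ g` from the identity -/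
noncomputable def dist1 (g : G) : ℝ := ‖LinearMap.toContinuousLinearMap (ρ g - 1)‖

theorem close_dist1 (g : G) : Close ρ g 1 (dist1 ρ g) := by
  intro u
  have := (LinearMap.toContinuousLinearMap (ρ g - 1)).le_opNorm u
  simpa [dist1] using this

theorem dist1_nonneg (g : G) : 0 ≤ dist1 ρ g := norm_nonneg _

variable {ρ}

theorem dist1_le {g : G} {r : ℝ} (hr : 0 ≤ r) (h : Close ρ g 1 r) : dist1 ρ g ≤ r := by
  apply ContinuousLinearMap.opNorm_le_bound _ hr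
  intro u
  have := h u
  simpa using this

theorem eq_one_of_dist1 (hinj : Function.Injective ρ) {g : G} (h : dist1 ρ g = 0) : g = 1 := by
  apply hinj
  rw [map_one]
  ext u
  have := close_dist1 ρ g u
  rw [h, zero_mul, one_smul] at this
  have h2 : ρ g u - u = 0 := norm_le_zero_iff.1 this
  rw [Module.End.one_apply]
  exact sub_eq_zero.1 h2

theorem re_inner_pos_of_dist1 {Y : G} (h : dist1 ρ Y < 1) (u : E) (hu : u ≠ 0) :
    0 < (⟪ρ Y u, u⟫_ℂ).re := by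
  have h1 : ρ Y u = (ρ Y u - (1 : ℂ) • u) + u := by rw [one_smul]; abel
  have h2 := close_dist1 ρ Y u
  have h3 : ‖⟪ρ Y u - (1 : ℂ) • u, u⟫_ℂ‖ ≤ ‖ρ Y u - (1 : ℂ) • u‖ * ‖u‖ := norm_inner_le_norm _ _
  have h4 : |(⟪ρ Y u - (1 : ℂ) • u, u⟫_ℂ).re| ≤ ‖⟪ρ Y u - (1 : ℂ) • u, u⟫_ℂ‖ :=
    Complex.abs_re_le_norm _
  have h5 : (⟪u, u⟫_ℂ).re = ‖u‖ ^ 2 := (norm_sq_eq_re_inner (𝕜 := ℂ) u).symm
  have hpos : 0 < ‖u‖ := norm_pos_iff.2 hu
  rw [h1, inner_add_left, Complex.add_re, h5]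
  have h6 := abs_le.1 (h4.trans h3)
  have h7 : ‖ρ Y u - (1 : ℂ) • u‖ * ‖u‖ ≤ dist1 ρ Y * ‖u‖ * ‖u‖ :=
    mul_le_mul_of_nonneg_right h2 hpos.le
  nlinarith [h6.1, mul_pos hpos hpos]

/-- an element close to a scalar commutes with every element close to the identity -/
theorem comm_of_close [Finite G] (hiso : ∀ g u, ‖ρ g u‖ = ‖u‖) (hinj : Function.Injective ρ)
    {X : G} {c : ℂ} {x : ℝ} (hx0 : 0 ≤ x) (hx : x < 1 / 2) (hX : Close ρ X c x) :
    ∀ Y : G, dist1 ρ Y < 1 → X * Y = Y * X := by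
  classical
  cases nonempty_fintype G
  by_contra hcon
  push Not at hcon
  obtain ⟨Y₀, hY₀, hY₀'⟩ := hcon
  obtain ⟨Y, hYs, hmin⟩ := Finset.exists_min_image
    (Finset.univ.filter (fun Y : G => dist1 ρ Y < 1 ∧ X * Y ≠ Y * X)) (dist1 ρ)
    ⟨Y₀, by simp only [Finset.mem_filter, Finset.mem_univ, true_and]; exact ⟨hY₀, hY₀'⟩⟩
  simp only [Finset.mem_filter, Finset.mem_univ, true_and] at hYs hmin
  obtain ⟨hY1, hYne⟩ := hYs
  have hYpos : 0 < dist1 ρ Y := by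
    rcases (dist1_nonneg ρ Y).lt_or_eq with h | h
    · exact h
    · exfalso
      apply hYne
      rw [eq_one_of_dist1 hinj h.symm, mul_one, one_mul]
  have hZ := dist1_le (by have := dist1_nonneg ρ Y; positivity)
    (hX.comm hiso (close_dist1 ρ Y) hx0 (dist1_nonneg ρ Y))
  have hZlt : dist1 ρ (X⁻¹ * (Y * X * Y⁻¹)) < dist1 ρ Y := by nlinarith
  have hZc : X * (X⁻¹ * (Y * X * Y⁻¹)) = (X⁻¹ * (Y * X * Y⁻¹)) * X := by
    by_contra h
    have := hmin _ ⟨hZlt.trans hY1, h⟩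
    linarith
  apply hYne
  apply frobenius_comm ρ hiso hinj _ (re_inner_pos_of_dist1 hY1)
  rw [mul_inv_cancel_left] at hZc
  calc X * (Y * X * Y⁻¹) = X * (X⁻¹ * (Y * X * Y⁻¹) * X) := by rw [← hZc]
    _ = Y * X * Y⁻¹ * X := by group

end Cfsg.Agent.Lib.Helper23.Jordan
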