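import Cfsg.Agent.Lib.Helper23.Jordan2

/-! Finite groups of isometries: the abelian normal subgroup generated by the small elements. -/

set_option autoImplicit false
set_option linter.unusedSectionVars false

namespace Cfsg.Agent.Lib.Helper23.Jordan

open Cfsg Cfsg.Agent.Lib.Helper10 Cfsg.Agent.Lib.Helper23.DualAct
open scoped ComplexConjugate InnerProductSpace

universe u v

/-- `cos (π / 6)` -/
noncomputable def s₀ : ℝ := Real.sqrt 3 / 2

theorem s₀_sq : s₀ ^ 2 = 3 / 4 := by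
  unfold s₀
  rw [div_pow, Real.sq_sqrt (by norm_num)]
  norm_num

theorem s₀_pos : 0 < s₀ := by unfold s₀; positivity

theorem s₀_gt : 1 / 2 < s₀ := by
  have := s₀_sq
  have := s₀_pos
  nlinarith

theorem s₀_lt : s₀ < 1 := by
  have := s₀_sq
  have := s₀_pos
  nlinarith

/-- the arc of the unit circle containing `z` -/
noncomputable def arc (z : ℂ) : ℤ := ⌈(Complex.arg z + Real.pi) * (6 / Real.pi)⌉

theorem arc_mem (z : ℂ) : arc z ∈ Finset.Icc (1 : ℤ) 12 := by
  have hpi := Real.pi_pos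
  have h1 := Complex.neg_pi_lt_arg z
  have h2 := Complex.arg_le_pi z
  rw [Finset.mem_Icc]
  constructor
  · have : 0 < arc z := by
      unfold arc
      rw [Int.ceil_pos]
      have : 0 < Complex.arg z + Real.pi := by linarith
      positivity
    omega
  · unfold arc
    rw [Int.ceil_le]
    have h3 : (Complex.arg z + Real.pi) * (6 / Real.pi) ≤ (2 * Real.pi) * (6 / Real.pi) := by
      apply mul_le_mul_of_nonneg_right (by linarith) (by positivity)
    have h4 : (2 * Real.pi) * (6 / Real.pi) = 12 := by field_simp; norm_num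
    rw [h4] at h3
    exact_mod_cast h3

theorem re_of_arc_eq {z z' : ℂ} (hz : ‖z‖ = 1) (hz' : ‖z'‖ = 1) (h : arc z = arc z') :
    s₀ < (z⁻¹ * z').re := by
  have hpi := Real.pi_pos
  have e1 : z = Complex.exp (Complex.arg z * Complex.I) := by
    have := Complex.norm_mul_exp_arg_mul_I z
    rw [hz] at this
    simpa using this.symm
  have e2 : z' = Complex.exp (Complex.arg z' * Complex.I) := by
    have := Complex.norm_mul_exp_arg_mul_I z'
    rw [hz'] at this
    simpa using this.symm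
  have e3 : z⁻¹ * z' = Complex.exp (((Complex.arg z' - Complex.arg z : ℝ) : ℂ) * Complex.I) := by
    rw [e1, e2, ← Complex.exp_neg, ← Complex.exp_add, ← e1, ← e2]
    congr 1
    push_cast
    ring
  rw [e3, Complex.exp_ofReal_mul_I_re, ← Real.cos_abs]
  have hlt : |Complex.arg z' - Complex.arg z| < Real.pi / 6 := by
    have a1 := Int.ceil_lt_add_one ((Complex.arg z + Real.pi) * (6 / Real.pi))
    have a2 := Int.le_ceil ((Complex.arg z + Real.pi) * (6 / Real.pi))
    have b1 := Int.ceil_lt_add_one ((Complex.arg z' + Real.pi) * (6 / Real.pi))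
    have b2 := Int.le_ceil ((Complex.arg z' + Real.pi) * (6 / Real.pi))
    unfold arc at h
    rw [← h] at b1 b2
    have c1 : (Complex.arg z' - Complex.arg z) * (6 / Real.pi) < 1 := by
      have : (Complex.arg z' - Complex.arg z) * (6 / Real.pi) =
        (Complex.arg z' + Real.pi) * (6 / Real.pi) - (Complex.arg z + Real.pi) * (6 / Real.pi) := by
        ring
      rw [this]; linarith
    have c2 : -1 < (Complex.arg z' - Complex.arg z) * (6 / Real.pi) := by
      have : (Complex.arg z' - Complex.arg z) * (6 / Real.pi) =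
        (Complex.arg z' + Real.pi) * (6 / Real.pi) - (Complex.arg z + Real.pi) * (6 / Real.pi) := by
        ring
      rw [this]; linarith
    have hq : 0 < Real.pi / 6 := by positivity
    have d1 : (Complex.arg z' - Complex.arg z) =
        ((Complex.arg z' - Complex.arg z) * (6 / Real.pi)) * (Real.pi / 6) := by
      field_simp
    rw [abs_lt]
    constructor
    · rw [d1]; nlinarith
    · rw [d1]; nlinarith
  have := Real.cos_lt_cos_of_nonneg_of_le_pi (abs_nonneg _) (by linarith) hlt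
  rw [Real.cos_pi_div_six] at this
  exact this

theorem norm_sub_lt {z : ℂ} (hz : ‖z‖ = 1) (h : s₀ < z.re) : ‖z - (s₀ : ℂ)‖ < 1 / 2 := by
  have h1 : ‖z - (s₀ : ℂ)‖ ^ 2 = (z.re - s₀) ^ 2 + z.im ^ 2 := by
    rw [Complex.sq_norm, Complex.normSq_apply]
    simp
    ring
  have h2 : z.re ^ 2 + z.im ^ 2 = 1 := by
    have : ‖z‖ ^ 2 = 1 := by rw [hz]; norm_num
    rw [Complex.sq_norm, Complex.normSq_apply] at this
    nlinarith
  have h3 := s₀_sq
  have h4 := s₀_pos
  have h5 : ‖z - (s₀ : ℂ)‖ ^ 2 < (1 / 2) ^ 2 := by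
    rw [h1]; nlinarith
  exact lt_of_pow_lt_pow_left₀ 2 (by norm_num) h5

theorem exists_bound {Λ : Type*} [Finite Λ] (f : Λ → ℝ) (h : ∀ l, f l < 1 / 2) :
    ∃ x : ℝ, 0 ≤ x ∧ x < 1 / 2 ∧ ∀ l, f l ≤ x := by
  rcases isEmpty_or_nonempty Λ with hΛ | hΛ
  · exact ⟨0, le_refl _, by norm_num, fun l => (hΛ.false l).elim⟩
  · obtain ⟨l₀, hl₀⟩ := Finite.exists_max f
    exact ⟨max (f l₀) 0, le_max_right _ _, max_lt (h l₀) (by norm_num),
      fun l => (hl₀ l).trans (le_max_left _ _)⟩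

variable {E : Type v} [NormedAddCommGroup E] [InnerProductSpace ℂ E] [FiniteDimensional ℂ E]
variable {G : Type u} [Group G] (ρ : Representation ℂ G E)

/-- the small elements -/
def Small (g : G) : Prop := ∃ x : ℝ, 0 ≤ x ∧ x < 1 / 2 ∧ Close ρ g (s₀ : ℂ) x

variable {ρ}

theorem Small.dist1_lt {g : G} (h : Small ρ g) : dist1 ρ g < 1 := by
  obtain ⟨x, hx0, hx, hc⟩ := h
  have h1 := s₀_gt
  have h2 := s₀_lt
  have h3 : dist1 ρ g ≤ x + (1 - s₀) := by
    apply dist1_le (by linarith)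
    intro u
    have e1 : ρ g u - (1 : ℂ) • u = (ρ g u - (s₀ : ℂ) • u) + ((s₀ : ℂ) - 1) • u := by
      rw [sub_smul]; abel
    have e2 : ‖((s₀ : ℂ) - 1)‖ = 1 - s₀ := by
      have : ((s₀ : ℂ) - 1) = ((s₀ - 1 : ℝ) : ℂ) := by push_cast; ring
      rw [this, Complex.norm_real, Real.norm_eq_abs, abs_of_neg (by linarith)]
      ring
    rw [e1]
    calc ‖(ρ g u - (s₀ : ℂ) • u) + ((s₀ : ℂ) - 1) • u‖
        ≤ ‖ρ g u - (s₀ : ℂ) • u‖ + ‖((s₀ : ℂ) - 1) • u‖ := norm_add_le _ _
      _ ≤ x * ‖u‖ + (1 - s₀) * ‖u‖ := by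
          rw [norm_smul, e2]
          exact add_le_add (hc u) (le_refl _)
      _ = (x + (1 - s₀)) * ‖u‖ := by ring
  linarith

theorem Small.comm [Finite G] (hiso : ∀ g u, ‖ρ g u‖ = ‖u‖) (hinj : Function.Injective ρ)
    {X Y : G} (hX : Small ρ X) (hY : Small ρ Y) : X * Y = Y * X := by
  obtain ⟨x, hx0, hx, hc⟩ := hX
  exact comm_of_close hiso hinj hx0 hx hc Y hY.dist1_lt

theorem Small.conj (hiso : ∀ g u, ‖ρ g u‖ = ‖u‖) {X : G} (hX : Small ρ X) (h : G) :
    Small ρ (h * X * h⁻¹) := by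
  obtain ⟨x, hx0, hx, hc⟩ := hX
  exact ⟨x, hx0, hx, hc.conj hiso h⟩

/-- in an abelian group, two elements in the same box differ by a small element -/
theorem small_of_arc_eq [Fintype G] [Fintype (G →* ℂˣ)] (hW : ∀ a b : G, a * b = b * a)
    (hiso : ∀ g u, ‖ρ g u‖ = ‖u‖) {h h' : G}
    (heq : ∀ l : G →* ℂˣ, proj ρ l ≠ 0 → arc (l h : ℂ) = arc (l h' : ℂ)) :
    Small ρ (h⁻¹ * h') := by
  have h1 : ∀ l : {l : G →* ℂˣ // proj ρ l ≠ 0}, ‖(l.1 (h⁻¹ * h') : ℂ) - (s₀ : ℂ)‖ < 1 / 2 := by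
    intro l
    apply norm_sub_lt (lin_norm _ _)
    rw [map_mul, map_inv, Units.val_mul, Units.val_inv_eq_inv_val]
    exact re_of_arc_eq (lin_norm _ _) (lin_norm _ _) (heq l.1 l.2)
  obtain ⟨x, hx0, hx, hb⟩ := exists_bound _ h1
  refine ⟨x, hx0, hx, fun u => ?_⟩
  have h2 : ‖ρ (h⁻¹ * h') u - (s₀ : ℂ) • u‖ ^ 2 ≤ (x * ‖u‖) ^ 2 := by
    rw [map_sub_smul_eq ρ hW, norm_sq_sum_smul_proj ρ hiso, mul_pow, norm_sq_eq_sum_proj ρ hW hiso u,
      Finset.mul_sum]
    apply Finset.sum_le_sum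
    intro l _
    by_cases h0 : proj ρ l = 0
    · rw [h0]; simp
    · apply mul_le_mul_of_nonneg_right _ (by positivity)
      exact pow_le_pow_left₀ (norm_nonneg _) (hb ⟨l, h0⟩) 2
  exact (sq_le_sq₀ (norm_nonneg _) (by positivity)).1 h2

theorem jordan_abstract [Finite G] (hiso : ∀ g u, ‖ρ g u‖ = ‖u‖) (hinj : Function.Injective ρ) :
    ∃ A : Subgroup G, A.Normal ∧ (∀ x ∈ A, ∀ y ∈ A, x * y = y * x) ∧
      ∀ H : Subgroup G, (∀ x ∈ H, ∀ y ∈ H, x * y = y * x) →
        (A.subgroupOf H).index ≤ 12 ^ Module.finrank ℂ E := by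
  classical
  refine ⟨Subgroup.closure {g | Small ρ g}, ?_, ?_, ?_⟩
  · refine ⟨fun n hn g => ?_⟩
    induction hn using Subgroup.closure_induction with
    | mem x hx => exact Subgroup.subset_closure (Small.conj hiso hx g)
    | one => simp
    | mul x y _ _ hx hy =>
      have : g * (x * y) * g⁻¹ = (g * x * g⁻¹) * (g * y * g⁻¹) := by group
      rw [this]
      exact mul_mem hx hy
    | inv x _ hx =>
      have : g * x⁻¹ * g⁻¹ = (g * x * g⁻¹)⁻¹ := by group
      rw [this]
      exact inv_mem hx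
  · have hc := Subgroup.isMulCommutative_closure (k := {g | Small ρ g})
      (fun x hx y hy => Small.comm hiso hinj hx hy)
    intro x hx y hy
    exact congrArg Subtype.val (hc.is_comm.comm (⟨x, hx⟩ : Subgroup.closure {g | Small ρ g}) ⟨y, hy⟩)
  · intro H hH
    have hW : ∀ a b : H, a * b = b * a := fun a b => Subtype.ext (hH a a.2 b b.2)
    cases nonempty_fintype H
    have : Finite (H →* ℂˣ) := finite_lin
    cases nonempty_fintype (H →* ℂˣ)
    let σ : Representation ℂ H E := ρ.comp H.subtype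
    have hσiso : ∀ (g : H) (u : E), ‖σ g u‖ = ‖u‖ := fun g u => hiso g u
    let F : H → ({l : H →* ℂˣ // proj σ l ≠ 0} → ↥(Finset.Icc (1 : ℤ) 12)) :=
      fun h l => ⟨arc (l.1 h : ℂ), arc_mem _⟩
    have hF : ∀ h h' : H, F h = F h' →
        h⁻¹ * h' ∈ (Subgroup.closure {g | Small ρ g}).subgroupOf H := by
      intro h h' hh
      rw [Subgroup.mem_subgroupOf]
      apply Subgroup.subset_closure
      obtain ⟨x, hx0, hx, hc⟩ := small_of_arc_eq (ρ := σ) hW hσiso (h := h) (h' := h')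
        (fun l hl => congrArg Subtype.val (congrFun hh ⟨l, hl⟩))
      exact ⟨x, hx0, hx, fun u => hc u⟩
    have hinjF : Function.Injective
        (fun q : H ⧸ (Subgroup.closure {g | Small ρ g}).subgroupOf H => F q.out) := by
      intro q q' hq
      rw [← QuotientGroup.out_eq' q, ← QuotientGroup.out_eq' q']
      exact QuotientGroup.eq.2 (hF _ _ hq)
    have h1 := Nat.card_le_card_of_injective _ hinjF
    have h2 : Nat.card ({l : H →* ℂˣ // proj σ l ≠ 0} → ↥(Finset.Icc (1 : ℤ) 12)) =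
        12 ^ Fintype.card {l : H →* ℂˣ // proj σ l ≠ 0} := by
      rw [Nat.card_eq_fintype_card, Fintype.card_fun]
      simp
    rw [h2] at h1
    exact h1.trans (Nat.pow_le_pow_right (by norm_num) (card_proj_ne_zero σ hσiso))

end Cfsg.Agent.Lib.Helper23.Jordan
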