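import Cfsg.Agent.Lib.Helper23.Jordan3
import Cfsg.Agent.CharLib.Eigen

/-! Finite complex linear groups: an invariant inner product, and the Jordan-type theorem. -/

set_option autoImplicit false
set_option linter.unusedSectionVars false

namespace Cfsg.Agent.Lib.Helper23.Jordan

open Cfsg
open scoped ComplexConjugate InnerProductSpace

universe u v

theorem jordan_core {G : Type u} [Group G] [Finite G] {F : Type v} [AddCommGroup F] [Module ℂ F]
    [FiniteDimensional ℂ F] (cd : InnerProductSpace.Core ℂ F) (ρ : Representation ℂ G F)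
    (hinv : ∀ g u, cd.inner (ρ g u) (ρ g u) = cd.inner u u) (hinj : Function.Injective ρ) :
    ∃ A : Subgroup G, A.Normal ∧ (∀ x ∈ A, ∀ y ∈ A, x * y = y * x) ∧
      ∀ H : Subgroup G, (∀ x ∈ H, ∀ y ∈ H, x * y = y * x) →
        (A.subgroupOf H).index ≤ 12 ^ Module.finrank ℂ F := by
  letI : NormedAddCommGroup F := @InnerProductSpace.Core.toNormedAddCommGroup ℂ F _ _ _ cd
  letI : InnerProductSpace ℂ F := InnerProductSpace.ofCore cd.toCore
  apply jordan_abstract (ρ := ρ) _ hinj
  intro g u
  rw [norm_eq_sqrt_re_inner (𝕜 := ℂ), norm_eq_sqrt_re_inner (𝕜 := ℂ) u]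
  congr 2
  exact hinv g u

variable {G : Type u} [Group G] [Fintype G] {n : ℕ} (ρ : Representation ℂ G (Fin n → ℂ))

/-- the averaged Hermitian form -/
noncomputable def avgInner (u w : Fin n → ℂ) : ℂ := ∑ g : G, ∑ i : Fin n, conj (ρ g u i) * ρ g w i

theorem avgInner_self (u : Fin n → ℂ) :
    avgInner ρ u u = ((∑ g : G, ∑ i : Fin n, Complex.normSq (ρ g u i) : ℝ) : ℂ) := by
  unfold avgInner
  push_cast
  apply Finset.sum_congr rfl
  intro g _
  apply Finset.sum_congr rfl
  intro i _
  rw [Complex.normSq_eq_conj_mul_self]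

/-- the invariant inner product -/
noncomputable def avgCore : InnerProductSpace.Core ℂ (Fin n → ℂ) where
  inner := avgInner ρ
  conj_inner_symm x y := by
    show conj (avgInner ρ y x) = avgInner ρ x y
    unfold avgInner
    simp only [map_sum, map_mul, Complex.conj_conj]
    apply Finset.sum_congr rfl
    intro g _
    apply Finset.sum_congr rfl
    intro i _
    ring
  re_inner_nonneg x := by
    show 0 ≤ RCLike.re (avgInner ρ x x)
    rw [avgInner_self]
    simp only [RCLike.re_to_complex, Complex.ofReal_re]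
    exact Finset.sum_nonneg (fun g _ => Finset.sum_nonneg (fun i _ => Complex.normSq_nonneg _))
  add_left x y z := by
    show avgInner ρ (x + y) z = avgInner ρ x z + avgInner ρ y z
    unfold avgInner
    simp only [map_add, Pi.add_apply, add_mul, Finset.sum_add_distrib]
  smul_left x y r := by
    show avgInner ρ (r • x) y = conj r * avgInner ρ x y
    unfold avgInner
    simp only [map_smul, Pi.smul_apply, smul_eq_mul, map_mul, Finset.mul_sum, mul_assoc]
  definite x hx := by
    have hx' : avgInner ρ x x = 0 := hx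
    rw [avgInner_self] at hx'
    have h1 : (∑ g : G, ∑ i : Fin n, Complex.normSq (ρ g x i) : ℝ) = 0 := by exact_mod_cast hx'
    rw [Finset.sum_eq_zero_iff_of_nonneg
      (fun g _ => Finset.sum_nonneg (fun i _ => Complex.normSq_nonneg _))] at h1
    have h2 := h1 1 (Finset.mem_univ _)
    rw [Finset.sum_eq_zero_iff_of_nonneg (fun i _ => Complex.normSq_nonneg _)] at h2
    funext i
    have h3 := h2 i (Finset.mem_univ _)
    rw [map_one, Module.End.one_apply, Complex.normSq_eq_zero] at h3
    exact h3

theorem avgInner_map (h : G) (u w : Fin n → ℂ) : avgInner ρ (ρ h u) (ρ h w) = avgInner ρ u w := by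
  unfold avgInner
  apply Fintype.sum_equiv (Equiv.mulRight h)
  intro g
  have h1 : Equiv.mulRight h g = g * h := rfl
  rw [h1]
  simp only [map_mul, Module.End.mul_apply]

theorem jordan_rep (hinj : Function.Injective ρ) :
    ∃ A : Subgroup G, A.Normal ∧ (∀ x ∈ A, ∀ y ∈ A, x * y = y * x) ∧
      ∀ H : Subgroup G, (∀ x ∈ H, ∀ y ∈ H, x * y = y * x) →
        (A.subgroupOf H).index ≤ 12 ^ n := by
  have h := jordan_core (avgCore ρ) ρ (fun g u => avgInner_map ρ g u u) hinj
  rwa [Module.finrank_fin_fun] at h

end Cfsg.Agent.Lib.Helper23.Jordan
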