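import Mathlib
import Cfsg.Agent.Lib.Helper23.MG2

/-!
Mackey's formula for `G = H Y` with `Y` normal.
-/

set_option autoImplicit false

namespace Cfsg.Agent.Lib.Helper23.QP

open Cfsg Cfsg.Agent.CharLib Cfsg.Agent.CharLib.H2
open Cfsg.Agent.Lib.Helper10 Cfsg.Agent.H25 Cfsg.Agent.Lib.Helper23
open scoped ComplexConjugate Pointwise

universe u

variable {G : Type u} [Group G] [Fintype G]

theorem exists_mul_of_sup (H Y : Subgroup G) [Y.Normal] (hHY : H ⊔ Y = ⊤) (x : G) :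
    ∃ t ∈ Y, ∃ h ∈ H, x = t * h := by
  have h1 : x ∈ ((Y ⊔ H : Subgroup G) : Set G) := by
    rw [sup_comm, hHY]; trivial
  rw [Subgroup.normal_mul] at h1
  obtain ⟨t, ht, h, hh, rfl⟩ := h1
  exact ⟨t, ht, h, hh, rfl⟩

theorem sum_mul_eq (H Y : Subgroup G) [Y.Normal] [Fintype Y] (hHY : H ⊔ Y = ⊤) (F : G → ℂ)
    (hF : ∀ x, ∀ h ∈ H, F (x * h) = F x) :
    (Nat.card (H ⊓ Y : Subgroup G) : ℂ) * ∑ x : G, F x = (Nat.card H : ℂ) * ∑ t : Y, F t := by
  classical
  letI : Fintype H := Fintype.ofFinite H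
  letI : Fintype (H ⊓ Y : Subgroup G) := Fintype.ofFinite _
  have h1 : ∑ p : Y × H, F ((p.1 : G) * p.2) = (Nat.card H : ℂ) * ∑ t : Y, F t := by
    rw [Fintype.sum_prod_type, Finset.mul_sum]
    refine Finset.sum_congr rfl fun t _ => ?_
    simp only [hF _ _ (Subtype.coe_prop _), Finset.sum_const, Finset.card_univ, nsmul_eq_mul,
      Nat.card_eq_fintype_card]
  have h2 : ∑ p : Y × H, F ((p.1 : G) * p.2) =
      ∑ x : G, ∑ p ∈ Finset.univ.filter (fun p : Y × H => (p.1 : G) * p.2 = x),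
        F ((p.1 : G) * p.2) := (Finset.sum_fiberwise _ _ _).symm
  rw [← h1, h2, Finset.mul_sum]
  refine Finset.sum_congr rfl fun x _ => ?_
  have h3 : ∑ p ∈ Finset.univ.filter (fun p : Y × H => (p.1 : G) * p.2 = x),
      F ((p.1 : G) * p.2) =
      ((Finset.univ.filter (fun p : Y × H => (p.1 : G) * p.2 = x)).card : ℂ) * F x := by
    rw [← nsmul_eq_mul, ← Finset.sum_const]
    refine Finset.sum_congr rfl fun p hp => ?_
    rw [(Finset.mem_filter.1 hp).2]
  rw [h3]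
  congr 2
  obtain ⟨t0, ht0, h0, hh0, rfl⟩ := exists_mul_of_sup H Y hHY x
  rw [Nat.card_eq_fintype_card, ← Finset.card_univ]
  apply Finset.card_bij
    (fun (z : (H ⊓ Y : Subgroup G)) _ => ((⟨t0 * z, Y.mul_mem ht0 z.2.2⟩ : Y),
      (⟨(z : G)⁻¹ * h0, H.mul_mem (H.inv_mem z.2.1) hh0⟩ : H)))
  · intro z _
    simp only [Finset.mem_filter, Finset.mem_univ, true_and]
    group
  · intro z _ z' _ hzz
    have := congrArg (fun p : Y × H => (p.1 : G)) hzz
    simp only [mul_right_inj] at this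
    exact Subtype.ext this
  · rintro ⟨t, h⟩ hp
    have hp' : (t : G) * h = t0 * h0 := (Finset.mem_filter.1 hp).2
    have e1 : t0⁻¹ * (t : G) = h0 * (h : G)⁻¹ := by
      rw [inv_mul_eq_iff_eq_mul, ← mul_assoc, ← hp']
      group
    refine ⟨⟨t0⁻¹ * t, ?_, Y.mul_mem (Y.inv_mem ht0) t.2⟩, Finset.mem_univ _, ?_⟩
    · rw [e1]
      exact H.mul_mem hh0 (H.inv_mem h.2)
    · apply Prod.ext
      · apply Subtype.ext
        simp
      · apply Subtype.ext
        simp only [e1]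
        group

/-- restriction of a function on `H` to `H ∩ Y`, seen inside `Y` -/
def resY (H Y : Subgroup G) (ϑ : H → ℂ) : H.subgroupOf Y → ℂ :=
  fun m => ϑ ⟨((m : Y) : G), Subgroup.mem_subgroupOf.1 m.2⟩

omit [Fintype G] in
theorem extendByZero_conj (H : Subgroup G) (ϑ : H → ℂ) (hϑ : IsClassFunction H ϑ) (z h : G)
    (hh : h ∈ H) : extendByZero H ϑ (h⁻¹ * z * h) = extendByZero H ϑ z := by
  by_cases hz : z ∈ H
  · rw [extendByZero_of_mem H ϑ hz,
      extendByZero_of_mem H ϑ (H.mul_mem (H.mul_mem (H.inv_mem hh) hz) hh)]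
    have := hϑ ⟨z, hz⟩ ⟨h, hh⟩⁻¹
    rw [← this]
    congr 1
    apply Subtype.ext
    simp
  · rw [extendByZero_of_not_mem H ϑ hz, extendByZero_of_not_mem]
    intro h1
    apply hz
    have := H.mul_mem (H.mul_mem hh h1) (H.inv_mem hh)
    have e : h * (h⁻¹ * z * h) * h⁻¹ = z := by group
    rwa [e] at this

theorem mackey (H Y : Subgroup G) [Y.Normal] [Fintype Y] (hHY : H ⊔ Y = ⊤) (ϑ : H → ℂ)
    (hϑ : IsClassFunction H ϑ) (y : Y) :
    indFun H ϑ (y : G) = indFun (H.subgroupOf Y) (resY H Y ϑ) y := by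
  have hF := sum_mul_eq H Y hHY (fun x => extendByZero H ϑ (x⁻¹ * y * x)) (by
    intro x h hh
    have e : (x * h)⁻¹ * (y : G) * (x * h) = h⁻¹ * (x⁻¹ * y * x) * h := by group
    simp only [e]
    exact extendByZero_conj H ϑ hϑ _ h hh)
  have hext : ∀ t : Y, extendByZero (H.subgroupOf Y) (resY H Y ϑ) (t⁻¹ * y * t) =
      extendByZero H ϑ ((t : G)⁻¹ * y * t) := by
    intro t
    by_cases hz : (t : G)⁻¹ * y * t ∈ H
    · have hz' : t⁻¹ * y * t ∈ H.subgroupOf Y := Subgroup.mem_subgroupOf.2 (by simpa using hz)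
      rw [extendByZero_of_mem _ _ hz, extendByZero_of_mem _ _ hz']
      rfl
    · have hz' : t⁻¹ * y * t ∉ H.subgroupOf Y := fun h => hz (by
        simpa using Subgroup.mem_subgroupOf.1 h)
      rw [extendByZero_of_not_mem _ _ hz, extendByZero_of_not_mem _ _ hz']
  have hcard : Nat.card (H.subgroupOf Y) = Nat.card (H ⊓ Y : Subgroup G) := by
    rw [← Subgroup.inf_subgroupOf_right]
    exact Nat.card_congr (Subgroup.subgroupOfEquivOfLe inf_le_right).toEquiv
  rw [indFun, indFun, hcard]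
  simp only [hext]
  have h1 : (Nat.card H : ℂ) ≠ 0 := card_subgroup_ne_zero H
  have h2 : (Nat.card (H ⊓ Y : Subgroup G) : ℂ) ≠ 0 := card_subgroup_ne_zero _
  field_simp
  rw [mul_comm, hF, mul_comm]

end Cfsg.Agent.Lib.Helper23.QP
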