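import Mathlib
import Cfsg.Agent.Lib.Helper23.QP1

/-!
Auxiliary lemmas: irreducibility from a pullback, and a vanishing argument.
-/

set_option autoImplicit false

namespace Cfsg.Agent.Lib.Helper23.QP

open Cfsg Cfsg.Agent.CharLib Cfsg.Agent.CharLib.H2
open Cfsg.Agent.Lib.Helper10 Cfsg.Agent.H25 Cfsg.Agent.Lib.Helper23 Cfsg.Agent.Lib.Helper23.MG
open scoped ComplexConjugate Pointwise

universe u

/-- a character with an irreducible pullback is irreducible -/
theorem irr_of_comp {A B : Type u} [Group A] [Group B] [Fintype A] [Fintype B] (f : B →* A)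
    {α : A → ℂ} (hα : IsCharacter A α) (h : IsIrrCharacter B (fun x => α (f x))) :
    IsIrrCharacter A α := by
  have h1 : α 1 ≠ 0 := by
    have := irr_apply_one_ne_zero ⟨_, h⟩
    simpa using this
  have hne : α ≠ 0 := fun h0 => h1 (by rw [h0]; rfl)
  obtain ⟨γ, hγ⟩ := exists_constituent hα hne
  have hδ := isCharacter_sub_irr hα γ.2 hγ
  have hγf : IsCharacter B (fun x => (γ : A → ℂ) (f x)) := isCharacter_comp (isCharacter_of_irr γ.2) f
  have hδf : IsCharacter B (fun x => (α - (γ : A → ℂ)) (f x)) := isCharacter_comp hδ f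
  have hγ1 : (γ : A → ℂ) 1 ≠ 0 := irr_apply_one_ne_zero γ
  have hγne : (fun x => (γ : A → ℂ) (f x)) ≠ 0 := fun h0 => hγ1 (by
    have := congrFun h0 1
    simpa using this)
  obtain ⟨β, hβ⟩ := exists_constituent hγf hγne
  have hsum : (fun x => α (f x)) = (fun x => (γ : A → ℂ) (f x)) + fun x => (α - (γ : A → ℂ)) (f x) := by
    funext x
    simp
  obtain ⟨n1, hn1⟩ := classInner_char_nat hγf (isCharacter_of_irr β.2)
  obtain ⟨n2, hn2⟩ := classInner_char_nat hδf (isCharacter_of_irr β.2)
  have hιβ : classInner (fun x => α (f x)) (β : B → ℂ) ≠ 0 := by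
    rw [hsum, classInner_add_left, hn1, hn2]
    rw [hn1] at hβ
    have : n1 ≠ 0 := by exact_mod_cast hβ
    exact_mod_cast (by omega : n1 + n2 ≠ 0)
  have heq : (fun x => α (f x)) = (β : B → ℂ) := by
    by_contra hne'
    exact hιβ (classInner_irr_ne h β.2 hne')
  rw [← heq] at hβ
  have hle := charDegree_le_of_constituent hγf h hβ
  obtain ⟨n, hn⟩ := isCharacter_apply_one hδ
  have e1 : ((charDegree (fun x => α (f x)) : ℕ) : ℂ) = α 1 := by
    rw [charDegree_cast (isCharacter_of_irr h)]; simp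
  have e2 : ((charDegree (fun x => (γ : A → ℂ) (f x)) : ℕ) : ℂ) = (γ : A → ℂ) 1 := by
    rw [charDegree_cast hγf]; simp
  have e3 : ((charDegree (fun x => α (f x)) : ℕ) : ℂ) =
      ((charDegree (fun x => (γ : A → ℂ) (f x)) + n : ℕ) : ℂ) := by
    push_cast
    rw [e1, e2, ← hn]
    simp
  have e4 : charDegree (fun x => α (f x)) = charDegree (fun x => (γ : A → ℂ) (f x)) + n := by
    exact_mod_cast e3
  have hn0 : n = 0 := by omega
  rw [hn0, Nat.cast_zero] at hn
  have := eq_zero_of_apply_one hδ hn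
  rw [sub_eq_zero] at this
  rw [this]
  exact γ.2

/-- vanishing argument -/
theorem le_of_full {X : Type u} [Group X] [Fintype X] (M C : Subgroup X) (hCM : C ≤ M)
    {η : X → ℂ} (hη : IsIrrCharacter X η) {μ : M → ℂ} (hμ : IsIrrCharacter M μ) (c : ℕ)
    (hres : ∀ m : M, η m = c * μ m) (hc : c ^ 2 = M.index)
    (hμC : IsIrrCharacter C (fun x : C => μ ⟨x, hCM x.2⟩))
    (hvan : ∀ m ∈ M, m ∉ C → ∃ t : X, t * m * t⁻¹ ∉ M) : M ≤ C := by
  classical
  letI : Fintype M := Fintype.ofFinite M
  have hc0 : (c : ℂ) ≠ 0 := by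
    have : c ≠ 0 := by
      rintro rfl
      have := Subgroup.index_ne_zero_of_finite (H := M)
      simp at hc
      exact this hc.symm
    exact_mod_cast this
  have s1 := Cfsg.Agent.H6.card_mul_classInner_split M η η
  have e1 : (fun n : M => η n) = (c : ℂ) • μ := by
    funext m
    exact hres m
  rw [classInner_irr_self hη, e1, classInner_smul_left, classInner_smul_right,
    classInner_irr_self hμ, mul_one, mul_one, Complex.conj_natCast] at s1
  have e2 : (Nat.card X : ℂ) = (Nat.card M : ℂ) * ((c : ℂ) * c) := by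
    rw [← M.card_mul_index, ← hc]
    push_cast
    ring
  rw [e2] at s1
  have s2 : ∑ g ∈ Finset.univ.filter (fun g => g ∉ M), η g * conj (η g) = 0 := by
    have := s1
    linear_combination -this
  have hoff : ∀ g, g ∉ M → η g = 0 := by
    intro g hg
    have s3 : ∑ g ∈ Finset.univ.filter (fun g => g ∉ M), Complex.normSq (η g) = 0 := by
      have : ((∑ g ∈ Finset.univ.filter (fun g => g ∉ M), Complex.normSq (η g) : ℝ) : ℂ) = 0 := by
        rw [← s2]
        push_cast
        refine Finset.sum_congr rfl fun g _ => ?_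
        rw [Complex.mul_conj]
      exact_mod_cast this
    have := (Finset.sum_eq_zero_iff_of_nonneg (fun g _ => Complex.normSq_nonneg (η g))).1 s3 g
      (Finset.mem_filter.2 ⟨Finset.mem_univ _, hg⟩)
    exact Complex.normSq_eq_zero.1 this
  have hμ0 : ∀ m : M, (m : X) ∉ C → μ m = 0 := by
    intro m hm
    obtain ⟨t, ht⟩ := hvan m m.2 hm
    have h1 := hoff _ ht
    rw [isClassFunction_of_irr hη, hres m] at h1
    exact (mul_eq_zero.1 h1).resolve_left hc0
  letI : Fintype (C.subgroupOf M) := Fintype.ofFinite _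
  have s4 := Cfsg.Agent.H6.card_mul_classInner_split (C.subgroupOf M) μ μ
  have hirr : IsIrrCharacter (C.subgroupOf M) (fun n : C.subgroupOf M => μ n) :=
    isIrrCharacter_comp_of_surjective hμC (Subgroup.subgroupOfEquivOfLe hCM).toMonoidHom
      (Subgroup.subgroupOfEquivOfLe hCM).surjective
  rw [classInner_irr_self hμ, classInner_irr_self hirr, mul_one, mul_one] at s4
  have s5 : ∑ g ∈ Finset.univ.filter (fun g => g ∉ C.subgroupOf M), μ g * conj (μ g) = 0 := by
    apply Finset.sum_eq_zero
    intro g hg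
    have : (g : X) ∉ C := fun h => (Finset.mem_filter.1 hg).2 (Subgroup.mem_subgroupOf.2 h)
    rw [hμ0 g this, zero_mul]
  rw [s5, add_zero] at s4
  have s6 : Nat.card (C.subgroupOf M) = Nat.card M := by exact_mod_cast s4.symm
  exact Subgroup.subgroupOf_eq_top.1 (Subgroup.eq_top_of_card_eq _ s6)

end Cfsg.Agent.Lib.Helper23.QP
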