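import Mathlib
import Cfsg.Agent.Lib.Helper23.QP2
import Cfsg.Agent.S0887

/-!
The core contradiction for a fully ramified section with a coprime supplement.
-/

set_option autoImplicit false

namespace Cfsg.Agent.Lib.Helper23.QP

open Cfsg Cfsg.Agent.CharLib Cfsg.Agent.CharLib.H2
open Cfsg.Agent.Lib.Helper10 Cfsg.Agent.H25 Cfsg.Agent.Lib.Helper23 Cfsg.Agent.Lib.Helper23.MG
open scoped ComplexConjugate Pointwise

universe u

theorem eq_smul_of_degree {A : Type u} [Group A] [Fintype A] {α : A → ℂ} (hα : IsCharacter A α)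
    {μ : A → ℂ} (hμ : IsIrrCharacter A μ) (c : ℕ) (h : classInner α μ = c)
    (hdeg : α 1 = c * μ 1) : α = (c : ℂ) • μ := by
  classical
  obtain ⟨m, hm, hm2⟩ := exists_mult hα
  have hmμ : m ⟨μ, hμ⟩ = c := by
    have := hm2 ⟨μ, hμ⟩
    rw [h] at this
    exact_mod_cast this.symm
  have hsum : ∑ γ : IrrCharacter A, m γ * charDegree (γ : A → ℂ) = c * charDegree μ := by
    have h1 := congrFun hm 1
    rw [hdeg] at h1
    simp only [Finset.sum_apply, Pi.smul_apply, smul_eq_mul] at h1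
    have : ((∑ γ : IrrCharacter A, m γ * charDegree (γ : A → ℂ) : ℕ) : ℂ) =
        ((c * charDegree μ : ℕ) : ℂ) := by
      push_cast
      rw [charDegree_cast (isCharacter_of_irr hμ), h1]
      refine Finset.sum_congr rfl fun γ _ => ?_
      rw [charDegree_cast_irr]
    exact_mod_cast this
  rw [← Finset.add_sum_erase _ _ (Finset.mem_univ (⟨μ, hμ⟩ : IrrCharacter A)), hmμ] at hsum
  have hz : ∑ γ ∈ Finset.univ.erase (⟨μ, hμ⟩ : IrrCharacter A),
      m γ * charDegree (γ : A → ℂ) = 0 := by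
    have : c * charDegree ((⟨μ, hμ⟩ : IrrCharacter A) : A → ℂ) = c * charDegree μ := rfl
    omega
  have hz2 : ∀ γ : IrrCharacter A, γ ≠ ⟨μ, hμ⟩ → m γ = 0 := by
    intro γ hγ
    have := (Finset.sum_eq_zero_iff.1 hz) γ (Finset.mem_erase.2 ⟨hγ, Finset.mem_univ _⟩)
    rcases Nat.mul_eq_zero.1 this with h | h
    · exact h
    · exact absurd h (charDegree_pos_irr γ).ne'
  rw [hm, Finset.sum_eq_single (⟨μ, hμ⟩ : IrrCharacter A), hmμ]
  · intro γ _ hγ
    rw [hz2 γ hγ]
    simp
  · intro h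
    exact absurd (Finset.mem_univ _) h

theorem core {X : Type u} [Group X] [Fintype X] (M K : Subgroup X) [hK : K.Normal] [Fintype K]
    (hsup : M ⊔ K = ⊤) (hL : (M ⊓ K).Normal) (hMn : ¬ M.Normal)
    {μ : M → ℂ} (hμ : IsIrrCharacter M μ) (hψ : IsIrrCharacter (M.subgroupOf K) (resY M K μ))
    {η : X → ℂ} (hη : IsIrrCharacter X η) (c : ℕ) (h1 : indFun M μ = (c : ℂ) • η)
    {φ : K → ℂ} (hφ : IsIrrCharacter K φ) (z : ℂ) (h2 : ∀ k : K, η k = z * φ k)
    (b : ℂ) (h3 : ∀ w : M.subgroupOf K, φ w = b * resY M K μ w)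
    (h4 : Nat.Coprime K.index (M.subgroupOf K).index) : False := by
  classical
  letI : Fintype M := Fintype.ofFinite M
  letI : Fintype (M.subgroupOf K) := Fintype.ofFinite _
  obtain ⟨nη, hnη⟩ : ∃ n : ℕ, η 1 = n := isCharacter_apply_one (isCharacter_of_irr hη)
  obtain ⟨nφ, hnφ⟩ : ∃ n : ℕ, φ 1 = n := isCharacter_apply_one (isCharacter_of_irr hφ)
  obtain ⟨nψ, hnψ⟩ : ∃ n : ℕ, μ 1 = n := isCharacter_apply_one (isCharacter_of_irr hμ)
  have hψ1 : resY M K μ 1 = nψ := hnψ
  have hη0 : (nη : ℂ) ≠ 0 := hnη ▸ irr_apply_one_ne_zero ⟨η, hη⟩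
  have hφ0 : (nφ : ℂ) ≠ 0 := hnφ ▸ irr_apply_one_ne_zero ⟨φ, hφ⟩
  have hψ0 : (nψ : ℂ) ≠ 0 := hnψ ▸ irr_apply_one_ne_zero ⟨μ, hμ⟩
  have hmk : indFun (M.subgroupOf K) (resY M K μ) = ((c : ℂ) * z) • φ := by
    funext k
    rw [← mackey M K hsup μ (isClassFunction_of_irr hμ) k, h1]
    simp only [Pi.smul_apply, smul_eq_mul, h2]
    ring
  have hfr := frobenius_reciprocity (M.subgroupOf K) (resY M K μ) (isClassFunction_of_irr hφ)
  have e3 : (fun w : M.subgroupOf K => φ w) = b • resY M K μ := by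
    funext w
    exact h3 w
  rw [hmk, classInner_smul_left, classInner_irr_self hφ, e3, classInner_smul_right,
    classInner_irr_self hψ, mul_one, mul_one] at hfr
  have hb : (nφ : ℂ) = b * nψ := by
    have := h3 1
    rw [hψ1] at this
    rw [← hnφ]
    exact this
  have hb' : b = nφ / nψ := by
    field_simp
    exact hb.symm
  have hbc : conj b = b := by
    rw [hb']
    simp
  rw [hbc] at hfr
  have hd1 := congrFun hmk 1
  rw [indFun_apply_one, hψ1, Pi.smul_apply, smul_eq_mul, hnφ, hfr] at hd1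
  have hz : (nη : ℂ) = z * nφ := by
    have := h2 1
    rw [← hnη, ← hnφ]
    exact this
  have hz0 : z ≠ 0 := by
    rintro rfl
    rw [zero_mul] at hz
    exact hη0 hz
  have hcon : classInner (fun n : K => η n) φ ≠ 0 := by
    have : (fun n : K => η n) = z • φ := by
      funext k
      exact h2 k
    rw [this, classInner_smul_left, classInner_irr_self hφ, mul_one]
    exact hz0
  obtain ⟨⟨a, ha⟩, hdiv⟩ := Cfsg.Agent.S0887.result K η hη φ hφ hcon nη nφ hnη hnφ
  have hφpos : 0 < nφ := Nat.pos_of_ne_zero (by exact_mod_cast hφ0)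
  rw [ha, Nat.mul_div_cancel_left _ hφpos] at hdiv
  have hza : z = a := by
    rw [ha] at hz
    push_cast at hz
    have : (nφ : ℂ) * a = nφ * z := by rw [hz]; ring
    exact (mul_left_cancel₀ hφ0 this).symm
  -- `c a nψ = nφ`
  have k1 : c * a * nψ = nφ := by
    have : ((c * a * nψ : ℕ) : ℂ) = nφ := by
      push_cast
      rw [← hza, hfr, hb]
    exact_mod_cast this
  have k2 : (M.subgroupOf K).index * nψ = c * a * nφ := by
    have : (((M.subgroupOf K).index * nψ : ℕ) : ℂ) = ((c * a * nφ : ℕ) : ℂ) := by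
      push_cast
      rw [hd1, ← hfr, hza]
    exact_mod_cast this
  have hψpos : 0 < nψ := Nat.pos_of_ne_zero (by exact_mod_cast hψ0)
  have k3 : (M.subgroupOf K).index = (c * a) ^ 2 := by
    rw [← k1] at k2
    have : (M.subgroupOf K).index * nψ = (c * a) ^ 2 * nψ := by rw [k2]; ring
    exact Nat.eq_of_mul_eq_mul_right hψpos this
  have ha1 : a = 1 := by
    have h5 : a ∣ (M.subgroupOf K).index := by
      rw [k3]
      exact Dvd.intro_left (c * (c * a)) (by ring)
    exact Nat.eq_one_of_dvd_coprimes h4 hdiv h5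
  subst ha1
  rw [mul_one] at k1 ha
  have hd2 := congrFun h1 1
  rw [indFun_apply_one, hnψ, Pi.smul_apply, smul_eq_mul, hnη] at hd2
  have k4 : c ^ 2 = M.index := by
    have : M.index * nψ = c * nη := by exact_mod_cast hd2
    rw [ha, ← k1] at this
    have h6 : M.index * nψ = c ^ 2 * nψ := by rw [this]; ring
    exact (Nat.eq_of_mul_eq_mul_right hψpos h6).symm
  have hfr2 := frobenius_reciprocity M μ (isClassFunction_of_irr hη)
  rw [h1, classInner_smul_left, classInner_irr_self hη, mul_one] at hfr2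
  have hin : classInner (fun m : M => η m) μ = c := by
    rw [← classInner_conj_symm, ← hfr2]
    simp
  have hres := eq_smul_of_degree (isCharacter_restrict (isCharacter_of_irr hη) M) hμ c hin (by
    show η 1 = c * μ 1
    rw [hnη, hnψ, ha, ← k1]
    push_cast
    ring)
  have hLle : M ⊓ K ≤ M.normalCore := (Subgroup.normal_le_normalCore).2 inf_le_left
  have hCM : M.normalCore ≤ M := Subgroup.normalCore_le M
  letI : Fintype M.normalCore := Fintype.ofFinite _
  let f : M.subgroupOf K →* M.normalCore :=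
    { toFun := fun w => ⟨((w : K) : X), hLle ⟨Subgroup.mem_subgroupOf.1 w.2, (w : K).2⟩⟩
      map_one' := rfl
      map_mul' := fun _ _ => rfl }
  have hμC : IsIrrCharacter M.normalCore (fun x : M.normalCore => μ ⟨x, hCM x.2⟩) :=
    irr_of_comp f (isCharacter_comp (isCharacter_of_irr hμ) (Subgroup.inclusion hCM)) hψ
  have hle := le_of_full M M.normalCore hCM hη hμ c (fun m => congrFun hres m) k4 hμC (by
    intro m _ hm
    by_contra hcon
    push Not at hcon
    exact hm hcon)
  have : M.normalCore = M := le_antisymm hCM hle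
  exact hMn (this ▸ M.normalCore_normal)

end Cfsg.Agent.Lib.Helper23.QP
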