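import Mathlib
import Cfsg.Agent.Lib.Helper23.QP1
import Cfsg.Agent.Lib.Helper10.Descend
import Cfsg.Agent.H4.Nilp
import Cfsg.Agent.S0043

/-!
Group theory around a maximal subgroup with solvable quotient by its core.
-/

set_option autoImplicit false

namespace Cfsg.Agent.Lib.Helper23.QP

open Cfsg Cfsg.Agent.Lib.Helper10

universe u

variable {G : Type u} [Group G] [Fintype G]

theorem normal_of_sup (H K W : Subgroup G) [K.Normal] (hHK : H ⊔ K = ⊤)
    (h1 : ∀ h ∈ H, ∀ w ∈ W, h * w * h⁻¹ ∈ W) (h2 : ∀ k ∈ K, ∀ w ∈ W, k * w * k⁻¹ ∈ W) :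
    W.Normal := by
  refine ⟨fun w hw g => ?_⟩
  obtain ⟨t, ht, h, hh, rfl⟩ := exists_mul_of_sup H K hHK g
  have := h2 t ht _ (h1 h hh w hw)
  have e : t * h * w * (t * h)⁻¹ = t * (h * w * h⁻¹) * t⁻¹ := by group
  rwa [e]

theorem false_of_normalizes (H K X : Subgroup G) [K.Normal] [hX : X.Normal] (hHK : H ⊔ K = ⊤)
    (hKX : K < X) (hcore : H.normalCore ≤ K)
    (h : ∀ k ∈ K, ∀ w ∈ H ⊓ X, k * w * k⁻¹ ∈ H) : False := by
  have hW : (H ⊓ X).Normal := normal_of_sup H K (H ⊓ X) hHK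
    (fun h hh w hw => ⟨H.mul_mem (H.mul_mem hh hw.1) (H.inv_mem hh), hX.conj_mem w hw.2 h⟩)
    (fun k hk w hw => ⟨h k hk w hw, hX.conj_mem w hw.2 k⟩)
  have h1 : H ⊓ X ≤ H.normalCore := Subgroup.normal_le_normalCore.2 inf_le_left
  apply not_le_of_gt hKX
  intro x hx
  obtain ⟨t, ht, h', hh', rfl⟩ := exists_mul_of_sup H K hHK x
  have : h' ∈ X := by
    have := X.mul_mem (X.inv_mem (hKX.le ht)) hx
    simpa using this
  exact K.mul_mem ht (hcore (h1 ⟨hh', this⟩))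

theorem chief_prime (N K : Subgroup G) [hN : N.Normal] [hK : K.Normal] (hNK : N < K)
    (hs : Group.IsSolvable (G ⧸ N))
    (hchief : ∀ M : Subgroup G, M.Normal → N ≤ M → M ≤ K → M = N ∨ M = K) :
    ∃ p : ℕ, p.Prime ∧ ∀ x ∈ K, x ^ p ∈ N := by
  have hπ := QuotientGroup.mk'_surjective N
  have hKn : (K.map (QuotientGroup.mk' N)).Normal := hK.map _ hπ
  have hne : K.map (QuotientGroup.mk' N) ≠ ⊥ := by
    intro h4
    rw [Subgroup.map_eq_bot_iff, QuotientGroup.ker_mk'] at h4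
    exact absurd hNK (not_lt_of_ge h4)
  have hmin : ∀ M : Subgroup (G ⧸ N), M.Normal → M ≤ K.map (QuotientGroup.mk' N) →
      M = ⊥ ∨ M = K.map (QuotientGroup.mk' N) := by
    intro M hM hMK
    have h1 : (M.comap (QuotientGroup.mk' N)).Normal := hM.comap _
    have h2 : N ≤ M.comap (QuotientGroup.mk' N) := by
      intro n hn
      rw [Subgroup.mem_comap]
      have : QuotientGroup.mk' N n = 1 := (QuotientGroup.eq_one_iff n).2 hn
      rw [this]; exact M.one_mem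
    have h3 : M.comap (QuotientGroup.mk' N) ≤ K := by
      have := Subgroup.comap_mono (f := QuotientGroup.mk' N) hMK
      rwa [Subgroup.comap_map_eq_self (by rw [QuotientGroup.ker_mk']; exact hNK.le)] at this
    rcases hchief _ h1 h2 h3 with h | h
    · left
      rw [← Subgroup.map_comap_eq_self_of_surjective hπ M, h, QuotientGroup.map_mk'_self]
    · right
      rw [← Subgroup.map_comap_eq_self_of_surjective hπ M, h]
  obtain ⟨-, p, hp, hx⟩ := Cfsg.Agent.S0043.result (K.map (QuotientGroup.mk' N)) hne hmin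
  refine ⟨p, hp, fun x hxK => ?_⟩
  have := hx _ (Subgroup.mem_map_of_mem _ hxK)
  rw [← map_pow] at this
  exact (QuotientGroup.eq_one_iff _).1 this

theorem relIndex_eq_pow (N K : Subgroup G) [N.Normal] {p : ℕ} (hp : p.Prime)
    (h : ∀ x ∈ K, x ^ p ∈ N) : ∃ k, N.relIndex K = p ^ k := by
  haveI : Fact p.Prime := ⟨hp⟩
  have : IsPGroup p (K ⧸ N.subgroupOf K) := by
    intro q
    obtain ⟨x, rfl⟩ := QuotientGroup.mk_surjective q
    refine ⟨1, ?_⟩
    rw [pow_one, ← QuotientGroup.mk_pow, QuotientGroup.eq_one_iff]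
    exact Subgroup.mem_subgroupOf.2 (by simpa using h x x.2)
  obtain ⟨k, hk⟩ := IsPGroup.iff_card.1 this
  exact ⟨k, by rw [Subgroup.relIndex, Subgroup.index_eq_card]; exact hk⟩

theorem coprime_of_chief (H K X L0 : Subgroup G) [hK : K.Normal] [hX : X.Normal] [hL0n : L0.Normal]
    (hL0 : L0 = H.normalCore) (hHK : H ⊔ K = ⊤)
    (hLK : L0 < K) (hKX : K < X) (hs : Group.IsSolvable (G ⧸ L0))
    (hc1 : ∀ M : Subgroup G, M.Normal → L0 ≤ M → M ≤ K → M = L0 ∨ M = K)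
    (hc2 : ∀ M : Subgroup G, M.Normal → K ≤ M → M ≤ X → M = K ∨ M = X) :
    Nat.Coprime (K.relIndex X) (L0.relIndex K) := by
  have hL0H : L0 ≤ H := hL0 ▸ H.normalCore_le
  obtain ⟨p, hp, hpK⟩ := chief_prime L0 K hLK hs hc1
  obtain ⟨r, hr, hrX⟩ := chief_prime K X hKX (isSolvable_quotient_of_le L0 K hLK.le hs) hc2
  obtain ⟨k, hk⟩ := relIndex_eq_pow L0 K hp hpK
  obtain ⟨j, hj⟩ := relIndex_eq_pow K X hr hrX
  rw [hk, hj]
  by_cases hpr : r = p
  swap
  · exact Nat.Coprime.pow _ _ ((Nat.coprime_primes hr hp).2 hpr)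
  exfalso
  subst hpr
  haveI : Fact r.Prime := ⟨hr⟩
  apply false_of_normalizes H K X hHK hKX (hL0 ▸ hLK.le)
  have hπ := QuotientGroup.mk'_surjective L0
  obtain ⟨π, hπdef⟩ : ∃ π : G →* G ⧸ L0, π = QuotientGroup.mk' L0 := ⟨_, rfl⟩
  rw [← hπdef] at hπ
  have hker : ∀ g, π g = 1 ↔ g ∈ L0 := fun g => by rw [hπdef]; exact QuotientGroup.eq_one_iff g
  have hKn : (K.map π).Normal := hK.map _ hπ
  have hXn : (X.map π).Normal := hX.map _ hπ
  have hpg : IsPGroup r (X.map π) := by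
    rintro ⟨q, x, hx, rfl⟩
    refine ⟨2, Subtype.ext ?_⟩
    show (π x) ^ (r ^ 2) = 1
    rw [← map_pow, hker, pow_two, pow_mul]
    exact hpK _ (hrX x hx)
  have hnil : Group.IsNilpotent (X.map π) := hpg.isNilpotent
  obtain ⟨k0, hk0K, hk0L⟩ := SetLike.exists_of_lt hLK
  have hne : (K.map π).subgroupOf (X.map π) ≠ ⊥ := by
    intro h
    have h1 : (⟨π k0, Subgroup.mem_map_of_mem π (hKX.le hk0K)⟩ : X.map π) ∈
        (K.map π).subgroupOf (X.map π) := Subgroup.mem_subgroupOf.2 (Subgroup.mem_map_of_mem π hk0K)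
    rw [h, Subgroup.mem_bot] at h1
    exact hk0L ((hker k0).1 (congrArg Subtype.val h1))
  have hcen := Cfsg.Agent.H4.normal_inf_center_ne_bot _ hne
  obtain ⟨⟨q, hq⟩, hq1⟩ := (Subgroup.ne_bot_iff_exists_ne_one).1 hcen
  have hq1' : q ≠ 1 := fun h => hq1 (Subtype.ext h)
  obtain ⟨hqK, hqZ⟩ := Subgroup.mem_inf.1 hq
  have hqK' : (q : G ⧸ L0) ∈ K.map π := Subgroup.mem_subgroupOf.1 hqK
  have hqC : (q : G ⧸ L0) ∈ Subgroup.centralizer ((X.map π : Subgroup (G ⧸ L0)) : Set (G ⧸ L0)) := by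
    rw [Subgroup.mem_centralizer_iff]
    intro y hy
    have := (Subgroup.mem_center_iff.1 hqZ) ⟨y, hy⟩
    exact congrArg Subtype.val this
  obtain ⟨Zb, hZb⟩ : ∃ Zb : Subgroup (G ⧸ L0), Zb = K.map π ⊓
      Subgroup.centralizer ((X.map π : Subgroup (G ⧸ L0)) : Set (G ⧸ L0)) := ⟨_, rfl⟩
  have hZbn : Zb.Normal := by rw [hZb]; infer_instance
  have hZn : (Zb.comap π).Normal := hZbn.comap π
  have hZ1 : L0 ≤ Zb.comap π := by
    intro n hn
    rw [Subgroup.mem_comap, (hker n).2 hn]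
    exact Zb.one_mem
  have hZ2 : Zb.comap π ≤ K := by
    intro g hg
    rw [Subgroup.mem_comap, hZb] at hg
    obtain ⟨k1, hk1, hk1g⟩ := hg.1
    have : k1⁻¹ * g ∈ L0 := by
      rw [← hker, map_mul, map_inv, hk1g, inv_mul_cancel]
    have h2 := K.mul_mem hk1 (hLK.le this)
    simpa using h2
  have hZK : Zb.comap π = K := by
    rcases hc1 _ hZn hZ1 hZ2 with h | h
    · exfalso
      obtain ⟨k1, hk1, hk1q⟩ := id hqK'
      have h3 : k1 ∈ Zb.comap π := by
        rw [Subgroup.mem_comap, hk1q, hZb]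
        exact ⟨hqK', hqC⟩
      rw [h, ← hker, hk1q] at h3
      exact hq1' (Subtype.ext h3)
    · exact h
  intro k hk w hw
  have h4 : π k ∈ Zb := by
    have : k ∈ Zb.comap π := by rw [hZK]; exact hk
    exact this
  rw [hZb] at h4
  have h5 := (Subgroup.mem_centralizer_iff.1 h4.2) (π w) (Subgroup.mem_map_of_mem π hw.2)
  have h6 : k * w * k⁻¹ * w⁻¹ ∈ L0 := by
    rw [← hker, map_mul, map_mul, map_mul, map_inv, map_inv, ← h5]
    group
  have h7 := H.mul_mem (hL0H h6) hw.1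
  simpa using h7

end Cfsg.Agent.Lib.Helper23.QP
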