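import Mathlib
import Cfsg.Agent.Lib.Helper23.QP3
import Cfsg.Agent.Lib.Helper23.QP4

/-!
Induction from a maximal subgroup and quasi-primitivity.
-/

set_option autoImplicit false

namespace Cfsg.Agent.Lib.Helper23.QP

open Cfsg Cfsg.Agent.CharLib Cfsg.Agent.CharLib.H2
open Cfsg.Agent.Lib.Helper10 Cfsg.Agent.H25 Cfsg.Agent.Lib.Helper23 Cfsg.Agent.Lib.Helper23.MG
open scoped ComplexConjugate Pointwise

universe u

variable {G : Type u} [Group G] [Fintype G]

theorem classInner_res_ne_zero (H : Subgroup G) [Fintype H] {ϑ : H → ℂ}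
    (hind : IsIrrCharacter G (indFun H ϑ)) :
    classInner (fun t : H => indFun H ϑ t) ϑ ≠ 0 := by
  have := frobenius_reciprocity H ϑ (isClassFunction_of_irr hind)
  rw [classInner_irr_self hind] at this
  rw [← classInner_conj_symm, ← this]
  simp

/-- a homogeneous restriction is a multiple of any given constituent -/
theorem eq_of_homog {A : Type u} [Group A] [Fintype A] {α ψ φ : A → ℂ} (hψ : IsIrrCharacter A ψ)
    (hφ : IsIrrCharacter A φ) (e : ℕ) (h : α = (e : ℂ) • φ) (hc : classInner α ψ ≠ 0) : φ = ψ := by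
  by_contra hne
  apply hc
  rw [h, classInner_smul_left, classInner_irr_ne hφ hψ hne, mul_zero]

theorem false_of_normal (H : Subgroup G) (hH : H.Normal) (hHtop : H ≠ ⊤) {ϑ : H → ℂ}
    (hϑ : IsIrrCharacter H ϑ) (hind : IsIrrCharacter G (indFun H ϑ))
    (hom : ∃ (φ : H → ℂ) (e : ℕ), IsIrrCharacter H φ ∧ (fun m : H => indFun H ϑ m) = (e : ℂ) • φ) :
    False := by
  classical
  letI : Fintype H := Fintype.ofFinite H
  obtain ⟨φ, e, hφ, he⟩ := hom
  have h1 := classInner_res_ne_zero H hind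
  have h2 := eq_of_homog hϑ hφ e he h1
  subst h2
  have h3 := frobenius_reciprocity H φ (isClassFunction_of_irr hind)
  rw [classInner_irr_self hind, he, classInner_smul_right, classInner_irr_self hϑ, mul_one,
    Complex.conj_natCast] at h3
  have h4 := congrFun he 1
  simp only [Pi.smul_apply, smul_eq_mul, ← h3, one_mul] at h4
  have h5 : indFun H φ ((1 : H) : G) = (H.index : ℂ) * φ 1 := indFun_apply_one H φ
  rw [h4] at h5
  have h6 : φ 1 ≠ 0 := irr_apply_one_ne_zero ⟨φ, hϑ⟩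
  have h7 : (H.index : ℂ) = 1 := by
    have : (1 : ℂ) * φ 1 = (H.index : ℂ) * φ 1 := by rw [one_mul]; exact h5
    exact (mul_right_cancel₀ h6 this).symm
  have h8 : H.index = 1 := by exact_mod_cast h7
  exact hHtop (Subgroup.index_eq_one.1 h8)

theorem main (L H : Subgroup G) [hLn : L.Normal] (hLH : L ≤ H) (hmax : IsCoatom H)
    (hsolv : Group.IsSolvable (G ⧸ L)) (ϑ : H → ℂ) (hϑ : IsIrrCharacter H ϑ)
    (hϑL : IsIrrCharacter L (fun x : L => ϑ ⟨(x : G), hLH x.2⟩))
    (hind : IsIrrCharacter G (indFun H ϑ))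
    (hom : ∀ M : Subgroup G, M.Normal → L ≤ M → ∃ (φ : M → ℂ) (e : ℕ), IsIrrCharacter M φ ∧
      (fun m : M => indFun H ϑ m) = (e : ℂ) • φ) : False := by
  classical
  letI : Fintype H := Fintype.ofFinite H
  obtain ⟨L0, hL0⟩ : ∃ L0, L0 = H.normalCore := ⟨_, rfl⟩
  have hL0n : L0.Normal := hL0 ▸ H.normalCore_normal
  have hL0H : L0 ≤ H := hL0 ▸ H.normalCore_le
  have hLL0 : L ≤ L0 := hL0 ▸ Subgroup.normal_le_normalCore.2 hLH
  have hs0 : Group.IsSolvable (G ⧸ L0) := isSolvable_quotient_of_le L L0 hLL0 hsolv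
  have hL0top : L0 ≠ ⊤ := fun h => hmax.1 (top_le_iff.1 (h ▸ hL0H))
  obtain ⟨K, hKn, hLK, hc1⟩ := exists_chief L0 hL0top
  have hKH : ¬ K ≤ H := fun h =>
    absurd hLK (not_lt_of_ge (hL0 ▸ Subgroup.normal_le_normalCore.2 h))
  have hHK : H ⊔ K = ⊤ := hmax.2 _ (left_lt_sup.2 hKH)
  have hKK : ⁅K, K⁆ ≤ L0 := commutator_le_of_chief L0 K hLK hs0 hc1
  have hinfn : (H ⊓ K).Normal := normal_of_sup H K (H ⊓ K) hHK
    (fun h hh w hw => ⟨H.mul_mem (H.mul_mem hh hw.1) (H.inv_mem hh), hKn.conj_mem w hw.2 h⟩)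
    (fun k hk w hw => by
      have h1 : k * w * k⁻¹ * w⁻¹ ∈ L0 := hKK (Subgroup.commutator_mem_commutator hk hw.2)
      have h2 := (H ⊓ K).mul_mem (⟨hL0H h1, hLK.le h1⟩ : k * w * k⁻¹ * w⁻¹ ∈ H ⊓ K) hw
      simpa using h2)
  have hinf : H ⊓ K = L0 := le_antisymm (hL0 ▸ Subgroup.normal_le_normalCore.2 inf_le_left)
    (le_inf hL0H hLK.le)
  letI : Fintype L := Fintype.ofFinite L
  letI : Fintype L0 := Fintype.ofFinite L0
  have hϑL0 : IsIrrCharacter L0 (fun x : L0 => ϑ ⟨(x : G), hL0H x.2⟩) :=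
    irr_of_comp (Subgroup.inclusion hLL0)
      (isCharacter_comp (isCharacter_of_irr hϑ) (Subgroup.inclusion hL0H)) hϑL
  have hχH := classInner_res_ne_zero H hind
  -- the restriction to `L0`
  obtain ⟨ψ', e0, hψ', he0⟩ := hom L0 hL0n hLL0
  have hχL0 : classInner (fun n : L0 => indFun H ϑ n) (fun x : L0 => ϑ ⟨(x : G), hL0H x.2⟩) ≠ 0 :=
    over_of_constituent hL0H hϑL0 (isCharacter_of_irr hind) (ψ := ⟨ϑ, hϑ⟩) hχH (by
      rw [classInner_irr_self hϑL0]; exact one_ne_zero)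
  have hψeq := eq_of_homog hϑL0 hψ' e0 he0 hχL0
  subst hψeq
  by_cases hKtop : K = ⊤
  · have hHL0 : H = L0 := by rw [← hinf, hKtop, inf_top_eq]
    exact false_of_normal H (hHL0 ▸ hL0n) hmax.1 hϑ hind (hom H (hHL0 ▸ hL0n) hLH)
  obtain ⟨X, hXn, hKX, hc2⟩ := exists_chief K hKtop
  have hHX : H ⊔ X = ⊤ := top_le_iff.1 (hHK ▸ sup_le_sup_left hKX.le H)
  have hcop := coprime_of_chief H K X L0 hL0 hHK hLK hKX hs0 hc1 hc2
  obtain ⟨φ, e, hφ, he⟩ := hom K hKn (hLL0.trans hLK.le)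
  obtain ⟨η, c, hη, hc⟩ := hom X hXn (hLL0.trans (hLK.le.trans hKX.le))
  have hχ1 : indFun H ϑ 1 ≠ 0 := irr_apply_one_ne_zero ⟨_, hind⟩
  have hc0 : (c : ℂ) ≠ 0 := by
    intro h
    have := congrFun hc 1
    rw [h] at this
    simp only [Pi.smul_apply, zero_smul] at this
    exact hχ1 this
  have he0' : (e : ℂ) ≠ 0 := by
    intro h
    have := congrFun he 1
    rw [h] at this
    simp only [Pi.smul_apply, zero_smul] at this
    exact hχ1 this
  letI : Fintype X := Fintype.ofFinite X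
  letI : Fintype (K.subgroupOf X) := Fintype.ofFinite _
  letI : Fintype (H.subgroupOf X) := Fintype.ofFinite _
  have hsup' : H.subgroupOf X ⊔ K.subgroupOf X = ⊤ := by
    rw [eq_top_iff]
    intro x _
    obtain ⟨t, ht, h, hh, hx⟩ := exists_mul_of_sup H K hHK (x : G)
    have hhX : h ∈ X := by
      have := X.mul_mem (X.inv_mem (hKX.le ht)) x.2
      rw [hx] at this
      simpa using this
    have e1 : x = (⟨t, hKX.le ht⟩ : X) * ⟨h, hhX⟩ := Subtype.ext hx
    rw [e1, sup_comm]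
    exact Subgroup.mul_mem_sup (Subgroup.mem_subgroupOf.2 ht) (Subgroup.mem_subgroupOf.2 hh)
  have hL' : (H.subgroupOf X ⊓ K.subgroupOf X).Normal := by
    have : H.subgroupOf X ⊓ K.subgroupOf X = L0.subgroupOf X := by
      rw [← hinf]
      rfl
    rw [this]
    infer_instance
  have hMn' : ¬ (H.subgroupOf X).Normal := by
    intro hn
    apply false_of_normalizes H K X hHK hKX (hL0 ▸ hLK.le)
    intro k hk w hw
    exact Subgroup.mem_subgroupOf.1 (hn.conj_mem ⟨w, hw.2⟩ (Subgroup.mem_subgroupOf.2 hw.1)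
      ⟨k, hKX.le hk⟩)
  have hL0X : L0 ≤ X := hLK.le.trans hKX.le
  let f1 : L0 →* H.subgroupOf X :=
    { toFun := fun l => ⟨⟨(l : G), hL0X l.2⟩, Subgroup.mem_subgroupOf.2 (hL0H l.2)⟩
      map_one' := rfl
      map_mul' := fun _ _ => rfl }
  let f2 : H.subgroupOf X →* H :=
    { toFun := fun m => ⟨((m : X) : G), Subgroup.mem_subgroupOf.1 m.2⟩
      map_one' := rfl
      map_mul' := fun _ _ => rfl }
  have hμ' : IsIrrCharacter (H.subgroupOf X) (resY H X ϑ) :=
    irr_of_comp f1 (isCharacter_comp (isCharacter_of_irr hϑ) f2) hϑL0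
  let g : (H.subgroupOf X).subgroupOf (K.subgroupOf X) →* L0 :=
    { toFun := fun w => ⟨(((w : K.subgroupOf X) : X) : G), hinf ▸
        ⟨Subgroup.mem_subgroupOf.1 (Subgroup.mem_subgroupOf.1 w.2),
          Subgroup.mem_subgroupOf.1 (w : K.subgroupOf X).2⟩⟩
      map_one' := rfl
      map_mul' := fun _ _ => rfl }
  have hg : Function.Surjective g := by
    intro l
    exact ⟨⟨⟨⟨(l : G), hL0X l.2⟩, Subgroup.mem_subgroupOf.2 (hLK.le l.2)⟩,
      Subgroup.mem_subgroupOf.2 (Subgroup.mem_subgroupOf.2 (hL0H l.2))⟩, rfl⟩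
  have hψ'' : IsIrrCharacter ((H.subgroupOf X).subgroupOf (K.subgroupOf X))
      (resY (H.subgroupOf X) (K.subgroupOf X) (resY H X ϑ)) :=
    isIrrCharacter_comp_of_surjective hϑL0 g hg
  have h1' : indFun (H.subgroupOf X) (resY H X ϑ) = (c : ℂ) • η := by
    funext x
    rw [← mackey H X hHX ϑ (isClassFunction_of_irr hϑ) x]
    exact congrFun hc x
  have hφ' : IsIrrCharacter (K.subgroupOf X)
      (fun k : K.subgroupOf X => φ ⟨((k : X) : G), Subgroup.mem_subgroupOf.1 k.2⟩) :=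
    isIrrCharacter_comp_of_surjective hφ (Subgroup.subgroupOfEquivOfLe hKX.le).toMonoidHom
      (Subgroup.subgroupOfEquivOfLe hKX.le).surjective
  have h2' : ∀ k : K.subgroupOf X, η k = ((e : ℂ) / c) *
      (fun k : K.subgroupOf X => φ ⟨((k : X) : G), Subgroup.mem_subgroupOf.1 k.2⟩) k := by
    intro k
    have a1 := congrFun hc (k : X)
    have a2 := congrFun he ⟨((k : X) : G), Subgroup.mem_subgroupOf.1 k.2⟩
    simp only [Pi.smul_apply, smul_eq_mul] at a1 a2
    rw [a2] at a1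
    field_simp
    rw [mul_comm, ← a1]
  have h3' : ∀ w : (H.subgroupOf X).subgroupOf (K.subgroupOf X),
      (fun k : K.subgroupOf X => φ ⟨((k : X) : G), Subgroup.mem_subgroupOf.1 k.2⟩) w =
        ((e0 : ℂ) / e) * resY (H.subgroupOf X) (K.subgroupOf X) (resY H X ϑ) w := by
    intro w
    have a1 := congrFun he0 (g w)
    have a2 := congrFun he ⟨(((w : K.subgroupOf X) : X) : G),
      Subgroup.mem_subgroupOf.1 (w : K.subgroupOf X).2⟩
    simp only [Pi.smul_apply, smul_eq_mul] at a1 a2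
    have a3 : indFun H ϑ ((g w : L0) : G) = indFun H ϑ (((w : K.subgroupOf X) : X) : G) := rfl
    rw [a3, a2] at a1
    have a4 : resY (H.subgroupOf X) (K.subgroupOf X) (resY H X ϑ) w =
        ϑ ⟨((g w : L0) : G), hL0H (g w).2⟩ := rfl
    rw [a4]
    field_simp
    rw [mul_comm, a1]
  have h4' : Nat.Coprime (K.subgroupOf X).index
      ((H.subgroupOf X).subgroupOf (K.subgroupOf X)).index := by
    have b1 : (K.subgroupOf X).index = K.relIndex X := rfl
    have b2 : ((H.subgroupOf X).subgroupOf (K.subgroupOf X)).index = L0.relIndex K := by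
      change (H.subgroupOf X).relIndex (K.subgroupOf X) = _
      rw [Subgroup.relIndex_subgroupOf hKX.le, ← hinf, Subgroup.inf_relIndex_right]
    rw [b1, b2]
    exact hcop
  exact core (H.subgroupOf X) (K.subgroupOf X) hsup' hL' hMn' hμ' hψ'' hη c h1' hφ' _ h2' _ h3' h4'

end Cfsg.Agent.Lib.Helper23.QP
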