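import Mathlib

/-!
Real forms of matrix representations: from an antilinear involution commuting with the group.
-/

set_option autoImplicit false

namespace Cfsg.Agent.Lib.Helper23.RealForm

open Matrix
open scoped ComplexConjugate

variable {n : ℕ}

/-- entrywise complex conjugate -/
noncomputable def cj (X : Matrix (Fin n) (Fin n) ℂ) : Matrix (Fin n) (Fin n) ℂ := X.map (starRingEnd ℂ)

theorem cj_apply (X : Matrix (Fin n) (Fin n) ℂ) (i j : Fin n) : cj X i j = conj (X i j) := rfl

theorem cj_mul (X Y : Matrix (Fin n) (Fin n) ℂ) : cj (X * Y) = cj X * cj Y := Matrix.map_mul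

theorem cj_cj (X : Matrix (Fin n) (Fin n) ℂ) : cj (cj X) = X := by
  ext i j; simp [cj_apply]

theorem cj_one : cj (1 : Matrix (Fin n) (Fin n) ℂ) = 1 := by
  ext i j
  by_cases h : i = j <;> simp [cj_apply, Matrix.one_apply, h]

theorem cj_smul (c : ℂ) (X : Matrix (Fin n) (Fin n) ℂ) : cj (c • X) = conj c • cj X := by
  ext i j; simp [cj_apply]

theorem cj_add (X Y : Matrix (Fin n) (Fin n) ℂ) : cj (X + Y) = cj X + cj Y := by
  ext i j; simp [cj_apply]

theorem conjTranspose_eq (X : Matrix (Fin n) (Fin n) ℂ) : Xᴴ = (cj X)ᵀ := by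
  ext i j; simp [cj_apply, Matrix.conjTranspose_apply]

theorem cj_transpose (X : Matrix (Fin n) (Fin n) ℂ) : cj Xᵀ = Xᴴ := by
  ext i j; simp [cj_apply, Matrix.conjTranspose_apply]

theorem cj_conjTranspose (X : Matrix (Fin n) (Fin n) ℂ) : cj Xᴴ = Xᵀ := by
  ext i j; simp [cj_apply, Matrix.conjTranspose_apply]

/-- existence of an invertible matrix fixed by the antilinear involution `v ↦ A conj v` -/
theorem exists_fixed (A : Matrix (Fin n) (Fin n) ℂ) (hA : A * cj A = 1) :
    ∃ T : Matrix (Fin n) (Fin n) ℂ, IsUnit T ∧ A * cj T = T := by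
  have hfin : (spectrum ℂ (-A)).Finite := Matrix.finite_spectrum _
  let z : ℝ → ℂ := fun t => (1 - Complex.I * t) / (1 + Complex.I * t)
  have hden : ∀ t : ℝ, (1 + Complex.I * t : ℂ) ≠ 0 := by
    intro t h
    have := congrArg Complex.re h
    simp at this
  have hinj : Function.Injective z := by
    intro t t' h
    simp only [z] at h
    rw [div_eq_div_iff (hden t) (hden t')] at h
    have h2 : (2 * Complex.I) * ((t' : ℂ) - t) = 0 := by linear_combination h
    have h3 : (2 * Complex.I : ℂ) ≠ 0 := by simp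
    have h4 := (mul_eq_zero.1 h2).resolve_left h3
    have h5 : (t' : ℂ) = t := sub_eq_zero.1 h4
    exact (Complex.ofReal_injective h5).symm
  obtain ⟨w, ⟨t, rfl⟩, hw⟩ := (Set.infinite_range_of_injective hinj).exists_notMem_finite hfin
  rw [spectrum.notMem_iff] at hw
  set μ : ℂ := 1 + Complex.I * t with hμ
  have hμc : conj μ = 1 - Complex.I * t := by
    simp [hμ, sub_eq_add_neg]
  refine ⟨μ • A + conj μ • 1, ?_, ?_⟩
  · have h1 : μ • A + conj μ • (1 : Matrix (Fin n) (Fin n) ℂ) =
        μ • (algebraMap ℂ (Matrix (Fin n) (Fin n) ℂ) (z t) - -A) := by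
      rw [Algebra.algebraMap_eq_smul_one, sub_neg_eq_add, smul_add, smul_smul]
      have : μ * z t = conj μ := by
        simp only [z]
        rw [hμc, hμ, mul_div_cancel₀ _ (hden t)]
      rw [this, add_comm]
    rw [h1]
    have hu : IsUnit μ := isUnit_iff_ne_zero.2 (hden t)
    rw [Algebra.smul_def]
    exact (hu.map (algebraMap ℂ (Matrix (Fin n) (Fin n) ℂ))).mul hw
  · rw [cj_add, cj_smul, cj_smul, cj_one, Complex.conj_conj, Matrix.mul_add, Matrix.mul_smul,
      Matrix.mul_smul, hA, Matrix.mul_one, add_comm]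

/-- a matrix representation commuting with an antilinear involution is equivalent to a real one -/
theorem exists_real {G : Type*} [Group G] (R : G → Matrix (Fin n) (Fin n) ℂ) (hR1 : R 1 = 1)
    (hRm : ∀ g h, R (g * h) = R g * R h) (A : Matrix (Fin n) (Fin n) ℂ) (hA : A * cj A = 1)
    (hRA : ∀ g, R g * A = A * cj (R g)) :
    ∃ Y : G → Matrix (Fin n) (Fin n) ℝ, Y 1 = 1 ∧ (∀ g h, Y (g * h) = Y g * Y h) ∧
      ∀ g, (((Y g).trace : ℝ) : ℂ) = (R g).trace := by
  obtain ⟨T, hT, hAT⟩ := exists_fixed A hA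
  obtain ⟨Ti, hTi1, hTi2⟩ : ∃ Ti : Matrix (Fin n) (Fin n) ℂ, Ti * T = 1 ∧ T * Ti = 1 := by
    obtain ⟨u, rfl⟩ := hT
    exact ⟨↑u⁻¹, u.inv_mul, u.mul_inv⟩
  have hA' : cj A * A = 1 := mul_eq_one_comm.1 hA
  have hcT : cj T = cj A * T := by
    calc cj T = (cj A * A) * cj T := by rw [hA', Matrix.one_mul]
      _ = cj A * (A * cj T) := by rw [Matrix.mul_assoc]
      _ = cj A * T := by rw [hAT]
  have hcTi : cj Ti = Ti * A := by
    have e2 : cj T * cj Ti = 1 := by rw [← cj_mul, hTi2, cj_one]
    calc cj Ti = (Ti * A * cj T) * cj Ti := by rw [Matrix.mul_assoc Ti, hAT, hTi1, Matrix.one_mul]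
      _ = Ti * A * (cj T * cj Ti) := by rw [Matrix.mul_assoc]
      _ = Ti * A := by rw [e2, Matrix.mul_one]
  let X : G → Matrix (Fin n) (Fin n) ℂ := fun g => Ti * R g * T
  have hX : ∀ g, cj (X g) = X g := by
    intro g
    simp only [X]
    rw [cj_mul, cj_mul, hcTi, hcT]
    calc Ti * A * cj (R g) * (cj A * T) = Ti * (A * cj (R g)) * cj A * T := by
          simp only [Matrix.mul_assoc]
      _ = Ti * (R g * A) * cj A * T := by rw [hRA]
      _ = Ti * R g * (A * cj A) * T := by simp only [Matrix.mul_assoc]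
      _ = Ti * R g * T := by rw [hA, Matrix.mul_one]
  let Y : G → Matrix (Fin n) (Fin n) ℝ := fun g => (X g).map Complex.re
  have hYX : ∀ g, (Y g).map Complex.ofRealHom = X g := by
    intro g
    ext i j
    simp only [Y, Matrix.map_apply, Complex.ofRealHom_eq_coe]
    have := congrFun (congrFun (hX g) i) j
    rw [cj_apply] at this
    exact Complex.conj_eq_iff_re.1 this
  have hinj : Function.Injective
      (fun Z : Matrix (Fin n) (Fin n) ℝ => Z.map Complex.ofRealHom) :=
    Matrix.map_injective Complex.ofRealHom.injective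
  refine ⟨Y, ?_, ?_, ?_⟩
  · apply hinj
    change (Y 1).map Complex.ofRealHom = (1 : Matrix (Fin n) (Fin n) ℝ).map Complex.ofRealHom
    rw [hYX, Matrix.map_one _ (map_zero _) (map_one _)]
    simp only [X]
    rw [hR1, Matrix.mul_one, hTi1]
  · intro g h
    apply hinj
    change (Y (g * h)).map Complex.ofRealHom = (Y g * Y h).map Complex.ofRealHom
    rw [Matrix.map_mul, hYX, hYX, hYX]
    simp only [X]
    rw [hRm]
    calc Ti * (R g * R h) * T = Ti * R g * 1 * R h * T := by
          simp only [Matrix.mul_assoc, Matrix.one_mul]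
      _ = Ti * R g * (T * Ti) * R h * T := by rw [hTi2]
      _ = Ti * R g * T * (Ti * R h * T) := by simp only [Matrix.mul_assoc]
  · intro g
    have h1 : (((Y g).trace : ℝ) : ℂ) = ((Y g).map Complex.ofRealHom).trace := by
      simp [Matrix.trace]
    rw [h1, hYX]
    simp only [X]
    rw [Matrix.trace_mul_cycle, hTi2, Matrix.one_mul]

end Cfsg.Agent.Lib.Helper23.RealForm
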