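import Mathlib
import Cfsg.Agent.Lib.Helper23.FS
import Cfsg.Agent.Lib.Helper23.RealForm1

/-!
An irreducible representation with a symmetric invariant form has a real form.
-/

set_option autoImplicit false

namespace Cfsg.Agent.Lib.Helper23.RealForm

open Matrix Cfsg.Agent.CharLib Cfsg.Agent.Lib.Helper23.FS
open scoped ComplexConjugate ComplexOrder

variable {G : Type*} [Group G] [Fintype G] {n : ℕ} (ρ : Representation ℂ G (Fin n → ℂ))

/-- the averaged Hermitian form -/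
noncomputable def herm : Matrix (Fin n) (Fin n) ℂ := ∑ g : G, (mat ρ g)ᴴ * mat ρ g

theorem isUnit_mat (g : G) : IsUnit (mat ρ g) :=
  ⟨⟨mat ρ g, mat ρ g⁻¹, mat_mul_inv ρ g, mat_inv_mul ρ g⟩, rfl⟩

theorem herm_posDef : (herm ρ).PosDef := by
  apply Matrix.posDef_sum Finset.univ_nonempty
  intro g _
  exact Matrix.PosDef.conjTranspose_mul_self _ (Matrix.mulVec_injective_iff_isUnit.2 (isUnit_mat ρ g))

theorem herm_inv (g : G) : (mat ρ g)ᴴ * herm ρ * mat ρ g = herm ρ := by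
  unfold herm
  rw [Finset.mul_sum, Finset.sum_mul]
  apply Fintype.sum_equiv (Equiv.mulRight g)
  intro h
  simp only [Equiv.coe_mulRight, mat_mul, Matrix.conjTranspose_mul, Matrix.mul_assoc]

theorem herm_comm (g : G) : herm ρ * mat ρ g = (mat ρ g⁻¹)ᴴ * herm ρ := by
  have h := herm_inv ρ g⁻¹
  calc herm ρ * mat ρ g = ((mat ρ g⁻¹)ᴴ * herm ρ * mat ρ g⁻¹) * mat ρ g := by rw [h]
    _ = (mat ρ g⁻¹)ᴴ * herm ρ * (mat ρ g⁻¹ * mat ρ g) := by simp only [Matrix.mul_assoc]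
    _ = (mat ρ g⁻¹)ᴴ * herm ρ := by rw [mat_inv_mul, Matrix.mul_one]

variable {ρ}

theorem exists_antilinear [hρ : ρ.IsIrreducible] {M : Matrix (Fin n) (Fin n) ℂ} (hM : IsInv ρ M)
    (hM0 : M ≠ 0) (hsym : Mᵀ = M) :
    ∃ A : Matrix (Fin n) (Fin n) ℂ, A * cj A = 1 ∧ ∀ g, mat ρ g * A = A * cj (mat ρ g) := by
  have hu : IsUnit M := hM.eq_zero_or_isUnit.resolve_left hM0
  have hd : IsUnit M.det := (Matrix.isUnit_iff_isUnit_det M).1 hu
  have hMi1 : M⁻¹ * M = 1 := Matrix.nonsing_inv_mul _ hd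
  have hMi2 : M * M⁻¹ = 1 := Matrix.mul_nonsing_inv _ hd
  have hMisym : (M⁻¹)ᵀ = M⁻¹ := by rw [Matrix.transpose_nonsing_inv, hsym]
  obtain ⟨H, hH⟩ : ∃ H, H = herm ρ := ⟨_, rfl⟩
  have hHpd : H.PosDef := hH ▸ herm_posDef ρ
  have hHh : Hᴴ = H := hHpd.1
  have hcjH : cj Hᵀ = H := by rw [cj_transpose, hHh]
  obtain ⟨A, hA⟩ : ∃ A, A = M⁻¹ * Hᵀ := ⟨_, rfl⟩
  have h1 : ∀ g, mat ρ g * M⁻¹ = M⁻¹ * (mat ρ g⁻¹)ᵀ := by
    intro g
    calc mat ρ g * M⁻¹ = M⁻¹ * (M * mat ρ g) * M⁻¹ := by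
          rw [← Matrix.mul_assoc, hMi1, Matrix.one_mul]
      _ = M⁻¹ * ((mat ρ g⁻¹)ᵀ * M) * M⁻¹ := by rw [hM.comm]
      _ = M⁻¹ * (mat ρ g⁻¹)ᵀ * (M * M⁻¹) := by simp only [Matrix.mul_assoc]
      _ = M⁻¹ * (mat ρ g⁻¹)ᵀ := by rw [hMi2, Matrix.mul_one]
  have h2 : ∀ g, (mat ρ g⁻¹)ᵀ * Hᵀ = Hᵀ * cj (mat ρ g) := by
    intro g
    have := congrArg Matrix.transpose (herm_comm ρ g⁻¹)
    rw [← hH, Matrix.transpose_mul, Matrix.transpose_mul, inv_inv, conjTranspose_eq,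
      Matrix.transpose_transpose] at this
    exact this
  have hRA : ∀ g, mat ρ g * A = A * cj (mat ρ g) := by
    intro g
    rw [hA, ← Matrix.mul_assoc, h1, Matrix.mul_assoc, h2, Matrix.mul_assoc]
  have hcomm : ∀ g, mat ρ g * (A * cj A) = (A * cj A) * mat ρ g := by
    intro g
    calc mat ρ g * (A * cj A) = (mat ρ g * A) * cj A := by rw [Matrix.mul_assoc]
      _ = A * (cj (mat ρ g) * cj A) := by rw [hRA, Matrix.mul_assoc]
      _ = A * cj (mat ρ g * A) := by rw [cj_mul]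
      _ = A * cj (A * cj (mat ρ g)) := by rw [hRA]
      _ = (A * cj A) * mat ρ g := by rw [cj_mul, cj_cj, Matrix.mul_assoc]
  have hinv2 : IsInv ρ (M * (A * cj A)) := by
    intro g
    calc (mat ρ g)ᵀ * (M * (A * cj A)) * mat ρ g
        = (mat ρ g)ᵀ * M * ((A * cj A) * mat ρ g) := by simp only [Matrix.mul_assoc]
      _ = (mat ρ g)ᵀ * M * (mat ρ g * (A * cj A)) := by rw [hcomm]
      _ = ((mat ρ g)ᵀ * M * mat ρ g) * (A * cj A) := by simp only [Matrix.mul_assoc]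
      _ = M * (A * cj A) := by rw [hM g]
  obtain ⟨c, hc⟩ := hM.exists_smul hM0 hinv2
  have hc1 : A * cj A = c • 1 := by
    calc A * cj A = M⁻¹ * (M * (A * cj A)) := by rw [← Matrix.mul_assoc, hMi1, Matrix.one_mul]
      _ = c • 1 := by rw [hc, Matrix.mul_smul, hMi1]
  -- positivity of `c`
  obtain ⟨W, hW⟩ : ∃ W, W = cj M⁻¹ * H := ⟨_, rfl⟩
  have hWu : IsUnit W := by
    rw [hW]
    apply IsUnit.mul _ hHpd.isUnit
    refine ⟨⟨cj M⁻¹, cj M, ?_, ?_⟩, rfl⟩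
    · rw [← cj_mul, hMi1, cj_one]
    · rw [← cj_mul, hMi2, cj_one]
  have hWW : Wᴴ * Hᵀ * W = c • H := by
    have e1 : Wᴴ = H * M⁻¹ := by
      rw [hW, Matrix.conjTranspose_mul, hHh, conjTranspose_eq, cj_cj, hMisym]
    rw [e1, hW]
    calc H * M⁻¹ * Hᵀ * (cj M⁻¹ * H) = H * ((M⁻¹ * Hᵀ) * (cj M⁻¹ * cj Hᵀ)) := by
          rw [hcjH]; simp only [Matrix.mul_assoc]
      _ = H * (A * cj A) := by rw [← cj_mul, ← hA]
      _ = c • H := by rw [hc1, Matrix.mul_smul, Matrix.mul_one]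
  have hpd2 : (c • H).PosDef := by
    rw [← hWW]
    exact hHpd.transpose.conjTranspose_mul_mul_same (Matrix.mulVec_injective_iff_isUnit.2 hWu)
  have hn : Nonempty (Fin n) := by
    by_contra hemp
    rw [not_nonempty_iff] at hemp
    apply hM0
    ext i j
    exact hemp.elim i
  obtain ⟨i⟩ := hn
  have hp1 : 0 < H i i := hHpd.diag_pos
  have hp2 : 0 < (c • H) i i := hpd2.diag_pos
  rw [Matrix.smul_apply, smul_eq_mul] at hp2
  obtain ⟨hre1, him1⟩ := Complex.pos_iff.1 hp1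
  obtain ⟨hre2, him2⟩ := Complex.pos_iff.1 hp2
  rw [Complex.mul_re, ← him1, mul_zero, sub_zero] at hre2
  rw [Complex.mul_im, ← him1, mul_zero, zero_add] at him2
  have hcim : c.im = 0 := by
    rcases mul_eq_zero.1 him2.symm with h | h
    · exact h
    · exact absurd h hre1.ne'
  have hcre : 0 < c.re := by
    by_contra hneg
    push Not at hneg
    nlinarith
  have hcr : c = (c.re : ℂ) := by
    apply Complex.ext <;> simp [hcim]
  set s : ℝ := Real.sqrt c.re with hs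
  have hs0 : 0 < s := Real.sqrt_pos.2 hcre
  have hss : s * s = c.re := Real.mul_self_sqrt hcre.le
  refine ⟨((s⁻¹ : ℝ) : ℂ) • A, ?_, ?_⟩
  · rw [cj_smul, Complex.conj_ofReal, Matrix.smul_mul, Matrix.mul_smul, hc1, smul_smul, smul_smul]
    have : ((s⁻¹ : ℝ) : ℂ) * ((s⁻¹ : ℝ) : ℂ) * c = 1 := by
      rw [hcr, ← hss]
      push_cast
      have : (s : ℂ) ≠ 0 := by exact_mod_cast hs0.ne'
      field_simp
    rw [this, one_smul]
  · intro g
    rw [Matrix.mul_smul, Matrix.smul_mul, hRA]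

end Cfsg.Agent.Lib.Helper23.RealForm
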