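import Mathlib
import Cfsg.Agent.Lib.Helper23.SelfCent3
set_option autoImplicit false

/-! Groups with a self-centralizing element of prime order, part 4: classes of elements of order `p`. -/

namespace Cfsg.Agent.Lib.Helper23

variable {G : Type*} [Group G] [Finite G] {p : ℕ} [Fact p.Prime] {x : G}

theorem orderOf_eq_of_mem_zpowers (hx : orderOf x = p) {y : G} (hy : y ∈ Subgroup.zpowers x)
    (hy1 : y ≠ 1) : orderOf y = p := by
  have h := zpowers_eq_of_mem_of_ne_one Fact.out hx hy hy1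
  rw [← Nat.card_zpowers, h, Nat.card_zpowers, hx]

theorem centralizer_eq_of_mem_zpowers (hx : orderOf x = p)
    (hC : Subgroup.centralizer ({x} : Set G) = Subgroup.zpowers x) {y : G}
    (hy : y ∈ Subgroup.zpowers x) (hy1 : y ≠ 1) :
    Subgroup.centralizer ({y} : Set G) = Subgroup.zpowers x := by
  have h := zpowers_eq_of_mem_of_ne_one Fact.out hx hy hy1
  rw [← hC, ← Subgroup.centralizer_closure, ← Subgroup.centralizer_closure ({x} : Set G),
    ← Subgroup.zpowers_eq_closure, ← Subgroup.zpowers_eq_closure, h]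

/-- Every element of order `p` is conjugate into `⟨x⟩`. -/
theorem exists_conj_mem_zpowers (hx : orderOf x = p)
    (hC : Subgroup.centralizer ({x} : Set G) = Subgroup.zpowers x) (y : G) (hy : orderOf y = p) :
    ∃ g : G, g * y * g⁻¹ ∈ Subgroup.zpowers x := by
  have hyp : IsPGroup p (Subgroup.zpowers y) :=
    IsPGroup.of_card (n := 1) (by rw [Nat.card_zpowers, hy, pow_one])
  obtain ⟨Q, hQ⟩ := hyp.exists_le_sylow
  obtain ⟨P, hP⟩ := exists_sylow_eq_zpowers hx hC
  obtain ⟨g, rfl⟩ := MulAction.exists_smul_eq G Q P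
  refine ⟨g, ?_⟩
  rw [← hP, Sylow.coe_subgroup_smul, Subgroup.mem_pointwise_smul_iff_inv_smul_mem]
  have : (MulAut.conj g)⁻¹ • (g * y * g⁻¹) = y := by
    simp [MulAut.smul_def, mul_assoc]
  rw [this]
  exact hQ (Subgroup.mem_zpowers _)

theorem card_zpowers_ne_one (hx : orderOf x = p) :
    Nat.card {y : G // y ∈ Subgroup.zpowers x ∧ y ≠ 1} = p - 1 := by
  have h1 : {y : G | y ∈ Subgroup.zpowers x ∧ y ≠ 1} = (Subgroup.zpowers x : Set G) \ {1} := by
    ext y; simp
  have h2 : Nat.card {y : G // y ∈ Subgroup.zpowers x ∧ y ≠ 1} =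
      Set.ncard {y : G | y ∈ Subgroup.zpowers x ∧ y ≠ 1} := rfl
  rw [h2, h1, Set.ncard_sdiff_singleton_of_mem (Subgroup.one_mem _)]
  have h3 : Set.ncard (Subgroup.zpowers x : Set G) = Nat.card (Subgroup.zpowers x) := rfl
  rw [h3, Nat.card_zpowers, hx]

/-- The map from nonidentity elements of `⟨x⟩` to classes of elements of order `p`. -/
noncomputable def toClass (hx : orderOf x = p) (y : {y : G // y ∈ Subgroup.zpowers x ∧ y ≠ 1}) :
    {C : ConjClasses G // ∃ g ∈ C.carrier, orderOf g = p} :=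
  ⟨ConjClasses.mk y.1, y.1, ConjClasses.mem_carrier_mk, orderOf_eq_of_mem_zpowers hx y.2.1 y.2.2⟩

theorem toClass_surjective (hx : orderOf x = p)
    (hC : Subgroup.centralizer ({x} : Set G) = Subgroup.zpowers x) :
    Function.Surjective (toClass hx) := by
  rintro ⟨C, g, hg, hgo⟩
  obtain ⟨h, hh⟩ := exists_conj_mem_zpowers hx hC g hgo
  have hne : h * g * h⁻¹ ≠ 1 := by
    intro h1
    have : g = 1 := by
      have := congrArg (fun t => h⁻¹ * t * h) h1
      simpa [mul_assoc] using this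
    rw [this, orderOf_one] at hgo
    exact (Fact.out : p.Prime).one_lt.ne hgo
  refine ⟨⟨h * g * h⁻¹, hh, hne⟩, ?_⟩
  apply Subtype.ext
  change ConjClasses.mk (h * g * h⁻¹) = C
  rw [← ConjClasses.mem_carrier_iff_mk_eq.1 hg, ConjClasses.mk_eq_mk_iff_isConj, isConj_comm, isConj_iff]
  exact ⟨h, rfl⟩

theorem card_classes_le (hx : orderOf x = p)
    (hC : Subgroup.centralizer ({x} : Set G) = Subgroup.zpowers x) :
    Nat.card {C : ConjClasses G // ∃ g ∈ C.carrier, orderOf g = p} ≤ p - 1 := by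
  rw [← card_zpowers_ne_one hx]
  exact Nat.card_le_card_of_surjective _ (toClass_surjective hx hC)

/-- If `N_G(⟨x⟩) = ⟨x⟩`, there are exactly `p - 1` classes of elements of order `p`. -/
theorem card_classes_eq_of_normalizer_eq (hx : orderOf x = p)
    (hC : Subgroup.centralizer ({x} : Set G) = Subgroup.zpowers x)
    (hN : Subgroup.normalizer (Subgroup.zpowers x : Set G) = Subgroup.zpowers x) :
    Nat.card {C : ConjClasses G // ∃ g ∈ C.carrier, orderOf g = p} = p - 1 := by
  rw [← card_zpowers_ne_one hx]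
  symm
  apply Nat.card_eq_of_bijective (toClass hx)
  refine ⟨?_, toClass_surjective hx hC⟩
  rintro ⟨y, hy, hy1⟩ ⟨z, hz, hz1⟩ h
  have h1 : ConjClasses.mk y = ConjClasses.mk z := congrArg Subtype.val h
  rw [ConjClasses.mk_eq_mk_iff_isConj, isConj_iff] at h1
  obtain ⟨c, hc⟩ := h1
  obtain ⟨P, hP⟩ := exists_sylow_eq_zpowers hx hC
  have hPc : IsMulCommutative P := by
    have : IsMulCommutative (P : Subgroup G) := by
      rw [hP]; infer_instance
    exact this
  have hyP : y ∈ P := by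
    change y ∈ (P : Subgroup G); rw [hP]; exact hy
  have hzP : c⁻¹⁻¹ * y * c⁻¹ ∈ P := by
    change _ ∈ (P : Subgroup G); rw [hP, inv_inv, hc]; exact hz
  obtain ⟨n, hn, hn2⟩ := P.conj_eq_normalizer_conj_of_mem y c⁻¹ hyP hzP
  have hn' : n ∈ Subgroup.zpowers x := by
    rw [← hN, ← hP]; exact hn
  apply Subtype.ext
  change y = z
  rw [← hc]
  rw [inv_inv] at hn2
  rw [hn2]
  obtain ⟨i, rfl⟩ := Subgroup.mem_zpowers_iff.1 hn'
  obtain ⟨j, rfl⟩ := Subgroup.mem_zpowers_iff.1 hy
  rw [← zpow_neg, ← zpow_add, ← zpow_add]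
  congr 1
  ring

end Cfsg.Agent.Lib.Helper23
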