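import Mathlib
import Cfsg.Agent.Lib.Helper23.SelfCent4
set_option autoImplicit false

/-! Groups with a self-centralizing element of prime order, part 5: the commutator subgroup. -/

namespace Cfsg.Agent.Lib.Helper23

variable {G : Type*} [Group G] [Finite G] {p : ℕ} [Fact p.Prime] {x : G}

/-- `[N_G(⟨x⟩) : ⟨x⟩] * t ≤ p - 1`. -/
theorem relIndex_mul_card_classes_le (hx : orderOf x = p)
    (hC : Subgroup.centralizer ({x} : Set G) = Subgroup.zpowers x) :
    (Subgroup.zpowers x).relIndex (Subgroup.normalizer (Subgroup.zpowers x : Set G)) *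
      Nat.card {C : ConjClasses G // ∃ g ∈ C.carrier, orderOf g = p} ≤ p - 1 := by
  set N := Subgroup.normalizer (Subgroup.zpowers x : Set G) with hN
  rw [← card_zpowers_ne_one hx, Subgroup.relIndex, Subgroup.index_eq_card, ← Nat.card_prod]
  let r := Function.surjInv (toClass_surjective hx hC)
  have hr : ∀ c, toClass hx (r c) = c := Function.surjInv_eq (toClass_surjective hx hC)
  let F : (N ⧸ (Subgroup.zpowers x).subgroupOf N) × {C : ConjClasses G // ∃ g ∈ C.carrier, orderOf g = p} →
      {y : G // y ∈ Subgroup.zpowers x ∧ y ≠ 1} := fun qc =>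
    ⟨(qc.1.out : G) * (r qc.2).1 * (qc.1.out : G)⁻¹,
      (Subgroup.mem_normalizer_iff.1 qc.1.out.2 _).1 (r qc.2).2.1, by
        intro h
        apply (r qc.2).2.2
        have := congrArg (fun t => (qc.1.out : G)⁻¹ * t * (qc.1.out : G)) h
        simpa [mul_assoc] using this⟩
  apply Nat.card_le_card_of_injective F
  rintro ⟨q, c⟩ ⟨q', c'⟩ h
  have h1 : (q.out : G) * (r c).1 * (q.out : G)⁻¹ = (q'.out : G) * (r c').1 * (q'.out : G)⁻¹ :=
    congrArg Subtype.val h
  have hcc : c = c' := by
    rw [← hr c, ← hr c']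
    apply Subtype.ext
    change ConjClasses.mk (r c).1 = ConjClasses.mk (r c').1
    rw [ConjClasses.mk_eq_mk_iff_isConj, isConj_iff]
    refine ⟨(q'.out : G)⁻¹ * q.out, ?_⟩
    calc (q'.out : G)⁻¹ * q.out * (r c).1 * ((q'.out : G)⁻¹ * q.out)⁻¹
        = (q'.out : G)⁻¹ * ((q.out : G) * (r c).1 * (q.out : G)⁻¹) * q'.out := by group
      _ = (q'.out : G)⁻¹ * ((q'.out : G) * (r c').1 * (q'.out : G)⁻¹) * q'.out := by rw [h1]
      _ = (r c').1 := by group
  subst hcc
  have hq : q = q' := by
    rw [← q.out_eq', ← q'.out_eq']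
    change (QuotientGroup.mk q.out : N ⧸ _) = QuotientGroup.mk q'.out
    rw [QuotientGroup.eq, Subgroup.mem_subgroupOf]
    change (q.out : G)⁻¹ * (q'.out : G) ∈ Subgroup.zpowers x
    have hmem : (q.out : G)⁻¹ * (q'.out : G) ∈ Subgroup.centralizer ({(r c).1} : Set G) → 
        (q.out : G)⁻¹ * (q'.out : G) ∈ Subgroup.zpowers x := by
      intro h; rwa [centralizer_eq_of_mem_zpowers hx hC (r c).2.1 (r c).2.2] at h
    apply hmem
    rw [mem_centralizer_singleton]
    calc (q.out : G)⁻¹ * q'.out * (r c).1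
        = (q.out : G)⁻¹ * ((q'.out : G) * (r c).1 * (q'.out : G)⁻¹) * q'.out := by group
      _ = (q.out : G)⁻¹ * ((q.out : G) * (r c).1 * (q.out : G)⁻¹) * q'.out := by rw [h1]
      _ = (r c).1 * ((q.out : G)⁻¹ * q'.out) := by group
  rw [hq]

/-- If `N_G(⟨x⟩) ≠ ⟨x⟩` then `x` lies in the commutator subgroup. -/
theorem mem_commutator_of_normalizer_ne (hx : orderOf x = p)
    (hC : Subgroup.centralizer ({x} : Set G) = Subgroup.zpowers x)
    (hN : Subgroup.normalizer (Subgroup.zpowers x : Set G) ≠ Subgroup.zpowers x) :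
    x ∈ commutator G := by
  have hlt : Subgroup.zpowers x < Subgroup.normalizer (Subgroup.zpowers x : Set G) :=
    lt_of_le_of_ne Subgroup.le_normalizer hN.symm
  obtain ⟨n, hn, hnx⟩ := SetLike.exists_of_lt hlt
  have h1 : n * x * n⁻¹ ∈ Subgroup.zpowers x :=
    (Subgroup.mem_normalizer_iff.1 hn x).1 (Subgroup.mem_zpowers x)
  have h2 : n * x * n⁻¹ * x⁻¹ ∈ Subgroup.zpowers x :=
    Subgroup.mul_mem _ h1 (Subgroup.inv_mem _ (Subgroup.mem_zpowers x))
  have h3 : n * x * n⁻¹ * x⁻¹ ≠ 1 := by
    intro h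
    apply hnx
    rw [← hC, mem_centralizer_singleton]
    have h5 : n * x * n⁻¹ = x := mul_inv_eq_one.1 h
    calc n * x = (n * x * n⁻¹) * n := by group
      _ = x * n := by rw [h5]
  have h4 := zpowers_eq_of_mem_of_ne_one Fact.out hx h2 h3
  have h5 : n * x * n⁻¹ * x⁻¹ ∈ commutator G := by
    rw [commutator_def]
    exact Subgroup.commutator_mem_commutator (Subgroup.mem_top n) (Subgroup.mem_top x)
  have h6 : Subgroup.zpowers (n * x * n⁻¹ * x⁻¹) ≤ commutator G := Subgroup.zpowers_le.2 h5
  rw [h4] at h6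
  exact h6 (Subgroup.mem_zpowers x)

/-- A normal subgroup containing `x` has index dividing `[N_G(⟨x⟩) : ⟨x⟩]`. -/
theorem index_dvd_relIndex_of_mem (hx : orderOf x = p)
    (hC : Subgroup.centralizer ({x} : Set G) = Subgroup.zpowers x) (D : Subgroup G) [D.Normal]
    (hxD : x ∈ D) :
    D.index ∣ (Subgroup.zpowers x).relIndex (Subgroup.normalizer (Subgroup.zpowers x : Set G)) := by
  obtain ⟨P, hP⟩ := exists_sylow_eq_zpowers hx hC
  have hPD : (P : Subgroup G) ≤ D := by rw [hP]; exact Subgroup.zpowers_le.2 hxD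
  have hfr : Subgroup.normalizer ((P : Subgroup G) : Set G) ⊔ D = ⊤ := Sylow.normalizer_sup_eq_top' P hPD
  rw [hP] at hfr hPD
  have h1 : D.relIndex (Subgroup.normalizer (Subgroup.zpowers x : Set G)) = D.index := by
    rw [← Subgroup.relIndex_sup_right, hfr, Subgroup.relIndex_top_right]
  rw [← h1]
  exact Subgroup.relIndex_dvd_of_le_left _ hPD

/-- If `N_G(⟨x⟩) = ⟨x⟩` the commutator subgroup has order prime to `p` (Burnside's transfer theorem). -/
theorem not_dvd_card_commutator_of_normalizer_eq (hx : orderOf x = p)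
    (hC : Subgroup.centralizer ({x} : Set G) = Subgroup.zpowers x)
    (hN : Subgroup.normalizer (Subgroup.zpowers x : Set G) = Subgroup.zpowers x) :
    ¬ p ∣ Nat.card (commutator G) := by
  obtain ⟨P, hP⟩ := exists_sylow_eq_zpowers hx hC
  have hPc : ∀ a ∈ (P : Subgroup G), ∀ b ∈ (P : Subgroup G), a * b = b * a := by
    rw [hP]
    intro a ha b hb
    obtain ⟨i, rfl⟩ := Subgroup.mem_zpowers_iff.1 ha
    obtain ⟨j, rfl⟩ := Subgroup.mem_zpowers_iff.1 hb
    rw [← zpow_add, ← zpow_add, add_comm]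
  have hNC : Subgroup.normalizer ((P : Subgroup G) : Set G) ≤ Subgroup.centralizer ((P : Subgroup G) : Set G) := by
    rw [hP, hN, ← hP]
    intro a ha
    rw [Subgroup.mem_centralizer_iff]
    intro b hb
    exact hPc b hb a ha
  have h1 := MonoidHom.not_dvd_card_ker_transferSylow P hNC
  intro h2
  apply h1
  refine h2.trans (Subgroup.card_dvd_of_le ?_)
  rw [commutator_def, Subgroup.commutator_le]
  intro a _ b _
  rw [MonoidHom.mem_ker, commutatorElement_def, map_mul, map_mul, map_mul, map_inv, map_inv]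
  set u := MonoidHom.transferSylow P hNC a
  set v := MonoidHom.transferSylow P hNC b
  have huv : u * v = v * u := Subtype.ext (hPc u u.2 v v.2)
  rw [huv]; group

/-- If the commutator subgroup has order prime to `p`, it has index `p`. -/
theorem index_commutator_eq_of_not_dvd (hx : orderOf x = p)
    (hC : Subgroup.centralizer ({x} : Set G) = Subgroup.zpowers x)
    (h : ¬ p ∣ Nat.card (commutator G)) : (commutator G).index = p := by
  have h1 := centralizer_mk_eq hx hC (commutator G) h
  have h2 := orderOf_mk_eq hx (commutator G) h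
  have h3 : Subgroup.centralizer ({(QuotientGroup.mk x : G ⧸ commutator G)} : Set (G ⧸ commutator G)) = ⊤ := by
    rw [eq_top_iff]
    intro g _
    rw [mem_centralizer_singleton]
    exact mul_comm (G := Abelianization G) _ _
  rw [Subgroup.index_eq_card, ← Nat.card_congr (Subgroup.topEquiv (G := G ⧸ commutator G)).toEquiv, ← h3, h1,
    Nat.card_zpowers, h2]

end Cfsg.Agent.Lib.Helper23
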