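import Mathlib
import Cfsg.Agent.Lib.Helper23.SelfCent5
import Cfsg.Agent.Lib.Helper23.PPrimeCore
set_option autoImplicit false

/-! Groups with a self-centralizing element of prime order, part 6: structure of `G'`. -/

namespace Cfsg.Agent.Lib.Helper23

variable {G : Type*} [Group G] [Finite G] {p : ℕ} [Fact p.Prime] {x : G}

theorem normalizer_eq_iff_card_classes (hx : orderOf x = p)
    (hC : Subgroup.centralizer ({x} : Set G) = Subgroup.zpowers x) :
    Subgroup.normalizer (Subgroup.zpowers x : Set G) = Subgroup.zpowers x ↔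
      Nat.card {C : ConjClasses G // ∃ g ∈ C.carrier, orderOf g = p} = p - 1 := by
  refine ⟨card_classes_eq_of_normalizer_eq hx hC, fun heq => ?_⟩
  have hle := relIndex_mul_card_classes_le hx hC
  rw [heq] at hle
  have h0 : (Subgroup.zpowers x).relIndex (Subgroup.normalizer (Subgroup.zpowers x : Set G)) ≠ 0 := by
    unfold Subgroup.relIndex
    exact Subgroup.index_ne_zero_of_finite
  by_contra hne
  have h1 : (Subgroup.zpowers x).relIndex (Subgroup.normalizer (Subgroup.zpowers x : Set G)) ≠ 1 := by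
    intro h
    rw [Subgroup.relIndex_eq_one] at h
    exact hne (le_antisymm h Subgroup.le_normalizer)
  have h2 : 2 ≤ (Subgroup.zpowers x).relIndex (Subgroup.normalizer (Subgroup.zpowers x : Set G)) := by
    omega
  have h3 := (Nat.mul_le_mul_right (p - 1) h2).trans hle
  have := (Fact.out : p.Prime).two_le
  omega

omit [Finite G] [Fact p.Prime] in
theorem centralizer_subtype_eq (hC : Subgroup.centralizer ({x} : Set G) = Subgroup.zpowers x)
    (D : Subgroup G) (hxD : x ∈ D) :
    Subgroup.centralizer ({(⟨x, hxD⟩ : D)} : Set D) = Subgroup.zpowers (⟨x, hxD⟩ : D) := by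
  ext g
  rw [mem_centralizer_singleton]
  constructor
  · intro h
    have h1 : (g : G) ∈ Subgroup.zpowers x := by
      rw [← hC, mem_centralizer_singleton]
      exact congrArg Subtype.val h
    obtain ⟨k, hk⟩ := Subgroup.mem_zpowers_iff.1 h1
    rw [Subgroup.mem_zpowers_iff]
    exact ⟨k, Subtype.ext (by simpa using hk)⟩
  · intro h
    obtain ⟨k, rfl⟩ := Subgroup.mem_zpowers_iff.1 h
    rw [← zpow_add_one, ← zpow_one_add, add_comm]

omit [Finite G] [Fact p.Prime] in
theorem orderOf_conj_eq (g : G) : orderOf (g * x * g⁻¹) = orderOf x := by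
  have : SemiconjBy g x (g * x * g⁻¹) := by simp [SemiconjBy]
  exact this.orderOf_eq.symm

omit [Finite G] [Fact p.Prime] in
theorem centralizer_conj_eq (hC : Subgroup.centralizer ({x} : Set G) = Subgroup.zpowers x) (g : G) :
    Subgroup.centralizer ({g * x * g⁻¹} : Set G) = Subgroup.zpowers (g * x * g⁻¹) := by
  ext y
  rw [mem_centralizer_singleton]
  have h1 : y * (g * x * g⁻¹) = g * x * g⁻¹ * y ↔ (g⁻¹ * y * g) * x = x * (g⁻¹ * y * g) := by
    constructor
    · intro h
      calc g⁻¹ * y * g * x = g⁻¹ * (y * (g * x * g⁻¹)) * g := by group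
        _ = g⁻¹ * (g * x * g⁻¹ * y) * g := by rw [h]
        _ = x * (g⁻¹ * y * g) := by group
    · intro h
      calc y * (g * x * g⁻¹) = g * (g⁻¹ * y * g * x) * g⁻¹ := by group
        _ = g * (x * (g⁻¹ * y * g)) * g⁻¹ := by rw [h]
        _ = g * x * g⁻¹ * y := by group
  rw [h1, ← mem_centralizer_singleton, hC, Subgroup.mem_zpowers_iff, Subgroup.mem_zpowers_iff]
  constructor
  · rintro ⟨k, hk⟩
    refine ⟨k, ?_⟩
    rw [conj_zpow, hk]; group
  · rintro ⟨k, hk⟩
    refine ⟨k, ?_⟩
    rw [← hk, conj_zpow]; group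

/-- Every normal subgroup of order prime to `p` lies in the commutator subgroup. -/
theorem le_commutator_of_normal_of_not_dvd (hx : orderOf x = p)
    (hC : Subgroup.centralizer ({x} : Set G) = Subgroup.zpowers x) (S : Subgroup G) [S.Normal]
    (hS : ¬ p ∣ Nat.card S) : S ≤ commutator G := by
  intro s hs
  obtain ⟨s', _, hs'⟩ := exists_conj_eq_of_mem hx hC S hS (s * x) (by simpa using hs)
  have h1 : s = s' * x * s'⁻¹ * x⁻¹ := by rw [hs']; group
  rw [h1, commutator_def]
  exact Subgroup.commutator_mem_commutator (Subgroup.mem_top s') (Subgroup.mem_top x)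

/-- A normal subgroup of `D ⊴ G` (with `x ∈ D`) of order divisible by `p` contains `G'`. -/
theorem commutator_le_map_of_dvd_card (hx : orderOf x = p)
    (hC : Subgroup.centralizer ({x} : Set G) = Subgroup.zpowers x) (D : Subgroup G) [hD : D.Normal]
    (hxD : x ∈ D) (T : Subgroup D) [T.Normal] (hT : p ∣ Nat.card T) :
    commutator G ≤ T.map D.subtype := by
  have hconj : ∀ g : G, g * x * g⁻¹ ∈ T.map D.subtype := by
    intro g
    have hgD : g * x * g⁻¹ ∈ D := hD.conj_mem x hxD g
    have h1 : orderOf (⟨g * x * g⁻¹, hgD⟩ : D) = p := by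
      rw [← Subgroup.orderOf_coe]
      change orderOf (g * x * g⁻¹) = p
      rw [orderOf_conj_eq, hx]
    have h2 := centralizer_subtype_eq (centralizer_conj_eq hC g) D hgD
    have h3 := mem_of_normal_of_dvd_card h1 h2 T hT
    exact ⟨_, h3, rfl⟩
  have hR : Subgroup.normalClosure ({x} : Set G) ≤ T.map D.subtype := by
    unfold Subgroup.normalClosure
    rw [Subgroup.closure_le]
    intro y hy
    rw [Group.mem_conjugatesOfSet_iff] at hy
    obtain ⟨b, hb, hby⟩ := hy
    rw [Set.mem_singleton_iff.1 hb, isConj_iff] at hby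
    obtain ⟨c, rfl⟩ := hby
    exact hconj c
  refine le_trans ?_ hR
  apply commutator_le_of_normal_of_dvd_card hx hC
  have hxR : x ∈ Subgroup.normalClosure ({x} : Set G) := Subgroup.subset_normalClosure rfl
  have := orderOf_dvd_natCard (⟨x, hxR⟩ : Subgroup.normalClosure ({x} : Set G))
  rwa [← Subgroup.orderOf_coe, hx] at this

end Cfsg.Agent.Lib.Helper23
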