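import Mathlib
import Cfsg.Agent.Lib.Helper23.SelfCent6
set_option autoImplicit false

/-! Groups with a self-centralizing element of prime order, part 7: normal subgroups of order `n_p`. -/

namespace Cfsg.Agent.Lib.Helper23

theorem card_sup_eq_mul_of_inf_eq_bot {G : Type*} [Group G] [Finite G] (H A : Subgroup G) [A.Normal]
    (h : H ⊓ A = ⊥) : Nat.card (H ⊔ A : Subgroup G) = Nat.card H * Nat.card A := by
  have h4 : Nat.card H * H.relIndex (H ⊔ A) = Nat.card (H ⊔ A : Subgroup G) := by
    rw [← Subgroup.relIndex_bot_left, ← Subgroup.relIndex_bot_left]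
    exact Subgroup.relIndex_mul_relIndex _ _ _ bot_le le_sup_left
  rw [← h4, relIndex_sup_normal_eq, ← Subgroup.inf_relIndex_right, h, Subgroup.relIndex_bot_left]

variable {G : Type*} [Group G] [Finite G] {p : ℕ} [Fact p.Prime] {x : G}

theorem card_sylow_eq_index_normalizer_zpowers (hx : orderOf x = p)
    (hC : Subgroup.centralizer ({x} : Set G) = Subgroup.zpowers x) :
    Nat.card (Sylow p G) = (Subgroup.normalizer (Subgroup.zpowers x : Set G)).index := by
  obtain ⟨P, hP⟩ := exists_sylow_eq_zpowers hx hC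
  have h0 : Nat.card (Sylow p G) = (Subgroup.normalizer ((P : Subgroup G) : Set G)).index :=
    Sylow.card_eq_index_normalizer P
  rw [h0, hP]

theorem relIndex_normalizer_sup_eq_card (hx : orderOf x = p)
    (hC : Subgroup.centralizer ({x} : Set G) = Subgroup.zpowers x) (S : Subgroup G) [S.Normal]
    (hS : ¬ p ∣ Nat.card S) :
    (Subgroup.normalizer (Subgroup.zpowers x : Set G)).relIndex
      (Subgroup.normalizer (Subgroup.zpowers x : Set G) ⊔ S) = Nat.card S := by
  rw [relIndex_sup_normal_eq, ← Subgroup.inf_relIndex_right, normalizer_inf_eq_bot hx hC S hS,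
    Subgroup.relIndex_bot_left]

theorem card_eq_card_sylow_of_sup_eq_top (hx : orderOf x = p)
    (hC : Subgroup.centralizer ({x} : Set G) = Subgroup.zpowers x) (S : Subgroup G) [S.Normal]
    (hS : ¬ p ∣ Nat.card S) (htop : Subgroup.normalizer (Subgroup.zpowers x : Set G) ⊔ S = ⊤) :
    Nat.card S = Nat.card (Sylow p G) := by
  rw [card_sylow_eq_index_normalizer_zpowers hx hC, ← relIndex_normalizer_sup_eq_card hx hC S hS, htop,
    Subgroup.relIndex_top_right]

theorem sup_eq_top_of_card_eq_card_sylow (hx : orderOf x = p)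
    (hC : Subgroup.centralizer ({x} : Set G) = Subgroup.zpowers x) (S : Subgroup G) [S.Normal]
    (hS : ¬ p ∣ Nat.card S) (hcard : Nat.card S = Nat.card (Sylow p G)) :
    Subgroup.normalizer (Subgroup.zpowers x : Set G) ⊔ S = ⊤ := by
  have h1 := Subgroup.relIndex_mul_index
    (le_sup_left : Subgroup.normalizer (Subgroup.zpowers x : Set G) ≤
      Subgroup.normalizer (Subgroup.zpowers x : Set G) ⊔ S)
  rw [relIndex_normalizer_sup_eq_card hx hC S hS, hcard, card_sylow_eq_index_normalizer_zpowers hx hC] at h1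
  rw [← Subgroup.index_eq_one]
  have hpos : 0 < (Subgroup.normalizer (Subgroup.zpowers x : Set G)).index :=
    Nat.pos_of_ne_zero Subgroup.index_ne_zero_of_finite
  exact Nat.eq_of_mul_eq_mul_left hpos (by rw [h1, mul_one])

/-- If `S` is normal of order prime to `p` and `G = N_G(⟨x⟩) S`, then `G'' ≤ S`. -/
theorem derivedSeries_two_le_of_sup_eq_top (hx : orderOf x = p)
    (hC : Subgroup.centralizer ({x} : Set G) = Subgroup.zpowers x) (S : Subgroup G) [hSn : S.Normal]
    (htop : Subgroup.normalizer (Subgroup.zpowers x : Set G) ⊔ S = ⊤) :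
    derivedSeries G 2 ≤ S := by
  set K := Subgroup.zpowers x ⊔ S with hK
  have hKn : K.Normal := by
    rw [← Subgroup.normalizer_eq_top_iff, eq_top_iff, ← htop]
    apply sup_le
    · intro n hn
      rw [Subgroup.mem_normalizer_iff_map_conj_eq, hK, Subgroup.map_sup]
      have h1 : (Subgroup.zpowers x).map (MulAut.conj n : G →* G) = Subgroup.zpowers x :=
        Subgroup.mem_normalizer_iff_map_conj_eq.1 hn
      have h2 : S.map (MulAut.conj n : G →* G) = S := by
        apply Subgroup.mem_normalizer_iff_map_conj_eq.1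
        rw [Subgroup.normalizer_eq_top]; exact Subgroup.mem_top n
      rw [h1, h2]
    · exact le_sup_right.trans Subgroup.le_normalizer
  have hxK : x ∈ K := (le_sup_left : Subgroup.zpowers x ≤ K) (Subgroup.mem_zpowers x)
  have hpK : p ∣ Nat.card K := by
    have := orderOf_dvd_natCard (⟨x, hxK⟩ : K)
    rwa [← Subgroup.orderOf_coe, hx] at this
  have hDK : commutator G ≤ K := commutator_le_of_normal_of_dvd_card hx hC K hpK
  have h2 : derivedSeries G 2 = ⁅commutator G, commutator G⁆ := by
    rw [derivedSeries_succ, derivedSeries_one]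
  rw [h2, Subgroup.commutator_le]
  have hdec : ∀ a ∈ K, ∃ i : ℤ, (QuotientGroup.mk a : G ⧸ S) = (QuotientGroup.mk x : G ⧸ S) ^ i := by
    intro a ha
    have ha' : a ∈ ((Subgroup.zpowers x ⊔ S : Subgroup G) : Set G) := ha
    rw [Subgroup.mul_normal] at ha'
    obtain ⟨u, hu, s, hs, rfl⟩ := Set.mem_mul.1 ha'
    obtain ⟨i, rfl⟩ := Subgroup.mem_zpowers_iff.1 hu
    refine ⟨i, ?_⟩
    rw [QuotientGroup.mk_mul, (QuotientGroup.eq_one_iff s).2 hs, mul_one, QuotientGroup.mk_zpow]
  intro a ha b hb
  obtain ⟨i, hi⟩ := hdec a (hDK ha)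
  obtain ⟨j, hj⟩ := hdec b (hDK hb)
  rw [← QuotientGroup.eq_one_iff, commutatorElement_def]
  simp only [QuotientGroup.mk_mul, QuotientGroup.mk_inv]
  rw [hi, hj, ← zpow_add, add_comm, zpow_add]
  group

/-- If `x ∈ G'` and `G'' ≠ G'`, then `G' = ⟨x⟩ G''` and `p ∤ #G''`. -/
theorem not_dvd_card_derivedSeries_two (hx : orderOf x = p)
    (hC : Subgroup.centralizer ({x} : Set G) = Subgroup.zpowers x)
    (hne : derivedSeries G 2 ≠ derivedSeries G 1) : ¬ p ∣ Nat.card (derivedSeries G 2) := by
  intro h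
  apply hne
  apply le_antisymm
  · exact derivedSeries_antitone G (by norm_num)
  · rw [derivedSeries_one]
    exact commutator_le_of_normal_of_dvd_card hx hC _ h

theorem commutator_le_zpowers_sup (hx : orderOf x = p)
    (hC : Subgroup.centralizer ({x} : Set G) = Subgroup.zpowers x) (hxD : x ∈ commutator G)
    (hne : derivedSeries G 2 ≠ derivedSeries G 1) :
    commutator G ≤ Subgroup.zpowers x ⊔ derivedSeries G 2 := by
  have hp2 := not_dvd_card_derivedSeries_two hx hC hne
  have hcent := centralizer_mk_eq hx hC (derivedSeries G 2) hp2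
  have h2 : derivedSeries G 2 = ⁅commutator G, commutator G⁆ := by
    rw [derivedSeries_succ, derivedSeries_one]
  intro d hd
  have h1 : (QuotientGroup.mk d : G ⧸ derivedSeries G 2) ∈
      Subgroup.zpowers (QuotientGroup.mk x : G ⧸ derivedSeries G 2) := by
    rw [← hcent, mem_centralizer_singleton]
    have h3 : d * x * d⁻¹ * x⁻¹ ∈ derivedSeries G 2 := by
      rw [h2]; exact Subgroup.commutator_mem_commutator hd hxD
    have h4 := (QuotientGroup.eq_one_iff _).2 h3
    simp only [QuotientGroup.mk_mul, QuotientGroup.mk_inv] at h4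
    rw [mul_inv_eq_one, mul_inv_eq_iff_eq_mul] at h4
    exact h4
  obtain ⟨k, hk⟩ := Subgroup.mem_zpowers_iff.1 h1
  rw [← QuotientGroup.mk_zpow, QuotientGroup.eq] at hk
  have h5 : d = x ^ k * ((x ^ k)⁻¹ * d) := by group
  rw [h5]
  exact Subgroup.mul_mem _ ((le_sup_left : Subgroup.zpowers x ≤ _) (Subgroup.zpow_mem _ (Subgroup.mem_zpowers x) k))
    ((le_sup_right : derivedSeries G 2 ≤ _) hk)

end Cfsg.Agent.Lib.Helper23
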