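import Mathlib

/-!
The conjugation action on linear characters of an abelian normal subgroup, and a norm trick.
-/

set_option autoImplicit false

namespace Cfsg.Agent.Lib.Helper23.TD

universe u v

section abstract

variable {G : Type u} [Group G] {X : Type v} [CommGroup X] (c : G → X →* X)

/-- the norm with respect to `z` -/
noncomputable def nrm (z : G) (n : ℕ) (κ : X) : X :=
  ∏ i ∈ Finset.range n, c (z ^ i) κ

theorem c_nrm_comm (z g : G) (n : ℕ) (κ : X)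
    (hc : ∀ (a b : G) (κ : X), c a (c b κ) = c b (c a κ)) :
    c g (nrm c z n κ) = nrm c z n (c g κ) := by
  rw [nrm, nrm, map_prod]
  exact Finset.prod_congr rfl fun i _ => hc _ _ _

theorem c_nrm (hcc : ∀ g₁ g₂ κ, c g₂ (c g₁ κ) = c (g₁ * g₂) κ) (h1 : ∀ κ, c 1 κ = κ)
    (z : G) (n : ℕ) (κ : X) (hz : c (z ^ n) κ = κ) :
    c z (nrm c z n κ) = nrm c z n κ := by
  rw [nrm, map_prod]
  have h1' : ∀ i, c z (c (z ^ i) κ) = c (z ^ (i + 1)) κ := fun i => by
    rw [hcc, pow_succ]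
  simp only [h1']
  have h2 := Finset.prod_range_succ (fun i => c (z ^ i) κ) n
  have h3 := Finset.prod_range_succ' (fun i => c (z ^ i) κ) n
  rw [h2, hz] at h3
  simp only [pow_zero, h1] at h3
  exact (mul_right_cancel h3).symm

theorem nrm_of_fixed (hcc : ∀ g₁ g₂ κ, c g₂ (c g₁ κ) = c (g₁ * g₂) κ) (h1 : ∀ κ, c 1 κ = κ)
    (z : G) (n : ℕ) (κ : X) (hz : c z κ = κ) : nrm c z n κ = κ ^ n := by
  have h1 : ∀ i, c (z ^ i) κ = κ := by
    intro i
    induction i with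
    | zero => rw [pow_zero, h1]
    | succ i ih => rw [pow_succ, ← hcc, ih, hz]
  rw [nrm]
  simp only [h1, Finset.prod_const, Finset.card_range]

theorem nrm_mul (z : G) (n : ℕ) (κ κ' : X) :
    nrm c z n (κ * κ') = nrm c z n κ * nrm c z n κ' := by
  simp only [nrm, map_mul, Finset.prod_mul_distrib]

theorem nrm_inv (z : G) (n : ℕ) (κ : X) : nrm c z n κ⁻¹ = (nrm c z n κ)⁻¹ := by
  simp only [nrm, map_inv, Finset.prod_inv_distrib]

theorem nrm_pow (z : G) (n k : ℕ) (κ : X) : nrm c z n (κ ^ k) = (nrm c z n κ) ^ k := by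
  simp only [nrm, map_pow, Finset.prod_pow]

/-- the key step: stabilisers of products -/
theorem stab_le (hcc : ∀ g₁ g₂ κ, c g₂ (c g₁ κ) = c (g₁ * g₂) κ) (h1 : ∀ κ, c 1 κ = κ)
    (z : G) (n : ℕ)
    (hc : ∀ (a b : G) (κ : X), c a (c b κ) = c b (c a κ))
    (hzn : ∀ κ : X, c (z ^ n) κ = κ)
    (hn : ∀ κ : X, κ ^ n = 1 → κ = 1)
    (κ : X) (hκ : c z κ ≠ κ) :
    ∃ ν : X, c z ν ≠ ν ∧ ∀ lam : X, c z lam = lam →
      ∀ g : G, c g (lam * ν) = lam * ν → c g lam = lam := by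
  have hNfix := c_nrm c hcc h1 z n κ (hzn κ)
  refine ⟨κ ^ n * (nrm c z n κ)⁻¹, ?_, ?_⟩
  · intro h
    rw [map_mul, map_inv, hNfix, map_pow] at h
    have h1 : (c z κ) ^ n = κ ^ n := mul_right_cancel h
    have h2 : (c z κ * κ⁻¹) ^ n = 1 := by rw [mul_pow, h1, inv_pow, mul_inv_cancel]
    exact hκ (mul_inv_eq_one.1 (hn _ h2))
  · have hNν : nrm c z n (κ ^ n * (nrm c z n κ)⁻¹) = 1 := by
      rw [nrm_mul, nrm_inv, nrm_pow, nrm_of_fixed c hcc h1 z n _ hNfix, mul_inv_cancel]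
    intro lam hlam g hg
    set ν := κ ^ n * (nrm c z n κ)⁻¹ with hν
    rw [map_mul] at hg
    have e1 : c g lam * lam⁻¹ = ν * (c g ν)⁻¹ := by
      rw [mul_inv_eq_iff_eq_mul, mul_assoc, mul_comm _ lam, ← mul_assoc, eq_mul_inv_iff_mul_eq,
        mul_comm ν lam]
      exact hg
    have e2 : c z (c g lam * lam⁻¹) = c g lam * lam⁻¹ := by
      rw [map_mul, map_inv, hc, hlam]
    have e3 : nrm c z n (c g lam * lam⁻¹) = 1 := by
      rw [e1, nrm_mul, nrm_inv, ← c_nrm_comm c z g n ν hc, hNν, map_one, inv_one, mul_one]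
    rw [nrm_of_fixed c hcc h1 z n _ e2] at e3
    exact mul_inv_eq_one.1 (hn _ e3)

end abstract

variable {G : Type u} [Group G] (H : Subgroup G) [hH : H.Normal]

/-- conjugation action on linear characters -/
noncomputable def cj (g : G) : (H →* ℂˣ) →* (H →* ℂˣ) where
  toFun κ := κ.comp (MulAut.conjNormal g : MulAut H).toMonoidHom
  map_one' := rfl
  map_mul' _ _ := rfl

theorem cj_apply (g : G) (κ : H →* ℂˣ) (h : H) :
    cj H g κ h = κ ⟨g * h * g⁻¹, hH.conj_mem h h.2 g⟩ := by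
  show κ (MulAut.conjNormal g h) = _
  congr 1

theorem cj_cj (g₁ g₂ : G) (κ : H →* ℂˣ) : cj H g₂ (cj H g₁ κ) = cj H (g₁ * g₂) κ := by
  ext h
  rw [cj_apply, cj_apply, cj_apply]
  congr 3
  simp only [mul_inv_rev]
  group

theorem cj_one (κ : H →* ℂˣ) : cj H 1 κ = κ := by
  ext h
  rw [cj_apply]
  congr 3
  simp

theorem cj_of_mem (hab : ∀ a ∈ H, ∀ b ∈ H, a * b = b * a) {g : G} (hg : g ∈ H) (κ : H →* ℂˣ) :
    cj H g κ = κ := by
  ext h
  rw [cj_apply]
  congr 3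
  rw [hab g hg h h.2, mul_inv_cancel_right]

end Cfsg.Agent.Lib.Helper23.TD
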