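import Mathlib
import Cfsg.Agent.Lib.Helper23.TD1
import Cfsg.Agent.Lib.Helper23.AN3
import Cfsg.Agent.S0865

/-!
Two character degrees: stabilisers of linear characters of the abelian Hall subgroup.
-/

set_option autoImplicit false

namespace Cfsg.Agent.Lib.Helper23.TD

open Cfsg Cfsg.Agent.CharLib Cfsg.Agent.CharLib.H2 Cfsg.Agent.CharLib.L Cfsg.Agent.Lib.Helper23
open Cfsg.Agent.Lib.Helper10 Cfsg.Agent.H25
open scoped ComplexConjugate

universe u

variable {G : Type u} [Group G] [Fintype G] (H : Subgroup G) [hH : H.Normal]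

/-- the stabiliser -/
def stab (κ : H →* ℂˣ) : Subgroup G := inertia hH (fun h => (κ h : ℂ))

omit [Fintype G] in
theorem mem_stab (κ : H →* ℂˣ) (g : G) : g ∈ stab H κ ↔ cj H g κ = κ := by
  rw [stab, mem_inertia]
  constructor
  · intro h
    ext x
    rw [cj_apply]
    exact congrFun h x
  · intro h
    funext x
    rw [Cfsg.Agent.CharLib.H2.conjFun_apply, ← cj_apply, h]

theorem index_stab (m : ℕ)
    (hcd : ∀ χ : IrrCharacter G, charDegree (χ : G → ℂ) = 1 ∨ charDegree (χ : G → ℂ) = m)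
    (hcop : Nat.Coprime (Nat.card H) H.index) (κ : H →* ℂˣ) (hκ : stab H κ ≠ ⊤) :
    (stab H κ).index = m := by
  classical
  obtain ⟨θ, hθdef⟩ : ∃ θ : H → ℂ, θ = fun h => (κ h : ℂ) := ⟨_, rfl⟩
  have hθ : IsIrrCharacter H θ := hθdef ▸ isIrrCharacter_of_hom κ
  obtain ⟨T, hT⟩ : ∃ T, T = stab H κ := ⟨_, rfl⟩
  have hTmem : ∀ g, g ∈ T ↔ Cfsg.Agent.CharLib.H2.conjFun hH θ g = θ := by
    intro g
    rw [hT, hθdef]
    exact Iff.rfl
  rw [← hT] at hκ ⊢
  have hHT : H ≤ T := by
    rw [hT, stab, ← hθdef]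
    exact le_inertia hH (isClassFunction_of_irr hθ)
  letI : Fintype H := Fintype.ofFinite H
  letI : Fintype T := Fintype.ofFinite T
  have hθ1 : θ 1 = 1 := by rw [hθdef]; simp
  have hcop' : Nat.Coprime (H.subgroupOf T).index (orderOf (resSub H T θ)) := by
    have h1 : (H.subgroupOf T).index ∣ H.index := Subgroup.relIndex_dvd_index_of_le hHT
    have h2 : orderOf (resSub H T θ) ∣ Nat.card H := by
      apply orderOf_dvd_of_pow_eq_one
      funext x
      rw [Pi.pow_apply, resSub, hθdef]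
      simp only [Pi.one_apply]
      rw [← Units.val_pow_eq_pow_val, ← map_pow, pow_card_eq_one', map_one, Units.val_one]
    exact (hcop.symm.coprime_dvd_left h1).coprime_dvd_right h2
  obtain ⟨μ, ⟨hμc, hμ1, hμres, -⟩, -⟩ := Cfsg.Agent.S0865.result (G := T) (H.subgroupOf T)
    (resSub H T θ) ⟨isCharacter_of_irr (isIrrCharacter_resSub hHT hθ), hθ1⟩ (by
      intro g n
      have := congrFun ((hTmem g).1 g.2) ⟨((n : T) : G), Subgroup.mem_subgroupOf.1 n.2⟩
      exact this) hcop'
  have hμirr : IsIrrCharacter T μ := by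
    have := isIrrCharacter_of_hom (Cfsg.Agent.H6.linCharHom μ ⟨hμc, hμ1⟩)
    simpa using this
  have hres : (fun n : H => μ ⟨(n : G), hHT n.2⟩) = θ := by
    funext n
    exact hμres ⟨⟨(n : G), hHT n.2⟩, Subgroup.mem_subgroupOf.2 n.2⟩
  have hirr := irr_indFun_of_over hH hHT hθ (fun g h => (hTmem g).2 h) hμirr (by
    rw [hres, classInner_irr_self hθ]; exact one_ne_zero)
  have hdeg := charDegree_cast_irr ⟨_, hirr⟩
  simp only [indFun_apply_one, hμ1, mul_one] at hdeg
  have hdeg' : charDegree (indFun T μ) = T.index := by exact_mod_cast hdeg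
  rcases hcd ⟨_, hirr⟩ with h | h
  · exfalso
    apply hκ
    apply Subgroup.index_eq_one.1
    rw [← hdeg']
    exact h
  · rw [← hdeg']
    exact h

end Cfsg.Agent.Lib.Helper23.TD
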