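import Mathlib
import Cfsg.Agent.Lib.Helper23.TD2

/-!
Two character degrees: stabilisers of non-invariant characters act trivially.
-/

set_option autoImplicit false

namespace Cfsg.Agent.Lib.Helper23.TD

open Cfsg Cfsg.Agent.CharLib Cfsg.Agent.CharLib.H2 Cfsg.Agent.CharLib.L Cfsg.Agent.Lib.Helper23
open Cfsg.Agent.Lib.Helper10 Cfsg.Agent.H25
open scoped ComplexConjugate

universe u

variable {G : Type u} [Group G] [Fintype G] (H : Subgroup G) [hH : H.Normal]

theorem commutator_le_stab (m : ℕ) (hm1 : m ≠ 1)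
    (hcd : ∀ χ : IrrCharacter G, charDegree (χ : G → ℂ) = 1 ∨ charDegree (χ : G → ℂ) = m)
    (hcop : Nat.Coprime (Nat.card H) H.index) (κ : H →* ℂˣ) : commutator G ≤ stab H κ := by
  by_cases h : stab H κ = ⊤
  · rw [h]; exact le_top
  · exact AN.commutator_le m hm1 hcd _ (index_stab H m hcd hcop κ h)

theorem cj_comm (m : ℕ) (hm1 : m ≠ 1)
    (hcd : ∀ χ : IrrCharacter G, charDegree (χ : G → ℂ) = 1 ∨ charDegree (χ : G → ℂ) = m)
    (hcop : Nat.Coprime (Nat.card H) H.index) (a b : G) (κ : H →* ℂˣ) :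
    cj H a (cj H b κ) = cj H b (cj H a κ) := by
  rw [cj_cj, cj_cj]
  have h1 : a * b * a⁻¹ * b⁻¹ ∈ stab H κ := commutator_le_stab H m hm1 hcd hcop κ
    (Subgroup.commutator_mem_commutator (Subgroup.mem_top a) (Subgroup.mem_top b))
  rw [mem_stab] at h1
  have e : a * b = (a * b * a⁻¹ * b⁻¹) * (b * a) := by group
  calc cj H (b * a) κ = cj H (b * a) (cj H (a * b * a⁻¹ * b⁻¹) κ) := by rw [h1]
    _ = cj H ((a * b * a⁻¹ * b⁻¹) * (b * a)) κ := cj_cj H _ _ κ
    _ = cj H (a * b) κ := by rw [← e]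

theorem eq_one_of_coprime_pow {X : Type*} [Monoid X] (x : X) {a b : ℕ} (hab : Nat.Coprime a b)
    (h1 : x ^ a = 1) (h2 : x ^ b = 1) : x = 1 :=
  orderOf_eq_one_iff.1 (Nat.eq_one_of_dvd_coprimes hab (orderOf_dvd_of_pow_eq_one h1)
    (orderOf_dvd_of_pow_eq_one h2))

/-- the power taken in the monoid structure -/
def gpow {X : Type*} [Monoid X] (x : X) (n : ℕ) : X := x ^ n

omit [Fintype G] in
theorem pow_eq_one_imp [Finite G] (hcop : Nat.Coprime (Nat.card H) H.index) (κ : H →* ℂˣ)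
    (h : gpow κ H.index = 1) : κ = 1 := by
  have h1 : gpow κ (Nat.card H) = 1 := by
    ext x
    have h2 := map_pow (MonoidHom.eval x : (H →* ℂˣ) →* ℂˣ) κ (Nat.card H)
    have h3 : (gpow κ (Nat.card H)) x = (κ x) ^ (Nat.card H) := h2
    rw [h3, ← map_pow, pow_card_eq_one', map_one]
    rfl
  exact eq_one_of_coprime_pow κ hcop h1 h

theorem fixes_all (m : ℕ) (hm1 : m ≠ 1)
    (hcd : ∀ χ : IrrCharacter G, charDegree (χ : G → ℂ) = 1 ∨ charDegree (χ : G → ℂ) = m)
    (hab : ∀ a ∈ H, ∀ b ∈ H, a * b = b * a)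
    (hcop : Nat.Coprime (Nat.card H) H.index) (lam : H →* ℂˣ) (hlam : stab H lam ≠ ⊤)
    (z : G) (hz : z ∈ stab H lam) (κ : H →* ℂˣ) : cj H z κ = κ := by
  by_contra hκ
  obtain ⟨ν, hν, hstab⟩ := stab_le (cj H) (cj_cj H) (cj_one H) z H.index
    (cj_comm H m hm1 hcd hcop) (fun κ => cj_of_mem H hab (Subgroup.pow_index_mem H z) κ)
    (pow_eq_one_imp H hcop) κ hκ
  rw [mem_stab] at hz
  have hle : stab H (lam * ν) ≤ stab H lam := by
    intro g hg
    rw [mem_stab] at hg ⊢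
    exact hstab lam hz g hg
  have hzn : z ∉ stab H (lam * ν) := by
    intro h
    rw [mem_stab, map_mul, hz] at h
    exact hν (mul_left_cancel h)
  have hne : stab H (lam * ν) ≠ ⊤ := fun h => hzn (h ▸ Subgroup.mem_top z)
  have i1 := index_stab H m hcd hcop _ hne
  have i2 := index_stab H m hcd hcop _ hlam
  have h3 := Subgroup.relIndex_mul_index hle
  rw [i1, i2] at h3
  have hm0 : 0 < m := by
    rw [← i2]
    exact Nat.pos_of_ne_zero Subgroup.index_ne_zero_of_finite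
  have h4 : (stab H (lam * ν)).relIndex (stab H lam) = 1 := by
    have : (stab H (lam * ν)).relIndex (stab H lam) * m = 1 * m := by rw [h3, one_mul]
    exact Nat.eq_of_mul_eq_mul_right hm0 this
  exact hzn (Subgroup.relIndex_eq_one.1 h4 ((mem_stab H lam z).2 hz))

end Cfsg.Agent.Lib.Helper23.TD
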