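import Mathlib
import Cfsg.Agent.Lib.Helper23.TD3
import Cfsg.Agent.H25.RealExt
import Cfsg.Agent.CharLib.L.AbelianIndex

/-!
Two character degrees: the stabiliser of a non-invariant character is abelian.
-/

set_option autoImplicit false

namespace Cfsg.Agent.Lib.Helper23.TD

open Cfsg Cfsg.Agent.CharLib Cfsg.Agent.CharLib.H2 Cfsg.Agent.CharLib.L Cfsg.Agent.Lib.Helper23
open Cfsg.Agent.Lib.Helper10 Cfsg.Agent.H25
open scoped ComplexConjugate

universe u

variable {G : Type u} [Group G] [Fintype G] (H : Subgroup G) [hH : H.Normal]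

omit [Fintype G] in
theorem le_stab (κ : H →* ℂˣ) : H ≤ stab H κ :=
  le_inertia hH (isClassFunction_of_irr (isIrrCharacter_of_hom κ))

theorem exists_ext (hcop : Nat.Coprime (Nat.card H) H.index) (κ : H →* ℂˣ) :
    ∃ μ : stab H κ →* ℂˣ, ∀ h : H, μ ⟨h, le_stab H κ h.2⟩ = κ h := by
  classical
  obtain ⟨θ, hθdef⟩ : ∃ θ : H → ℂ, θ = fun h => (κ h : ℂ) := ⟨_, rfl⟩
  have hθ : IsIrrCharacter H θ := hθdef ▸ isIrrCharacter_of_hom κ
  have hHT := le_stab H κ
  obtain ⟨T, hT⟩ : ∃ T, T = stab H κ := ⟨_, rfl⟩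
  have hTmem : ∀ g, g ∈ T ↔ Cfsg.Agent.CharLib.H2.conjFun hH θ g = θ := by
    intro g
    rw [hT, hθdef]
    exact Iff.rfl
  suffices h : ∀ hHT : H ≤ T, ∃ μ : T →* ℂˣ, ∀ h : H, μ ⟨h, hHT h.2⟩ = κ h by
    subst hT
    exact h hHT
  intro hHT
  letI : Fintype H := Fintype.ofFinite H
  letI : Fintype T := Fintype.ofFinite T
  have hθ1 : θ 1 = 1 := by rw [hθdef]; simp
  have hcop' : Nat.Coprime (H.subgroupOf T).index (orderOf (resSub H T θ)) := by
    have h1 : (H.subgroupOf T).index ∣ H.index := Subgroup.relIndex_dvd_index_of_le hHT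
    have h2 : orderOf (resSub H T θ) ∣ Nat.card H := by
      apply orderOf_dvd_of_pow_eq_one
      funext x
      rw [Pi.pow_apply, resSub, hθdef]
      simp only [Pi.one_apply]
      rw [← Units.val_pow_eq_pow_val, ← map_pow, pow_card_eq_one', map_one, Units.val_one]
    exact (hcop.symm.coprime_dvd_left h1).coprime_dvd_right h2
  obtain ⟨μ, ⟨hμc, hμ1, hμres, -⟩, -⟩ := Cfsg.Agent.S0865.result (G := T) (H.subgroupOf T)
    (resSub H T θ) ⟨isCharacter_of_irr (isIrrCharacter_resSub hHT hθ), hθ1⟩ (by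
      intro g n
      have := congrFun ((hTmem g).1 g.2) ⟨((n : T) : G), Subgroup.mem_subgroupOf.1 n.2⟩
      exact this) hcop'
  refine ⟨Cfsg.Agent.H6.linCharHom μ ⟨hμc, hμ1⟩, fun h => Units.ext ?_⟩
  rw [Cfsg.Agent.H6.linCharHom_apply]
  have := hμres ⟨⟨(h : G), hHT h.2⟩, Subgroup.mem_subgroupOf.2 h.2⟩
  rw [hθdef] at this
  exact this

theorem stab_comm (m : ℕ) (hm1 : m ≠ 1)
    (hcd : ∀ χ : IrrCharacter G, charDegree (χ : G → ℂ) = 1 ∨ charDegree (χ : G → ℂ) = m)
    (hab : ∀ a ∈ H, ∀ b ∈ H, a * b = b * a)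
    (hcop : Nat.Coprime (Nat.card H) H.index) (lam0 : H →* ℂˣ) (h0 : stab H lam0 ≠ ⊤) :
    ∀ a ∈ stab H lam0, ∀ b ∈ stab H lam0, a * b = b * a := by
  classical
  have hHA := le_stab H lam0
  have hidx := index_stab H m hcd hcop lam0 h0
  obtain ⟨μ0, hμ0⟩ := exists_ext H hcop lam0
  letI : Fintype H := Fintype.ofFinite H
  letI : Fintype (stab H lam0) := Fintype.ofFinite _
  have key1 : ∀ κ : H →* ℂˣ, stab H κ ≠ ⊤ → stab H κ ≤ stab H lam0 := by
    intro κ hκ g hg
    rw [mem_stab]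
    exact fixes_all H m hm1 hcd hab hcop κ hκ g hg lam0
  have key2 : ∀ θ : stab H lam0 → ℂ, IsIrrCharacter (stab H lam0) θ → ∀ κ : H →* ℂˣ,
      stab H κ ≠ ⊤ → classInner (fun n : H => θ ⟨(n : G), hHA n.2⟩) (fun h => (κ h : ℂ)) ≠ 0 →
      θ 1 = 1 := by
    intro θ hθ κ hκ hc
    have hirr := irr_indFun_of_over hH hHA (isIrrCharacter_of_hom κ)
      (fun g h => key1 κ hκ h) hθ hc
    have hdeg := charDegree_cast_irr ⟨_, hirr⟩
    simp only [indFun_apply_one, hidx] at hdeg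
    rw [← charDegree_cast (isCharacter_of_irr hθ)] at hdeg ⊢
    have hdeg' : charDegree (indFun (stab H lam0) θ) = m * charDegree θ := by exact_mod_cast hdeg
    have hm0 : 0 < m := by
      rw [← hidx]
      exact Nat.pos_of_ne_zero Subgroup.index_ne_zero_of_finite
    rcases hcd ⟨_, hirr⟩ with h | h
    · exfalso
      have h2 : m * charDegree θ = 1 := by rw [← hdeg']; exact h
      exact hm1 (Nat.eq_one_of_mul_eq_one_right h2)
    · have h2 : m * charDegree θ = m * 1 := by rw [← hdeg', mul_one]; exact h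
      rw [Nat.eq_of_mul_eq_mul_left hm0 h2]
      simp
  have hlin : ∀ θ : IrrCharacter (stab H lam0), (θ : stab H lam0 → ℂ) 1 = 1 := by
    intro θ
    have hθH : IsCharacter H (fun n : H => (θ : stab H lam0 → ℂ) ⟨(n : G), hHA n.2⟩) :=
      isCharacter_comp (isCharacter_of_irr θ.2) (Subgroup.inclusion hHA)
    have hne : (fun n : H => (θ : stab H lam0 → ℂ) ⟨(n : G), hHA n.2⟩) ≠ 0 := fun h =>
      irr_apply_one_ne_zero θ (congrFun h 1)
    obtain ⟨κ0, hκ0⟩ := exists_constituent hθH hne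
    have hκ1 : (κ0 : H → ℂ) 1 = 1 :=
      irr_apply_one_of_comm (fun a b => Subtype.ext (hab a a.2 b b.2)) κ0
    obtain ⟨κ, hκ⟩ : ∃ κ : H →* ℂˣ, (fun h => (κ h : ℂ)) = (κ0 : H → ℂ) :=
      ⟨Cfsg.Agent.H6.linCharHom κ0 ⟨isCharacter_of_irr κ0.2, hκ1⟩, by
        funext h
        rw [Cfsg.Agent.H6.linCharHom_apply]⟩
    rw [← hκ] at hκ0
    by_cases hs : stab H κ = ⊤
    · have hs' : stab H (lam0 * κ) ≠ ⊤ := by
        intro h
        apply h0
        rw [eq_top_iff]
        intro g _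
        have h1 : g ∈ stab H (lam0 * κ) := h ▸ Subgroup.mem_top g
        have h2 : g ∈ stab H κ := hs ▸ Subgroup.mem_top g
        rw [mem_stab] at h1 h2 ⊢
        rw [map_mul, h2] at h1
        exact mul_right_cancel h1
      have hirr' := isIrrCharacter_hom_mul μ0 θ.2
      have h3 := key2 _ hirr' (lam0 * κ) hs' (by
        intro h
        apply hκ0
        rw [← h]
        simp only [classInner]
        congr 1
        refine Finset.sum_congr rfl fun n _ => ?_
        rw [hμ0 n, MonoidHom.mul_apply, Units.val_mul, map_mul]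
        have := hom_mul_conj lam0 n
        linear_combination (-(θ : stab H lam0 → ℂ) ⟨(n : G), hHA n.2⟩ * conj (κ n : ℂ)) * this)
      simpa using h3
    · exact key2 _ θ.2 κ hs hκ0
  intro a ha b hb
  exact congrArg Subtype.val (comm_of_all_linear hlin ⟨a, ha⟩ ⟨b, hb⟩)

end Cfsg.Agent.Lib.Helper23.TD
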