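import Mathlib
import Cfsg.Agent.Lib.Helper23.TD4

/-!
Two character degrees: the structure theorem.
-/

set_option autoImplicit false

namespace Cfsg.Agent.Lib.Helper23.TD

open Cfsg Cfsg.Agent.CharLib Cfsg.Agent.CharLib.H2 Cfsg.Agent.CharLib.L Cfsg.Agent.Lib.Helper23
open Cfsg.Agent.Lib.Helper10 Cfsg.Agent.H25
open scoped ComplexConjugate

universe u

theorem exists_hom' {G : Type u} [Group G] [Finite G] (m : ℕ)
    (hcd : ∀ χ : IrrCharacter G, charDegree (χ : G → ℂ) = 1 ∨ charDegree (χ : G → ℂ) = m) :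
    ∃ (Q : Type u) (_ : Group Q) (_ : Group.IsNilpotent Q) (f : G →* Q),
      (∀ a ∈ f.ker, ∀ b ∈ f.ker, a * b = b * a) ∧ Nat.Coprime (Nat.card f.ker) f.ker.index := by
  classical
  cases nonempty_fintype G
  have h : ∀ p : m.primeFactors, ∃ N : Subgroup G, N.Normal ∧ (Nat.card N).Coprime p ∧
      ∃ k : ℕ, N.index = (p : ℕ) ^ k := by
    intro p
    apply Cfsg.Agent.S4456.result p (Nat.prime_of_mem_primeFactors p.2)
    intro χ hχ
    rw [(hcd χ).resolve_left hχ]
    exact Nat.dvd_of_mem_primeFactors p.2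
  choose N hNn hNc hNi using h
  haveI : ∀ p, (N p).Normal := hNn
  have hnil : ∀ p, Group.IsNilpotent (G ⧸ N p) := by
    intro p
    haveI : Fact (p : ℕ).Prime := ⟨Nat.prime_of_mem_primeFactors p.2⟩
    obtain ⟨k, hk⟩ := hNi p
    have : IsPGroup (p : ℕ) (G ⧸ N p) := IsPGroup.of_card (n := k) (by
      rw [← hk, Subgroup.index_eq_card])
    exact this.isNilpotent
  refine ⟨∀ p : m.primeFactors, G ⧸ N p, inferInstance, inferInstance,
    MonoidHom.pi (fun p => QuotientGroup.mk' (N p)), ?_⟩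
  have hidx : (MonoidHom.pi (fun p => QuotientGroup.mk' (N p))).ker.index ∣
      ∏ p : m.primeFactors, (N p).index := by
    rw [Subgroup.index_ker]
    have h1 := Subgroup.card_subgroup_dvd_card (MonoidHom.pi (fun p => QuotientGroup.mk' (N p))).range
    rw [Nat.card_pi] at h1
    simpa only [Subgroup.index_eq_card] using h1
  obtain ⟨Hh, hHh⟩ : ∃ Hh : Subgroup G, Hh = (MonoidHom.pi (fun p => QuotientGroup.mk' (N p))).ker :=
    ⟨_, rfl⟩
  rw [← hHh] at hidx ⊢
  have hHn : Hh.Normal := by rw [hHh]; infer_instance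
  have hle : ∀ p, Hh ≤ N p := by
    intro p a ha
    rw [hHh, MonoidHom.mem_ker] at ha
    have := congrFun ha p
    exact (QuotientGroup.eq_one_iff a).1 this
  letI : Fintype Hh := Fintype.ofFinite Hh
  have hlin : ∀ θ : IrrCharacter Hh, (θ : Hh → ℂ) 1 = 1 := by
    intro θ
    obtain ⟨χ, hχ⟩ := exists_irr_over Hh θ.2
    obtain ⟨hdvd, -⟩ := Cfsg.Agent.S0887.result Hh χ χ.2 θ θ.2 hχ _ _ (charDegree_cast_irr χ).symm
      (charDegree_cast_irr θ).symm
    have h1 : charDegree (θ : Hh → ℂ) = 1 := by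
      by_contra hne
      obtain ⟨q, hq, hqd⟩ := Nat.exists_prime_and_dvd hne
      rcases hcd χ with hc | hc
      · rw [hc] at hdvd
        exact hne (Nat.dvd_one.1 hdvd)
      · rw [hc] at hdvd
        have hm0 : m ≠ 0 := by
          rintro rfl
          exact (charDegree_pos_irr χ).ne' hc
        have hqm : q ∈ m.primeFactors := Nat.mem_primeFactors.2 ⟨hq, hqd.trans hdvd, hm0⟩
        have h2 : q ∣ Nat.card (N ⟨q, hqm⟩) :=
          (hqd.trans (charDegree_dvd_card θ)).trans (Subgroup.card_dvd_of_le (hle ⟨q, hqm⟩))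
        have h3 := hNc ⟨q, hqm⟩
        exact hq.one_lt.ne' (Nat.eq_one_of_dvd_coprimes h3 h2 (dvd_refl q))
    rw [← charDegree_cast_irr, h1]
    simp
  refine ⟨fun a ha b hb => congrArg Subtype.val (comm_of_all_linear hlin ⟨a, ha⟩ ⟨b, hb⟩), ?_⟩
  apply Nat.Coprime.symm
  apply Nat.Coprime.coprime_dvd_left hidx
  apply Nat.Coprime.prod_left
  intro p _
  obtain ⟨k, hk⟩ := hNi p
  rw [hk]
  apply Nat.Coprime.pow_left
  exact ((hNc p).coprime_dvd_left (Subgroup.card_dvd_of_le (hle p))).symm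

theorem normal_of_commutator_le {G : Type u} [Group G] (T : Subgroup G) (h : commutator G ≤ T) :
    T.Normal := by
  refine ⟨fun t ht g => ?_⟩
  have h1 : g * t * g⁻¹ * t⁻¹ ∈ T :=
    h (Subgroup.commutator_mem_commutator (Subgroup.mem_top g) (Subgroup.mem_top t))
  have := T.mul_mem h1 ht
  simpa using this

/-- linear characters separate the points of a finite abelian group -/
theorem eq_one_of_forall_hom {H : Type u} [Group H] [Finite H] (hab : ∀ a b : H, a * b = b * a)
    (x : H) (hx : ∀ κ : H →* ℂˣ, κ x = 1) : x = 1 := by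
  classical
  cases nonempty_fintype H
  have h1 := sum_irr_one_mul (G := H) x
  have h2 : ∑ χ : IrrCharacter H, (χ : H → ℂ) 1 * (χ : H → ℂ) x =
      ∑ χ : IrrCharacter H, (χ : H → ℂ) 1 ^ 2 := by
    apply Finset.sum_congr rfl
    intro χ _
    have hχ1 := irr_apply_one_of_comm hab χ
    have h3 := hx (Cfsg.Agent.H6.linCharHom χ ⟨isCharacter_of_irr χ.2, hχ1⟩)
    have h4 := congrArg (fun u : ℂˣ => (u : ℂ)) h3
    simp only [Cfsg.Agent.H6.linCharHom_apply, Units.val_one] at h4
    rw [h4, hχ1]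
    norm_num
  rw [h2, sum_irr_sq] at h1
  by_contra hc
  rw [if_neg hc] at h1
  exact absurd h1 card_ne_zero_complex

end Cfsg.Agent.Lib.Helper23.TD
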