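import Mathlib
import Cfsg.Agent.Lib.Helper23.TD5

/-!
Two character degrees: the structure theorem, final part.
-/

set_option autoImplicit false

namespace Cfsg.Agent.Lib.Helper23.TD

open Cfsg Cfsg.Agent.CharLib Cfsg.Agent.CharLib.H2 Cfsg.Agent.CharLib.L Cfsg.Agent.Lib.Helper23
open Cfsg.Agent.Lib.Helper10 Cfsg.Agent.H25
open scoped ComplexConjugate

universe u

theorem commutator_le_sylow {G : Type u} [Group G] [Finite G] (m : ℕ)
    (hcd : ∀ χ : IrrCharacter G, charDegree (χ : G → ℂ) = 1 ∨ charDegree (χ : G → ℂ) = m)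
    (p : ℕ) [Fact p.Prime] (hpm : p ∣ m) (P : Sylow p G) [hP : (P : Subgroup G).Normal] :
    commutator G ≤ P := by
  classical
  cases nonempty_fintype G
  have hlin : ∀ β : IrrCharacter (G ⧸ (P : Subgroup G)), (β : G ⧸ (P : Subgroup G) → ℂ) 1 = 1 := by
    intro β
    have hirr : IsIrrCharacter G (fun x => (β : G ⧸ (P : Subgroup G) → ℂ)
        (QuotientGroup.mk' (P : Subgroup G) x)) :=
      isIrrCharacter_comp_of_surjective β.2 _ (QuotientGroup.mk'_surjective _)
    have hdeg : charDegree (fun x => (β : G ⧸ (P : Subgroup G) → ℂ)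
        (QuotientGroup.mk' (P : Subgroup G) x)) = charDegree (β : G ⧸ (P : Subgroup G) → ℂ) := by
      simp only [charDegree, map_one]
    have hdvd := charDegree_dvd_card β
    rcases hcd ⟨_, hirr⟩ with h | h
    · rw [← charDegree_cast_irr, ← hdeg, h]; simp
    · exfalso
      have h' : charDegree (β : G ⧸ (P : Subgroup G) → ℂ) = m := by rw [← hdeg]; exact h
      rw [h', ← Subgroup.index_eq_card] at hdvd
      exact P.not_dvd_index (hpm.trans hdvd)
  have hcomm := comm_of_all_linear hlin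
  rw [commutator_def, Subgroup.commutator_le]
  intro a _ b _
  have h1 : ((a * b * a⁻¹ * b⁻¹ : G) : G ⧸ (P : Subgroup G)) = 1 := by
    rw [QuotientGroup.mk_mul, QuotientGroup.mk_mul, QuotientGroup.mk_mul, hcomm (a : G ⧸ _) b,
      QuotientGroup.mk_inv, QuotientGroup.mk_inv]
    group
  exact (QuotientGroup.eq_one_iff _).1 h1

theorem main {G : Type u} [Group G] [Finite G] (m : ℕ)
    (hcd : ∀ χ : IrrCharacter G, charDegree (χ : G → ℂ) = 1 ∨ charDegree (χ : G → ℂ) = m)
    (hm : ∃ χ : IrrCharacter G, charDegree (χ : G → ℂ) = m) (hm1 : m ≠ 1) :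
    (∃ A : Subgroup G, A.Normal ∧ (∀ a ∈ A, ∀ b ∈ A, a * b = b * a) ∧ A.index = m) ∨
    ∃ p e : ℕ, p.Prime ∧ m = p ^ e ∧ ∃ P A : Subgroup G, P.Normal ∧ A.Normal ∧ IsPGroup p P ∧
      (∀ a ∈ A, ∀ b ∈ A, a * b = b * a) ∧ P ⊓ A = ⊥ ∧ P ⊔ A = ⊤ := by
  classical
  cases nonempty_fintype G
  obtain ⟨Q, _, _, f, hab, hcop⟩ := exists_hom' m hcd
  obtain ⟨H, hH⟩ : ∃ H, H = f.ker := ⟨_, rfl⟩
  rw [← hH] at hab hcop
  have hHn : H.Normal := by rw [hH]; infer_instance
  by_cases hB : ∃ κ : H →* ℂˣ, stab H κ ≠ ⊤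
  · obtain ⟨κ, hκ⟩ := hB
    left
    exact ⟨stab H κ, normal_of_commutator_le _ (commutator_le_stab H m hm1 hcd hcop κ),
      stab_comm H m hm1 hcd hab hcop κ hκ, index_stab H m hcd hcop κ hκ⟩
  · push Not at hB
    right
    have hcen : H ≤ Subgroup.center G := by
      intro h hh
      rw [Subgroup.mem_center_iff]
      intro g
      have hx : ((⟨g * h * g⁻¹, hHn.conj_mem h hh g⟩ : H) * (⟨h, hh⟩ : H)⁻¹ : H) = 1 := by
        apply eq_one_of_forall_hom (fun a b => Subtype.ext (hab a a.2 b b.2))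
        intro κ
        have h1 : g ∈ stab H κ := (hB κ) ▸ Subgroup.mem_top g
        rw [mem_stab] at h1
        have h2 := DFunLike.congr_fun h1 ⟨h, hh⟩
        rw [cj_apply] at h2
        rw [map_mul, map_inv, h2, mul_inv_cancel]
      have hx' : g * h * g⁻¹ * h⁻¹ = 1 := congrArg Subtype.val hx
      have : g * h = (g * h * g⁻¹ * h⁻¹) * (h * g) := by group
      rw [this, hx', one_mul]
    have hnil : Group.IsNilpotent G :=
      Subgroup.isNilpotent_of_ker_le_center f (hH ▸ hcen)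
    obtain ⟨χ, hχ⟩ := hm
    have hm0 : m ≠ 0 := by
      rintro rfl
      exact (charDegree_pos_irr χ).ne' hχ
    obtain ⟨p, hp, hpm⟩ := Nat.exists_prime_and_dvd hm1
    haveI : Fact p.Prime := ⟨hp⟩
    obtain ⟨P⟩ : Nonempty (Sylow p G) := inferInstance
    have hPn : (P : Subgroup G).Normal := inferInstance
    have hcP := commutator_le_sylow m hcd p hpm P
    have huniq : ∀ {d : ℕ}, d.Prime → d ∣ m → d = p := by
      intro q hq hqm
      by_contra hne
      haveI : Fact q.Prime := ⟨hq⟩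
      obtain ⟨Qs⟩ : Nonempty (Sylow q G) := inferInstance
      have hQn : (Qs : Subgroup G).Normal := inferInstance
      have hcQ := commutator_le_sylow m hcd q hqm Qs
      have hdis := IsPGroup.disjoint_of_ne q p hne _ _ Qs.isPGroup' P.isPGroup'
      have hbot : commutator G ≤ ⊥ := hdis hcQ hcP
      have hcomm : ∀ a b : G, a * b = b * a := by
        intro a b
        have h1 : a * b * a⁻¹ * b⁻¹ ∈ commutator G :=
          Subgroup.commutator_mem_commutator (Subgroup.mem_top a) (Subgroup.mem_top b)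
        have h2 := Subgroup.mem_bot.1 (hbot h1)
        have : a * b = (a * b * a⁻¹ * b⁻¹) * (b * a) := by group
        rw [this, h2, one_mul]
      have h3 := irr_apply_one_of_comm hcomm χ
      rw [← charDegree_cast_irr, hχ] at h3
      exact hm1 (by exact_mod_cast h3)
    have hme := Nat.eq_prime_pow_of_unique_prime_dvd hm0 huniq
    obtain ⟨N, hNn, hNc, k, hNi⟩ := Cfsg.Agent.S4456.result p hp (by
      intro χ' hχ'
      rw [(hcd χ').resolve_left hχ']
      exact hpm)
    obtain ⟨j, hj⟩ := IsPGroup.iff_card.1 P.isPGroup'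
    have hinf : (P : Subgroup G) ⊓ N = ⊥ := by
      apply Subgroup.inf_eq_bot_of_coprime
      rw [hj]
      exact (Nat.Coprime.pow_right j hNc).symm
    refine ⟨p, _, hp, hme, P, N, hPn, hNn, P.isPGroup', ?_, hinf, ?_⟩
    · intro a ha b hb
      have h1 : a * b * a⁻¹ * b⁻¹ ∈ (P : Subgroup G) ⊓ N :=
        ⟨hcP (Subgroup.commutator_mem_commutator (Subgroup.mem_top a) (Subgroup.mem_top b)),
          N.mul_mem (N.mul_mem (N.mul_mem ha hb) (N.inv_mem ha)) (N.inv_mem hb)⟩
      rw [hinf, Subgroup.mem_bot] at h1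
      have : a * b = (a * b * a⁻¹ * b⁻¹) * (b * a) := by group
      rw [this, h1, one_mul]
    · apply Subgroup.index_eq_one.1
      by_contra hne
      obtain ⟨r, hr, hrd⟩ := Nat.exists_prime_and_dvd hne
      have h1 : r ∣ N.index := hrd.trans (Subgroup.index_dvd_of_le le_sup_right)
      rw [hNi] at h1
      have h2 : r = p := (Nat.prime_dvd_prime_iff_eq hr hp).1 (hr.dvd_of_dvd_pow h1)
      subst h2
      exact P.not_dvd_index (hrd.trans (Subgroup.index_dvd_of_le le_sup_left))

end Cfsg.Agent.Lib.Helper23.TD
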