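import Cfsg.Agent.Lib.Helper23.Homo5

/-! Abelian Sylow subgroup, `|N : C| = 3`: normalising the coherence data. -/

set_option autoImplicit false
set_option linter.unusedSectionVars false

universe u

namespace Cfsg.Agent.Lib.Helper23.FrobN

open Cfsg Cfsg.Agent.CharLib Cfsg.Agent.BlockLib Cfsg.Agent.Lib.Helper10 Cfsg.Agent.Lib.Helper23
  Cfsg.Agent.Lib.Helper23.DualAct
open scoped ComplexConjugate
open Classical

variable {G : Type u} [Group G] [Finite G] {p : ℕ} [Fact p.Prime] {P : Sylow p G}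
  {M : Ideal AlgInt}
variable [Fintype ↥(P : Subgroup G)] [Fintype (↥(P : Subgroup G) →* ℂˣ)] [Fintype (IrrCharacter G)]

namespace Coh

variable (D : Coh P M)

theorem swap (h2 : D.Yf.card = 2) (hd : D.d = D.δ) : ∃ D' : Coh P M, D'.d = 0 := by
  obtain ⟨η₁, η₂, hne, hY⟩ := Finset.card_eq_two.1 h2
  have hmem : ∀ ψ, ψ ≠ 1 → D.ζ ψ = η₁ ∨ D.ζ ψ = η₂ := by
    intro ψ hψ
    have := D.ζ_mem_Yf hψ
    rw [hY] at this
    simpa using this
  obtain ⟨ψ₁, hψ₁, h1⟩ := D.mem_Yf.1 (show η₁ ∈ D.Yf by rw [hY]; simp)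
  obtain ⟨ψ₂, hψ₂, h2'⟩ := D.mem_Yf.1 (show η₂ ∈ D.Yf by rw [hY]; simp)
  have key : ∀ ψa ψb, ψa ≠ 1 → ψb ≠ 1 → (R (autE P) ψa ψb ↔ D.ζ ψa = D.ζ ψb) :=
    fun a b ha hb => (D.hinj a b ha hb).symm
  refine ⟨⟨D.c, 0, -D.δ, fun ψ => if D.ζ ψ = η₁ then η₂ else η₁, D.hc, ?_, ?_, ?_, ?_, ?_⟩, rfl⟩
  · rcases D.hδ with h | h <;> rw [h] <;> simp
  · intro ψ hψ
    split_ifs
    · rw [← h2']; exact D.hζ ψ₂ hψ₂
    · rw [← h1]; exact D.hζ ψ₁ hψ₁
  · intro ψ ψ' hψ hψ'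
    rw [← D.hinj ψ ψ' hψ hψ']
    rcases hmem ψ hψ with h | h <;> rcases hmem ψ' hψ' with h' | h' <;> rw [h, h'] <;>
      simp [hne, hne.symm]
  · intro ψ ψ' hψ hψ'
    rcases hmem ψ' hψ' with h' | h'
    · rw [if_pos h', ← h2', D.hval ψ ψ₂ hψ hψ₂, hd]
      rcases hmem ψ hψ with h | h
      · rw [if_neg (by rw [key _ _ hψ₂ hψ, h2', h]; exact hne.symm),
          if_pos (by rw [key _ _ hψ' hψ, h', h])]
        ring
      · rw [if_pos (by rw [key _ _ hψ₂ hψ, h2', h]),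
          if_neg (by rw [key _ _ hψ' hψ, h', h]; exact hne)]
        ring
    · rw [if_neg (by rw [h']; exact hne.symm), ← h1, D.hval ψ ψ₁ hψ hψ₁, hd]
      rcases hmem ψ hψ with h | h
      · rw [if_pos (by rw [key _ _ hψ₁ hψ, h1, h]),
          if_neg (by rw [key _ _ hψ' hψ, h', h]; exact hne.symm)]
        ring
      · rw [if_neg (by rw [key _ _ hψ₁ hψ, h1, h]; exact hne),
          if_pos (by rw [key _ _ hψ' hψ, h', h])]
        ring
  · intro χ hχ hne'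
    apply D.hconst χ hχ
    intro ψ hψ h
    rcases hmem ψ hψ with h' | h'
    · have := hne' ψ₂ hψ₂
      rw [if_neg (by rw [h2']; exact hne.symm)] at this
      exact this (h'.symm.trans h)
    · have := hne' ψ₁ hψ₁
      rw [if_pos h1] at this
      exact this (h'.symm.trans h)

end Coh

theorem exists_coh_d_zero (hM : IsPModular p M) (hab : IsMulCommutative P) (hfrob : Frob P)
    (hm3 : Nat.card (autE P) = 3) (hq : 4 < Nat.card P) : ∃ D : Coh P M, D.d = 0 := by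
  have hp : p.Prime := Fact.out
  have hmq : Nat.card (autE P) + 1 < Nat.card P := by omega
  obtain ⟨D⟩ := nonempty_coh (M := M) P hM hab hfrob hmq
  by_cases hd : D.d = 0
  · exact ⟨D, hd⟩
  obtain ⟨ψ₀, hψ₀⟩ := exists_ne_one P hab (by omega)
  have hr := D.card_Yf hab hfrob
  rw [hm3] at hr
  have hr2 := D.two_le_card_Yf hab hfrob hmq
  have hnorm := D.norm_eq hM hab hfrob hψ₀
  have ht' := D.triv_mem_Xf hM hab hfrob hmq
  rw [← Finset.add_sum_erase _ _ ht', D.c_triv hψ₀, hm3] at hnorm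
  have hS : 0 ≤ ∑ χ ∈ D.Xf.erase (trivIrr G), D.c χ ψ₀ ^ 2 :=
    Finset.sum_nonneg (fun χ _ => sq_nonneg _)
  have hr2' : (2 : ℤ) ≤ (D.Yf.card : ℤ) := by exact_mod_cast hr2
  push_cast at hnorm
  have hd1 : 1 ≤ D.d ^ 2 := by
    have : 0 < D.d ^ 2 := by positivity
    omega
  have hdδ : D.d = D.δ := by
    have h3 : D.d ^ 2 ≤ 3 := by nlinarith [sq_nonneg (D.d - D.δ)]
    have h4 : D.d = 1 ∨ D.d = -1 := by
      have h5 : -1 ≤ D.d := by nlinarith
      have h6 : D.d ≤ 1 := by nlinarith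
      omega
    rcases D.hδ with h | h <;> rcases h4 with h' | h'
    · rw [h, h']
    · exfalso; rw [h, h'] at hnorm; nlinarith
    · exfalso; rw [h, h'] at hnorm; nlinarith
    · rw [h, h']
  have hδ2 := D.δ_sq
  rw [hdδ, sub_self, hδ2] at hnorm
  have hr4 : D.Yf.card ≤ 4 := by
    have : (D.Yf.card : ℤ) ≤ 4 := by linarith
    exact_mod_cast this
  have hcases : D.Yf.card = 2 ∨ D.Yf.card = 3 ∨ D.Yf.card = 4 := by omega
  rcases hcases with h | h | h
  · exact D.swap h hdδ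
  · exfalso
    obtain ⟨n, hn⟩ := IsPGroup.iff_card.1 P.2
    have hq10 : Nat.card P = 10 := by omega
    have hn' : p ^ n = 10 := by rw [← hn]; exact hq10
    have h2 : p = 2 := ((Nat.prime_dvd_prime_iff_eq Nat.prime_two hp).1
      (Nat.prime_two.dvd_of_dvd_pow (by rw [hn']; norm_num))).symm
    have h5 : p = 5 := ((Nat.prime_dvd_prime_iff_eq Nat.prime_five hp).1
      (Nat.prime_five.dvd_of_dvd_pow (by rw [hn']; norm_num))).symm
    omega
  · exfalso
    rw [h] at hnorm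
    have hS0 : ∑ χ ∈ D.Xf.erase (trivIrr G), D.c χ ψ₀ ^ 2 = 0 := by
      push_cast at hnorm
      linarith
    have hE : D.Xf.erase (trivIrr G) = ∅ := by
      apply Finset.eq_empty_of_forall_notMem
      intro χ hχ
      have h1 : D.c χ ψ₀ ^ 2 ≤ 0 := by
        rw [← hS0]
        exact Finset.single_le_sum (f := fun χ => D.c χ ψ₀ ^ 2) (fun χ _ => sq_nonneg _) hχ
      have h2 := D.c_ne_zero hM hab (by omega) (Finset.mem_erase.1 hχ).2 hψ₀
      have : 0 < D.c χ ψ₀ ^ 2 := by positivity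
      omega
    have hrel := D.rel_regular hM hψ₀ (D.ζ_mem_Yf hψ₀) (g := 1)
      (by rw [orderOf_one]; exact hp.one_lt.ne' ∘ Nat.dvd_one.1)
    rw [← Finset.add_sum_erase _ _ ht', hE, Finset.sum_empty, D.c_triv hψ₀, h, hdδ,
      ← charDegree_cast_irr] at hrel
    have h1 : ((trivIrr G : IrrCharacter G) : G → ℂ) 1 = 1 := rfl
    rw [h1] at hrel
    have h2 : (4 * D.δ - D.δ) * (charDegree (D.ζ ψ₀ : G → ℂ) : ℤ) + 1 = 0 := by
      have : (((4 * D.δ - D.δ) * (charDegree (D.ζ ψ₀ : G → ℂ) : ℤ) + 1 : ℤ) : ℂ) = 0 := by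
        rw [← hrel]
        push_cast
        ring
      exact_mod_cast this
    rcases D.hδ with h3 | h3 <;> rw [h3] at h2 <;> omega

end Cfsg.Agent.Lib.Helper23.FrobN
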