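import Cfsg.Agent.Lib.Helper23.Tri1

/-! Abelian Sylow subgroup, `|N : C| = 3`: the non-exceptional characters. -/

set_option autoImplicit false
set_option linter.unusedSectionVars false

universe u

namespace Cfsg.Agent.Lib.Helper23.FrobN

open Cfsg Cfsg.Agent.CharLib Cfsg.Agent.BlockLib Cfsg.Agent.Lib.Helper10 Cfsg.Agent.Lib.Helper23
  Cfsg.Agent.Lib.Helper23.DualAct
open scoped ComplexConjugate
open Classical

section

variable {G : Type u} [Group G] [Finite G] {p : ℕ} [Fact p.Prime] {P : Sylow p G}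
  {M : Ideal AlgInt}
variable [Fintype ↥(P : Subgroup G)] [Fintype (↥(P : Subgroup G) →* ℂˣ)] [Fintype (IrrCharacter G)]

namespace Coh

variable (D : Coh P M)

theorem X_struct (hd : D.d = 0) (hM : IsPModular p M) (hab : IsMulCommutative P) (hfrob : Frob P)
    (hm3 : Nat.card (autE P) = 3) (hq : 4 < Nat.card P) {ψ₀ : ↥(P : Subgroup G) →* ℂˣ}
    (hψ₀ : ψ₀ ≠ 1) :
    ∃ χ₂ χ₃ : IrrCharacter G, χ₂ ≠ χ₃ ∧ χ₂ ≠ trivIrr G ∧ χ₃ ≠ trivIrr G ∧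
      (∀ χ, χ ∈ D.Xf ↔ χ = trivIrr G ∨ χ = χ₂ ∨ χ = χ₃) ∧
      (D.c χ₂ ψ₀ = 1 ∨ D.c χ₂ ψ₀ = -1) ∧ (D.c χ₃ ψ₀ = 1 ∨ D.c χ₃ ψ₀ = -1) := by
  have hmq : Nat.card (autE P) + 1 < Nat.card P := by omega
  have hnorm := D.norm_eq hM hab hfrob hψ₀
  have ht' := D.triv_mem_Xf hM hab hfrob hmq
  rw [← Finset.add_sum_erase _ _ ht', D.c_triv hψ₀, hm3, hd] at hnorm
  have hS2 : ∑ χ ∈ D.Xf.erase (trivIrr G), D.c χ ψ₀ ^ 2 = 2 := by
    have := D.δ_sq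
    push_cast at hnorm
    nlinarith
  have hc1 : ∀ χ ∈ D.Xf.erase (trivIrr G), D.c χ ψ₀ = 1 ∨ D.c χ ψ₀ = -1 := by
    intro χ hχ
    have h1 : D.c χ ψ₀ ^ 2 ≤ 2 := by
      rw [← hS2]
      exact Finset.single_le_sum (f := fun χ => D.c χ ψ₀ ^ 2) (fun χ _ => sq_nonneg _) hχ
    have h2 := D.c_ne_zero hM hab (by omega) (Finset.mem_erase.1 hχ).2 hψ₀
    have h3 : -1 ≤ D.c χ ψ₀ := by nlinarith
    have h4 : D.c χ ψ₀ ≤ 1 := by nlinarith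
    omega
  have hcard : (D.Xf.erase (trivIrr G)).card = 2 := by
    have h1 : ∑ χ ∈ D.Xf.erase (trivIrr G), D.c χ ψ₀ ^ 2 = ∑ χ ∈ D.Xf.erase (trivIrr G), 1 :=
      Finset.sum_congr rfl (fun χ hχ => by rcases hc1 χ hχ with h | h <;> rw [h] <;> norm_num)
    rw [hS2] at h1
    simp only [Finset.sum_const, nsmul_eq_mul, mul_one] at h1
    exact_mod_cast h1.symm
  obtain ⟨χ₂, χ₃, hne, hX⟩ := Finset.card_eq_two.1 hcard
  have h2 : χ₂ ∈ D.Xf.erase (trivIrr G) := by rw [hX]; simp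
  have h3 : χ₃ ∈ D.Xf.erase (trivIrr G) := by rw [hX]; simp
  refine ⟨χ₂, χ₃, hne, (Finset.mem_erase.1 h2).1, (Finset.mem_erase.1 h3).1, ?_, hc1 χ₂ h2,
    hc1 χ₃ h3⟩
  intro χ
  constructor
  · intro hχ
    by_cases h : χ = trivIrr G
    · exact Or.inl h
    · right
      have : χ ∈ D.Xf.erase (trivIrr G) := Finset.mem_erase.2 ⟨h, hχ⟩
      rw [hX] at this
      simpa using this
  · rintro (h | h | h)
    · rw [h]; exact ht'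
    · rw [h]; exact (Finset.mem_erase.1 h2).2
    · rw [h]; exact (Finset.mem_erase.1 h3).2

theorem sum_Xf_three {A : Type*} [AddCommMonoid A] {χ₂ χ₃ : IrrCharacter G} (h23 : χ₂ ≠ χ₃)
    (h2 : χ₂ ≠ trivIrr G)
    (h3 : χ₃ ≠ trivIrr G) (hX : ∀ χ, χ ∈ D.Xf ↔ χ = trivIrr G ∨ χ = χ₂ ∨ χ = χ₃)
    (F : IrrCharacter G → A) :
    ∑ χ ∈ D.Xf, F χ = F (trivIrr G) + (F χ₂ + F χ₃) := by
  have : D.Xf = {trivIrr G, χ₂, χ₃} := by
    ext χ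
    rw [hX]
    simp
  rw [this, Finset.sum_insert (by simp [h2.symm, h3.symm]), Finset.sum_pair h23]

theorem card_Xf_three {χ₂ χ₃ : IrrCharacter G} (h23 : χ₂ ≠ χ₃)
    (h2 : χ₂ ≠ trivIrr G)
    (h3 : χ₃ ≠ trivIrr G) (hX : ∀ χ, χ ∈ D.Xf ↔ χ = trivIrr G ∨ χ = χ₂ ∨ χ = χ₃) :
    D.Xf.card = 3 := by
  rw [Finset.card_eq_sum_ones, D.sum_Xf_three h23 h2 h3 hX]
  norm_num

end Coh

end

variable {G : Type u} [Group G] [Fintype G] {p : ℕ} [Fact p.Prime] {P : Sylow p G}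
  {M : Ideal AlgInt}
variable [Fintype ↥(P : Subgroup G)] [Fintype (↥(P : Subgroup G) →* ℂˣ)]

namespace Coh

variable (D : Coh P M)

theorem sum_Yf_apply (hd : D.d = 0) (hab : IsMulCommutative P) (hfrob : Frob P)
    {z : ↥(P : Subgroup G)} (hz : z ≠ 1) : ∑ η ∈ D.Yf, (η : G → ℂ) z = - (D.δ : ℂ) := by
  have e2 := D.sum_Yf_eq hab hfrob (fun η => (η : G → ℂ) z)
  have e3 : ∀ ψ ∈ Finset.univ.filter (fun ψ : ↥(P : Subgroup G) →* ℂˣ => ψ ≠ 1),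
      (D.ζ ψ : G → ℂ) z =
        (D.δ : ℂ) * ∑ σ : autE P, (ψ ((σ.1⁻¹ : MulAut ↥(P : Subgroup G)) z) : ℂ) := by
    intro ψ hψ
    rw [D.value_Y' hab hfrob (Finset.mem_filter.1 hψ).2 hz, hd]
    push_cast
    ring
  rw [Finset.sum_congr rfl e3, ← Finset.mul_sum, Finset.sum_comm] at e2
  have e4 : ∀ σ : autE P, ∑ ψ ∈ Finset.univ.filter (fun ψ : ↥(P : Subgroup G) →* ℂˣ => ψ ≠ 1),
      (ψ ((σ.1⁻¹ : MulAut ↥(P : Subgroup G)) z) : ℂ) = -1 := fun σ =>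
    Coh.sum_ne_one_apply hab (fun h => hz ((map_eq_one_iff _ (MulEquiv.injective _)).1 h))
  simp only [e4, Finset.sum_const, Finset.card_univ, nsmul_eq_mul,
    ← Nat.card_eq_fintype_card] at e2
  have hm : (Nat.card (autE P) : ℂ) ≠ 0 := by exact_mod_cast Nat.card_pos.ne'
  apply mul_left_cancel₀ hm
  rw [← e2]
  ring

end Coh

end Cfsg.Agent.Lib.Helper23.FrobN
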