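import Cfsg.Agent.Lib.Helper23.Tri2

/-! Products of two involutions and the principal block, general prime. -/

set_option autoImplicit false
set_option linter.unusedSectionVars false

universe u

namespace Cfsg.Agent.Lib.Helper23.Homo

open Cfsg Cfsg.Agent.CharLib Cfsg.Agent.BlockLib Cfsg.Agent.Lib.Helper10 Cfsg.Agent.Lib.Helper23
  Cfsg.Agent.Lib.Helper23.DualAct Cfsg.Agent.Lib.Helper23.FrobN
open scoped ComplexConjugate
open Classical

variable {G : Type u} [Group G] [Fintype G] {p : ℕ} [Fact p.Prime] {P : Sylow p G}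
  {M : Ideal AlgInt}

/-- Burnside's fusion lemma -/
theorem fusion (hab : IsMulCommutative P) {x y : G} (hx : x ∈ (P : Subgroup G))
    (hy : y ∈ (P : Subgroup G)) (h : IsConj x y) : ∃ σ ∈ autE P, σ ⟨x, hx⟩ = ⟨y, hy⟩ := by
  obtain ⟨g, hg⟩ := isConj_iff.1 h
  obtain ⟨n, hn, hn'⟩ := P.conj_eq_normalizer_conj_of_mem x g⁻¹ hx (by rw [inv_inv, hg]; exact hy)
  rw [inv_inv, hg] at hn'
  refine ⟨(P : Subgroup G).normalizerMonoidHom ⟨n⁻¹, inv_mem hn⟩, ⟨_, rfl⟩, ?_⟩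
  apply Subtype.ext
  show n⁻¹ * x * n⁻¹⁻¹ = y
  rw [inv_inv, hn']

/-- an element of `P` whose square is not `1` is not real -/
theorem not_real' (hab : IsMulCommutative P) (hfrob : Frob P) (hodd : Odd (Nat.card (autE P)))
    {z : G} (hz : z ∈ (P : Subgroup G)) (hz2 : z ^ 2 ≠ 1) (a : G) : a * z * a⁻¹ ≠ z⁻¹ := by
  intro h
  obtain ⟨σ, hσ, h3'⟩ := fusion hab hz (inv_mem hz) (isConj_iff.2 ⟨a, h⟩)
  have hoσ : Odd (orderOf σ) := by
    have h2 : orderOf σ ∣ Nat.card (autE P) := by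
      have := orderOf_dvd_natCard (⟨σ, hσ⟩ : autE P)
      rwa [Subgroup.orderOf_mk] at this
    exact hodd.of_dvd_nat h2
  have h3 : σ ⟨z, hz⟩ = (⟨z, hz⟩ : ↥(P : Subgroup G))⁻¹ := h3'
  have h4 : σ (σ ⟨z, hz⟩) = ⟨z, hz⟩ := by rw [h3, map_inv, h3, inv_inv]
  have h5 := fix_of_sq_fix hoσ h4
  rw [h3] at h5
  apply hz2
  have h6 : z⁻¹ = z := congrArg Subtype.val h5
  rw [pow_two]
  nth_rewrite 1 [← h6]
  exact inv_mul_cancel z

theorem sum_structure' (hM : IsPModular p M) {t z : G} (hz : z ∈ (P : Subgroup G))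
    (hvan : ∀ u z' : G, IsPPart p u z' → IsConj z z' → theta t u = 0) :
    ∑ χ ∈ (Bf M : Finset (IrrCharacter G)),
      conj ((χ : G → ℂ) t) ^ 2 * (χ : G → ℂ) z / (χ : G → ℂ) 1 = 0 := by
  have hk : ∃ k : ℕ, orderOf z = p ^ k := by
    obtain ⟨k, hk⟩ := IsPGroup.iff_orderOf.1 P.2 ⟨z, hz⟩
    exact ⟨k, by rw [← hk, Subgroup.orderOf_mk]⟩
  have hpb : IsPBlock M (principalBlock M G) := ⟨trivIrr G, rfl⟩
  have h1 := (Cfsg.Agent.S0925.result p M hM).1 (theta t) (theta_class t) z hk hvan _ hpb z z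
    (isPPart_self P hz) (IsConj.refl z)
  rw [Cfsg.Agent.H6.BlockSection.blockPart_eq_filter] at h1
  simp only [classInner_theta] at h1
  have hg : (Nat.card G : ℂ)⁻¹ ≠ 0 := inv_ne_zero (by exact_mod_cast Nat.card_pos.ne')
  have hs := sum_ind_ne_zero t
  have h2 : ∑ χ ∈ (Bf M : Finset (IrrCharacter G)),
      conj ((χ : G → ℂ) t) ^ 2 * (χ : G → ℂ) z / (χ : G → ℂ) 1 =
      ((Nat.card G : ℂ)⁻¹ * (∑ a, ind t a) ^ 2)⁻¹ * ∑ χ ∈ (Bf M : Finset (IrrCharacter G)),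
        (Nat.card G : ℂ)⁻¹ * (((∑ a, ind t a) * conj ((χ : G → ℂ) t)) ^ 2 / (χ : G → ℂ) 1) *
          (χ : G → ℂ) z := by
    rw [Finset.mul_sum]
    apply Finset.sum_congr rfl
    intro χ _
    field_simp
  rw [h2]
  have h3 : ∑ χ ∈ (Bf M : Finset (IrrCharacter G)),
        (Nat.card G : ℂ)⁻¹ * (((∑ a, ind t a) * conj ((χ : G → ℂ) t)) ^ 2 / (χ : G → ℂ) 1) *
          (χ : G → ℂ) z = 0 := by
    rw [← h1]
    rfl
  rw [h3, mul_zero]

/-- vanishing of `theta` on the section of a non-real element -/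
theorem theta_vanish_of_sq_ne (hab : IsMulCommutative P) (hfrob : Frob P)
    (hodd : Odd (Nat.card (autE P))) {t z : G} (ht : t ^ 2 = 1) (hz : z ∈ (P : Subgroup G))
    (hz2 : z ^ 2 ≠ 1) : ∀ u z' : G, IsPPart p u z' → IsConj z z' → theta t u = 0 := by
  have hp : p.Prime := Fact.out
  obtain ⟨e, he⟩ := Cfsg.Agent.H6.exists_pPart_exp G hp
  intro u z' hu hc
  by_contra hne
  obtain ⟨a, ha⟩ := exists_inverting ht hne
  have h1 : z' = u ^ e := (he u).2 z' hu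
  have h2 : a * z' * a⁻¹ = z'⁻¹ := by
    rw [h1, ← conj_zpow, ha, inv_zpow]
  obtain ⟨g, rfl⟩ := isConj_iff.1 hc
  apply not_real' hab hfrob hodd hz hz2 (g⁻¹ * a * g)
  have h3 : g⁻¹ * a * g * z * (g⁻¹ * a * g)⁻¹ = g⁻¹ * (a * (g * z * g⁻¹) * a⁻¹) * g := by group
  rw [h3, h2]
  group

end Cfsg.Agent.Lib.Helper23.Homo
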