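import Cfsg.Agent.Lib.Helper23.Tri3
import Cfsg.Agent.S0944

/-! Abelian Sylow subgroup, `|N : C| = 3`: the case of an odd prime. -/

set_option autoImplicit false
set_option linter.unusedSectionVars false

universe u

namespace Cfsg.Agent.Lib.Helper23.Homo

open Cfsg Cfsg.Agent.CharLib Cfsg.Agent.BlockLib Cfsg.Agent.Lib.Helper10 Cfsg.Agent.Lib.Helper23
  Cfsg.Agent.Lib.Helper23.DualAct Cfsg.Agent.Lib.Helper23.FrobN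
open scoped ComplexConjugate
open Classical

theorem tri_key {w₁ w₂ w₃ h₁ h₂ h₃ : ℚ} (E0 : 1 + w₁ + w₂ + w₃ = 0)
    (E1 : w₁ * h₁ + w₂ * h₂ + w₃ * h₃ = 0) (E2 : w₁ * h₁ ^ 2 + w₂ * h₂ ^ 2 + w₃ * h₃ ^ 2 = 0) :
    w₂ * w₃ * (h₂ - h₃) ^ 2 = w₁ * h₁ ^ 2 := by
  linear_combination (w₂ * h₂ ^ 2 + w₃ * h₃ ^ 2) * E0 - (1 + w₁) * E2 -
    (w₁ * h₁ + w₂ * h₂ + w₃ * h₃ - 2 * w₁ * h₁) * E1

theorem tri_arith {a₂ a₃ e : ℤ} {f₂ f₃ f : ℕ} {x₂ x₃ x : ℤ}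
    (ha₂ : a₂ = 1 ∨ a₂ = -1) (ha₃ : a₃ = 1 ∨ a₃ = -1) (he : e = 1 ∨ e = -1)
    (hf₂ : 0 < f₂) (hf₃ : 0 < f₃) (hf : 0 < f)
    (R1 : 1 + a₂ * f₂ + a₃ * f₃ + e * f = 0)
    (R2 : 1 + a₂ * x₂ + a₃ * x₃ + e * x = 0)
    (R3 : (1 : ℚ) + a₂ * x₂ ^ 2 / f₂ + a₃ * x₃ ^ 2 / f₃ + e * x ^ 2 / f = 0)
    (hne : x₂ ≠ f₂) :
    a₂ * a₃ * e = 1 ∧ IsSquare (f * (f₂ * f₃)) := by
  have hf₂' : (f₂ : ℚ) ≠ 0 := by exact_mod_cast hf₂.ne'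
  have hf₃' : (f₃ : ℚ) ≠ 0 := by exact_mod_cast hf₃.ne'
  have hf' : (f : ℚ) ≠ 0 := by exact_mod_cast hf.ne'
  have R1q : (1 : ℚ) + a₂ * f₂ + a₃ * f₃ + e * f = 0 := by exact_mod_cast R1
  have R2q : (1 : ℚ) + a₂ * x₂ + a₃ * x₃ + e * x = 0 := by exact_mod_cast R2
  obtain ⟨w₁, hw₁⟩ : ∃ w : ℚ, w = a₂ * f₂ := ⟨_, rfl⟩
  obtain ⟨w₂, hw₂⟩ : ∃ w : ℚ, w = a₃ * f₃ := ⟨_, rfl⟩
  obtain ⟨w₃, hw₃⟩ : ∃ w : ℚ, w = e * f := ⟨_, rfl⟩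
  obtain ⟨h₁, hh₁⟩ : ∃ h : ℚ, h = 1 - x₂ / f₂ := ⟨_, rfl⟩
  obtain ⟨h₂, hh₂⟩ : ∃ h : ℚ, h = 1 - x₃ / f₃ := ⟨_, rfl⟩
  obtain ⟨h₃, hh₃⟩ : ∃ h : ℚ, h = 1 - x / f := ⟨_, rfl⟩
  have e1 : w₁ * h₁ = a₂ * f₂ - a₂ * x₂ := by rw [hw₁, hh₁]; field_simp
  have e2 : w₂ * h₂ = a₃ * f₃ - a₃ * x₃ := by rw [hw₂, hh₂]; field_simp
  have e3 : w₃ * h₃ = e * f - e * x := by rw [hw₃, hh₃]; field_simp
  have e1' : w₁ * h₁ ^ 2 = a₂ * f₂ - 2 * (a₂ * x₂) + a₂ * x₂ ^ 2 / f₂ := by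
    rw [hw₁, hh₁]; field_simp; ring
  have e2' : w₂ * h₂ ^ 2 = a₃ * f₃ - 2 * (a₃ * x₃) + a₃ * x₃ ^ 2 / f₃ := by
    rw [hw₂, hh₂]; field_simp; ring
  have e3' : w₃ * h₃ ^ 2 = e * f - 2 * (e * x) + e * x ^ 2 / f := by
    rw [hw₃, hh₃]; field_simp; ring
  have E0 : 1 + w₁ + w₂ + w₃ = 0 := by rw [hw₁, hw₂, hw₃]; exact R1q
  have E1 : w₁ * h₁ + w₂ * h₂ + w₃ * h₃ = 0 := by linear_combination e1 + e2 + e3 + R1q - R2q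
  have E2 : w₁ * h₁ ^ 2 + w₂ * h₂ ^ 2 + w₃ * h₃ ^ 2 = 0 := by
    linear_combination e1' + e2' + e3' + R1q - 2 * R2q + R3
  have key := tri_key E0 E1 E2
  have key2 : w₁ * w₂ * w₃ * (h₂ - h₃) ^ 2 = (w₁ * h₁) ^ 2 := by linear_combination w₁ * key
  have hne0 : w₁ * h₁ ≠ 0 := by
    rw [e1]
    have h1 : (a₂ : ℚ) ≠ 0 := by
      rcases ha₂ with h | h <;> rw [h] <;> norm_num
    have h2 : (f₂ : ℚ) - x₂ ≠ 0 := by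
      intro h
      apply hne
      have : (x₂ : ℚ) = ((f₂ : ℤ) : ℚ) := by push_cast; linarith
      exact_mod_cast this
    have : (a₂ : ℚ) * f₂ - a₂ * x₂ = a₂ * (f₂ - x₂) := by ring
    rw [this]
    exact mul_ne_zero h1 h2
  have hpos2 : 0 < (w₁ * h₁) ^ 2 := by positivity
  have hpos : 0 < w₁ * w₂ * w₃ := by
    by_contra hcon
    push Not at hcon
    have := mul_nonpos_of_nonpos_of_nonneg hcon (sq_nonneg (h₂ - h₃))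
    linarith
  have hprod : w₁ * w₂ * w₃ = ((a₂ * a₃ * e : ℤ) : ℚ) * ((f * (f₂ * f₃) : ℕ) : ℚ) := by
    rw [hw₁, hw₂, hw₃]; push_cast; ring
  have hN : (0 : ℚ) < ((f * (f₂ * f₃) : ℕ) : ℚ) := by
    have : 0 < f * (f₂ * f₃) := by positivity
    exact_mod_cast this
  have hsign : a₂ * a₃ * e = 1 := by
    have h1 : a₂ * a₃ * e = 1 ∨ a₂ * a₃ * e = -1 := by
      rcases ha₂ with h | h <;> rcases ha₃ with h' | h' <;> rcases he with h'' | h'' <;>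
        rw [h, h', h''] <;> norm_num
    rcases h1 with h | h
    · exact h
    · exfalso
      rw [hprod, h] at hpos
      push_cast at hpos hN
      linarith
  refine ⟨hsign, ?_⟩
  rw [← Rat.isSquare_natCast_iff]
  have hd : h₂ - h₃ ≠ 0 := by
    intro h
    rw [h] at key2
    apply hne0
    have : (w₁ * h₁) ^ 2 = 0 := by rw [← key2]; ring
    exact pow_eq_zero_iff (two_ne_zero) |>.1 this
  refine ⟨w₁ * h₁ / (h₂ - h₃), ?_⟩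
  rw [hprod, hsign] at key2
  field_simp
  push_cast at key2 ⊢
  linear_combination key2

variable {G : Type u} [Group G] [Fintype G] {p : ℕ} [Fact p.Prime] {P : Sylow p G}
  {M : Ideal AlgInt}
variable [Fintype ↥(P : Subgroup G)] [Fintype (↥(P : Subgroup G) →* ℂˣ)]

theorem odd_case (D : Coh P M) (hd : D.d = 0) (hM : IsPModular p M) (hab : IsMulCommutative P)
    (hfrob : Frob P) (hm3 : Nat.card (autE P) = 3) (hq : 4 < Nat.card P) (hp2 : p ≠ 2)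
    {ψ₀ : ↥(P : Subgroup G) →* ℂˣ} (hψ₀ : ψ₀ ≠ 1) {χ₂ χ₃ : IrrCharacter G} (h23 : χ₂ ≠ χ₃)
    (h2 : χ₂ ≠ trivIrr G) (h3 : χ₃ ≠ trivIrr G)
    (hX : ∀ χ, χ ∈ D.Xf ↔ χ = trivIrr G ∨ χ = χ₂ ∨ χ = χ₃)
    (hc2 : D.c χ₂ ψ₀ = 1 ∨ D.c χ₂ ψ₀ = -1) (hc3 : D.c χ₃ ψ₀ = 1 ∨ D.c χ₃ ψ₀ = -1)
    {t : G} (ht : orderOf t = 2) (hK : ∀ K : Subgroup G, K.Normal → t ∈ K → K = ⊤) :
    ((D.c χ₂ ψ₀ = 1 ∧ D.c χ₃ ψ₀ = -1 ∧ D.δ = 1) ∨ (D.c χ₂ ψ₀ = -1 ∧ D.c χ₃ ψ₀ = 1 ∧ D.δ = 1) ∨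
      (D.c χ₂ ψ₀ = -1 ∧ D.c χ₃ ψ₀ = -1 ∧ D.δ = -1)) ∧
      IsSquare (charDegree (D.ζ ψ₀ : G → ℂ) *
        (charDegree (χ₂ : G → ℂ) * charDegree (χ₃ : G → ℂ))) := by
  have hp : p.Prime := Fact.out
  have hreg1 : ¬ p ∣ orderOf (1 : G) := Coh.not_dvd_orderOf_one
  have hregt : ¬ p ∣ orderOf t := by
    rw [ht]
    intro h
    exact hp2 ((Nat.prime_dvd_prime_iff_eq hp Nat.prime_two).1 h)
  obtain ⟨x₂, hx₂, -⟩ := Cfsg.Agent.S0944.result χ₂ t ht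
  obtain ⟨x₃, hx₃, -⟩ := Cfsg.Agent.S0944.result χ₃ t ht
  obtain ⟨x, hx, -⟩ := Cfsg.Agent.S0944.result (D.ζ ψ₀) t ht
  have hrel : ∀ g, ¬ p ∣ orderOf g → (1 : ℂ) + (D.c χ₂ ψ₀ : ℂ) * (χ₂ : G → ℂ) g +
      (D.c χ₃ ψ₀ : ℂ) * (χ₃ : G → ℂ) g + ((-D.δ : ℤ) : ℂ) * (D.ζ ψ₀ : G → ℂ) g = 0 := by
    intro g hg
    have := D.rel_regular hM hψ₀ (D.ζ_mem_Yf hψ₀) hg
    rw [D.sum_Xf_three h23 h2 h3 hX, D.c_triv hψ₀, hd] at this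
    have h1 : ((trivIrr G : IrrCharacter G) : G → ℂ) g = 1 := rfl
    rw [h1] at this
    push_cast at this ⊢
    linear_combination this
  have R1 : 1 + D.c χ₂ ψ₀ * (charDegree (χ₂ : G → ℂ) : ℤ) +
      D.c χ₃ ψ₀ * (charDegree (χ₃ : G → ℂ) : ℤ) +
      (-D.δ) * (charDegree (D.ζ ψ₀ : G → ℂ) : ℤ) = 0 := by
    have := hrel 1 hreg1
    simp only [← charDegree_cast_irr] at this
    exact_mod_cast this
  have R2 : 1 + D.c χ₂ ψ₀ * x₂ + D.c χ₃ ψ₀ * x₃ + (-D.δ) * x = 0 := by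
    have := hrel t hregt
    rw [hx₂, hx₃, hx] at this
    exact_mod_cast this
  obtain ⟨z, hz⟩ := exists_ne_one_mem (P := P) (by omega)
  have ht2 : t ^ 2 = 1 := by rw [← ht]; exact pow_orderOf_eq_one t
  have hz2 : (z : G) ^ 2 ≠ 1 := by
    intro h
    obtain ⟨k, hk⟩ := IsPGroup.iff_orderOf.1 P.2 z
    have h1 : orderOf z ∣ 2 := by
      rw [← Subgroup.orderOf_coe]
      exact orderOf_dvd_of_pow_eq_one h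
    rcases Nat.eq_zero_or_pos k with rfl | hk0
    · rw [pow_zero, orderOf_eq_one_iff] at hk
      exact hz hk
    · rw [hk] at h1
      exact hp2 ((Nat.prime_dvd_prime_iff_eq hp Nat.prime_two).1
        ((dvd_pow_self p hk0.ne').trans h1))
  have hvan := theta_vanish_of_sq_ne hab hfrob (by rw [hm3]; decide) ht2 z.2 hz2
  have hstr := sum_structure' (M := M) hM z.2 hvan
  rw [D.sum_Bf_eq, D.sum_Xf_three h23 h2 h3 hX] at hstr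
  have hY : ∑ η ∈ D.Yf, conj ((η : G → ℂ) t) ^ 2 * (η : G → ℂ) z / (η : G → ℂ) 1 =
      (x : ℂ) ^ 2 / (charDegree (D.ζ ψ₀ : G → ℂ) : ℂ) * (- (D.δ : ℂ)) := by
    have e1 : ∀ η ∈ D.Yf, conj ((η : G → ℂ) t) ^ 2 * (η : G → ℂ) z / (η : G → ℂ) 1 =
        (x : ℂ) ^ 2 / (charDegree (D.ζ ψ₀ : G → ℂ) : ℂ) * (η : G → ℂ) z := by
      intro η hη
      rw [D.agree hM hη (D.ζ_mem_Yf hψ₀) hregt, D.agree hM hη (D.ζ_mem_Yf hψ₀) hreg1, hx,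
        ← charDegree_cast_irr, map_intCast]
      ring
    rw [Finset.sum_congr rfl e1, ← Finset.mul_sum, D.sum_Yf_apply hd hab hfrob hz]
  have htriv : conj (((trivIrr G : IrrCharacter G) : G → ℂ) t) ^ 2 *
      ((trivIrr G : IrrCharacter G) : G → ℂ) z / ((trivIrr G : IrrCharacter G) : G → ℂ) 1 = 1 := by
    simp [trivIrr]
  rw [htriv, hY, hx₂, hx₃, D.value_X hab ((hX χ₂).2 (Or.inr (Or.inl rfl))) hψ₀ hz,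
    D.value_X hab ((hX χ₃).2 (Or.inr (Or.inr rfl))) hψ₀ hz, ← charDegree_cast_irr χ₂,
    ← charDegree_cast_irr χ₃, map_intCast, map_intCast] at hstr
  have R3 : (1 : ℚ) + (D.c χ₂ ψ₀ : ℚ) * (x₂ : ℚ) ^ 2 / (charDegree (χ₂ : G → ℂ) : ℚ) +
      (D.c χ₃ ψ₀ : ℚ) * (x₃ : ℚ) ^ 2 / (charDegree (χ₃ : G → ℂ) : ℚ) +
      ((-D.δ : ℤ) : ℚ) * (x : ℚ) ^ 2 / (charDegree (D.ζ ψ₀ : G → ℂ) : ℚ) = 0 := by
    have : (((1 : ℚ) + (D.c χ₂ ψ₀ : ℚ) * (x₂ : ℚ) ^ 2 / (charDegree (χ₂ : G → ℂ) : ℚ) +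
      (D.c χ₃ ψ₀ : ℚ) * (x₃ : ℚ) ^ 2 / (charDegree (χ₃ : G → ℂ) : ℚ) +
      ((-D.δ : ℤ) : ℚ) * (x : ℚ) ^ 2 / (charDegree (D.ζ ψ₀ : G → ℂ) : ℚ) : ℚ) : ℂ) = 0 := by
      rw [← hstr]
      push_cast
      ring
    exact_mod_cast this
  have hne : x₂ ≠ (charDegree (χ₂ : G → ℂ) : ℤ) := by
    intro h
    apply h2
    apply Subtype.ext
    apply Cfsg.Agent.H25.eq_one_of_kerSub_eq_top χ₂
    apply hK _ inferInstance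
    rw [Cfsg.Agent.H25.mem_kerSub, hx₂, h, ← charDegree_cast_irr]
    push_cast
    rfl
  have he : -D.δ = 1 ∨ -D.δ = -1 := by
    rcases D.hδ with h | h <;> rw [h] <;> simp
  obtain ⟨hs, hsq⟩ := tri_arith hc2 hc3 he (charDegree_pos_irr χ₂) (charDegree_pos_irr χ₃)
    (charDegree_pos_irr (D.ζ ψ₀)) R1 R2 R3 hne
  refine ⟨?_, hsq⟩
  have p2 : (0 : ℤ) < (charDegree (χ₂ : G → ℂ) : ℤ) := by exact_mod_cast charDegree_pos_irr χ₂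
  have p3 : (0 : ℤ) < (charDegree (χ₃ : G → ℂ) : ℤ) := by exact_mod_cast charDegree_pos_irr χ₃
  have p1 : (0 : ℤ) < (charDegree (D.ζ ψ₀ : G → ℂ) : ℤ) := by
    exact_mod_cast charDegree_pos_irr (D.ζ ψ₀)
  rcases hc2 with a | a <;> rcases hc3 with b | b <;> rcases D.hδ with c | c <;>
    rw [a, b, c] at hs R1 <;> simp only [a, b, c] <;> first | (exfalso; omega) | simp

end Cfsg.Agent.Lib.Helper23.Homo
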