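import Cfsg.Agent.Lib.Helper23.Tri3

/-! Products of two conjugates of an involution, abelian Sylow `2`-subgroups. -/

set_option autoImplicit false
set_option linter.unusedSectionVars false

universe u

namespace Cfsg.Agent.Lib.Helper23.Homo

open Cfsg Cfsg.Agent.CharLib Cfsg.Agent.BlockLib Cfsg.Agent.Lib.Helper10 Cfsg.Agent.Lib.Helper23
  Cfsg.Agent.Lib.Helper23.DualAct Cfsg.Agent.Lib.Helper23.FrobN
open scoped ComplexConjugate
open Classical

variable {G : Type u} [Group G] [Fintype G]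

theorem exists_factor {t u : G} (ht : t ^ 2 = 1) (h : theta t u ≠ 0) :
    ∃ a : G, IsConj t a ∧ IsConj t (a * u) ∧ a * a = 1 ∧ a * u * a⁻¹ = u⁻¹ := by
  unfold theta at h
  obtain ⟨a, -, ha⟩ := Finset.exists_ne_zero_of_sum_ne_zero h
  have h1 : IsConj t a := by
    by_contra hc
    apply ha
    rw [ind, if_neg hc, zero_mul]
  have h2 : IsConj t (a⁻¹ * u) := by
    by_contra hc
    apply ha
    rw [ind, ind, if_neg hc, mul_zero]
  have hsq : ∀ b, IsConj t b → b ^ 2 = 1 := by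
    intro b hb
    obtain ⟨c, rfl⟩ := isConj_iff.1 hb
    rw [conj_pow, ht]
    group
  have h3 := hsq a h1
  have h4 := hsq _ h2
  have h5 : a⁻¹ = a := by
    rw [inv_eq_iff_mul_eq_one, ← pow_two, h3]
  rw [h5] at h4 h2
  refine ⟨a, h1, h2, by rw [← pow_two, h3], ?_⟩
  rw [h5]
  rw [pow_two] at h4
  rw [eq_inv_iff_mul_eq_one]
  calc a * u * a * u = a * u * (a * u) := by group
    _ = 1 := h4

variable [Fact (Nat.Prime 2)] {P : Sylow 2 G}

theorem exists_conj_mem (hab : IsMulCommutative P) {z a : G} (hz : z ∈ (P : Subgroup G))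
    (ha : a * a = 1) (hc : a * z = z * a) :
    ∃ c : G, c * z * c⁻¹ = z ∧ c * a * c⁻¹ ∈ (P : Subgroup G) := by
  have hle := le_centralizer_singleton P hab hz
  obtain ⟨H, hH⟩ : ∃ H, H = Subgroup.centralizer ({z} : Set G) := ⟨_, rfl⟩
  rw [← hH] at hle
  let Q : Sylow 2 H := P.subtype hle
  have hQ : (Q : Subgroup H) = (P : Subgroup G).subgroupOf H := Sylow.coe_subtype ..
  have haH : a ∈ H := by
    rw [hH]
    exact Subgroup.mem_centralizer_singleton_iff.2 hc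
  have hpg : IsPGroup 2 (Subgroup.zpowers (⟨a, haH⟩ : H)) := by
    have h1 : orderOf (⟨a, haH⟩ : H) ∣ 2 ^ 1 := by
      apply orderOf_dvd_of_pow_eq_one
      apply Subtype.ext
      rw [pow_one, pow_two]
      exact ha
    obtain ⟨k, -, hk⟩ := (Nat.dvd_prime_pow Nat.prime_two).1 h1
    exact IsPGroup.of_card (n := k) (by rw [Nat.card_zpowers, hk])
  obtain ⟨Q', hQ'⟩ := hpg.exists_le_sylow
  obtain ⟨c, hc'⟩ := MulAction.exists_smul_eq H Q' Q
  refine ⟨c, ?_, ?_⟩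
  · have h1 : (c : G) ∈ Subgroup.centralizer ({z} : Set G) := by rw [← hH]; exact c.2
    rw [Subgroup.mem_centralizer_singleton_iff] at h1
    rw [h1, mul_inv_cancel_right]
  · have h1 : (⟨a, haH⟩ : H) ∈ (Q' : Subgroup H) := hQ' (Subgroup.mem_zpowers _)
    have h2 : c * ⟨a, haH⟩ * c⁻¹ ∈ ((c • Q' : Sylow 2 H) : Subgroup H) := by
      rw [mem_sylow_smul]
      have : c⁻¹ * (c * ⟨a, haH⟩ * c⁻¹) * c = (⟨a, haH⟩ : H) := by group
      rw [this]
      exact h1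
    rw [hc', hQ, Subgroup.mem_subgroupOf] at h2
    exact h2

theorem mem_prod_of_theta_ne_zero (hab : IsMulCommutative P) {t z : G} (ht : t ^ 2 = 1)
    (htP : t ∈ (P : Subgroup G)) (hz : z ∈ (P : Subgroup G)) (hz2 : z ^ 2 = 1)
    {u : G} (hu : IsPPart 2 u z) (hne : theta t u ≠ 0) :
    ∃ σ ∈ autE P, ∃ τ ∈ autE P, (⟨z, hz⟩ : ↥(P : Subgroup G)) = σ ⟨t, htP⟩ * τ ⟨t, htP⟩ := by
  obtain ⟨e, he⟩ := Cfsg.Agent.H6.exists_pPart_exp G Nat.prime_two
  have hze : z = u ^ e := (he u).2 z hu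
  obtain ⟨v, huv, hcomm, -, hv⟩ := hu
  obtain ⟨a, hta, htau, haa, hau⟩ := exists_factor ht hne
  have hzz : z * z = 1 := by rw [← pow_two, hz2]
  have hzinv : z⁻¹ = z := by rw [inv_eq_iff_mul_eq_one, hzz]
  have haz : a * z * a⁻¹ = z⁻¹ := by
    rw [hze, ← conj_zpow, hau, inv_zpow]
  have haz' : a * z = z * a := by
    rw [hzinv, mul_inv_eq_iff_eq_mul] at haz
    exact haz
  have hvz : v = z * u := by
    rw [← huv, ← mul_assoc, hzz, one_mul]
  have huz : u * z = v := by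
    rw [← huv, mul_assoc, ← hcomm.eq, ← mul_assoc, hzz, one_mul]
  have hav : a * v * a⁻¹ = v⁻¹ := by
    calc a * v * a⁻¹ = a * (z * u) * a⁻¹ := by rw [← hvz]
      _ = (a * z * a⁻¹) * (a * u * a⁻¹) := by group
      _ = z⁻¹ * u⁻¹ := by rw [haz, hau]
      _ = (u * z)⁻¹ := by group
      _ = v⁻¹ := by rw [huz]
  obtain ⟨k, hk⟩ : ∃ k, 2 * k = orderOf v + 1 := by
    refine ⟨(orderOf v + 1) / 2, ?_⟩
    omega
  obtain ⟨w, hw⟩ : ∃ w, w = v ^ k := ⟨_, rfl⟩
  have hw2 : w * w = v := by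
    rw [hw, ← pow_add, ← two_mul, hk, pow_succ, pow_orderOf_eq_one, one_mul]
  have haw : a * w * a⁻¹ = w⁻¹ := by rw [hw, ← conj_pow, hav, inv_pow]
  have haw' : a * w = w⁻¹ * a := by
    rw [mul_inv_eq_iff_eq_mul] at haw
    exact haw
  have hzw : z * w = w * z := by rw [hw]; exact (hcomm.pow_right k).eq
  have hconj : IsConj (a * z) (a * u) := by
    rw [isConj_iff]
    refine ⟨w⁻¹, ?_⟩
    calc w⁻¹ * (a * z) * w⁻¹⁻¹ = (w⁻¹ * a) * (z * w) := by group
      _ = (a * w) * (w * z) := by rw [← haw', hzw]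
      _ = a * (w * w) * z := by group
      _ = a * (v * z) := by rw [hw2, mul_assoc]
      _ = a * u := by rw [← hcomm.eq, huv]
  have htaz : IsConj t (a * z) := htau.trans hconj.symm
  obtain ⟨c, hcz, hca⟩ := exists_conj_mem hab hz haa haz'
  have hs1 : IsConj t (c * a * c⁻¹) := hta.trans (isConj_iff.2 ⟨c, rfl⟩)
  have hsz : c * a * c⁻¹ * z = c * (a * z) * c⁻¹ := by
    nth_rewrite 1 [← hcz]
    group
  have hs2 : IsConj t (c * a * c⁻¹ * z) := by
    rw [hsz]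
    exact htaz.trans (isConj_iff.2 ⟨c, rfl⟩)
  obtain ⟨σ, hσ, hσt⟩ := fusion hab htP hca hs1
  obtain ⟨τ, hτ, hτt⟩ := fusion hab htP (mul_mem hca hz) hs2
  refine ⟨σ, hσ, τ, hτ, ?_⟩
  rw [hσt, hτt]
  apply Subtype.ext
  show z = c * a * c⁻¹ * (c * a * c⁻¹ * z)
  have : c * a * c⁻¹ * (c * a * c⁻¹ * z) = c * (a * a) * c⁻¹ * z := by group
  rw [this, haa]
  group

theorem theta_vanish_two (hab : IsMulCommutative P) (hfrob : Frob P)
    (hodd : Odd (Nat.card (autE P))) {t z : G} (ht : t ^ 2 = 1) (htP : t ∈ (P : Subgroup G))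
    (hz : z ∈ (P : Subgroup G))
    (hnot : ∀ σ ∈ autE P, ∀ τ ∈ autE P,
      (⟨z, hz⟩ : ↥(P : Subgroup G)) ≠ σ ⟨t, htP⟩ * τ ⟨t, htP⟩) :
    ∀ u z' : G, IsPPart 2 u z' → IsConj z z' → theta t u = 0 := by
  by_cases hz2 : z ^ 2 = 1
  · intro u z' hu hc
    by_contra hne
    obtain ⟨g, rfl⟩ := isConj_iff.1 hc
    have hu' : IsPPart 2 (g⁻¹ * u * g) z := by
      have := Cfsg.Agent.S0925.isPPart_conj hu g⁻¹
      rw [inv_inv] at this
      have h1 : g⁻¹ * (g * z * g⁻¹) * g = z := by group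
      rwa [h1] at this
    have hne' : theta t (g⁻¹ * u * g) ≠ 0 := by
      have := theta_class t u g⁻¹
      rw [inv_inv] at this
      rwa [this]
    obtain ⟨σ, hσ, τ, hτ, h⟩ := mem_prod_of_theta_ne_zero hab ht htP hz hz2 hu' hne'
    exact hnot σ hσ τ hτ h
  · exact theta_vanish_of_sq_ne hab hfrob hodd ht hz hz2

end Cfsg.Agent.Lib.Helper23.Homo
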