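import Cfsg.Agent.Lib.Helper23.Tri6

/-! Abelian Sylow `2`-subgroups with `|N : C| = 3`: every involution lies in a proper normal
subgroup. -/

set_option autoImplicit false
set_option linter.unusedSectionVars false

universe u

namespace Cfsg.Agent.Lib.Helper23.Homo

open Cfsg Cfsg.Agent.CharLib Cfsg.Agent.BlockLib Cfsg.Agent.Lib.Helper10 Cfsg.Agent.Lib.Helper23
  Cfsg.Agent.Lib.Helper23.DualAct Cfsg.Agent.Lib.Helper23.FrobN
open scoped ComplexConjugate
open Classical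

variable {G : Type u} [Group G] [Fintype G] [Fact (Nat.Prime 2)] {P : Sylow 2 G}
  {M : Ideal AlgInt}
variable [Fintype ↥(P : Subgroup G)] [Fintype (↥(P : Subgroup G) →* ℂˣ)]

theorem two_case (hM : IsPModular 2 M) (hab : IsMulCommutative P) (hfrob : Frob P)
    (hm3 : Nat.card (autE P) = 3) (hq : 4 < Nat.card P) {t₀ : G} (ht₀ : orderOf t₀ = 2)
    (hK : ∀ K : Subgroup G, K.Normal → t₀ ∈ K → K = ⊤) : False := by
  have hW := comm_of_isMulCommutative P hab
  have hmq : Nat.card (autE P) + 1 < Nat.card P := by omega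
  obtain ⟨D⟩ := nonempty_coh (M := M) P hM hab hfrob hmq
  have hr := D.card_Yf hab hfrob
  rw [hm3] at hr
  obtain ⟨n, hn⟩ := IsPGroup.iff_card.1 P.2
  have hn' : Nat.card P = 2 ^ n := hn
  have h16 : 16 ≤ Nat.card P := by
    rw [hn'] at hr hq ⊢
    by_cases h4 : 4 ≤ n
    · calc 16 = 2 ^ 4 := by norm_num
        _ ≤ 2 ^ n := Nat.pow_le_pow_right (by norm_num) h4
    · exfalso
      have : n = 0 ∨ n = 1 ∨ n = 2 ∨ n = 3 := by omega
      rcases this with h | h | h | h <;> rw [h] at hr hq <;> omega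
  -- an involution of `P`
  obtain ⟨t, ht⟩ := exists_prime_orderOf_dvd_card' (G := ↥(P : Subgroup G)) 2 (by
    rw [hn]
    exact dvd_pow_self 2 (by rintro rfl; rw [hn'] at hq; omega))
  have ht1 : t ≠ 1 := by
    rintro rfl
    rw [orderOf_one] at ht
    omega
  have ht2 : t ^ 2 = 1 := by
    have := pow_orderOf_eq_one t
    rwa [ht] at this
  have htt : ∀ σ : MulAut ↥(P : Subgroup G), σ t * σ t = 1 := by
    intro σ
    rw [← map_mul, ← pow_two, ht2, map_one]
  -- an element outside `(Et)(Et)`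
  obtain ⟨z, hz⟩ : ∃ z : ↥(P : Subgroup G), ∀ σ ∈ autE P, ∀ τ ∈ autE P, z ≠ σ t * τ t := by
    by_contra hcon
    push Not at hcon
    have h1 : (Finset.univ : Finset ↥(P : Subgroup G)) ⊆
        (Finset.univ : Finset (autE P × autE P)).image (fun x => x.1.1 t * x.2.1 t) := by
      intro z _
      obtain ⟨σ, hσ, τ, hτ, h⟩ := hcon z
      exact Finset.mem_image.2 ⟨(⟨σ, hσ⟩, ⟨τ, hτ⟩), Finset.mem_univ _, h.symm⟩
    have h2 := (Finset.card_le_card h1).trans Finset.card_image_le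
    rw [Finset.card_univ, Finset.card_univ, Fintype.card_prod, ← Nat.card_eq_fintype_card,
      ← Nat.card_eq_fintype_card, hm3] at h2
    have h3 : Nat.card ↥(P : Subgroup G) = Nat.card P := rfl
    omega
  have hz1 : z ≠ 1 := by
    intro h
    apply hz 1 (one_mem _) 1 (one_mem _)
    rw [h, htt]
  have htr : ∀ σ τ ρ : autE P, (σ.1⁻¹ : MulAut ↥(P : Subgroup G)) t *
      (τ.1⁻¹ : MulAut ↥(P : Subgroup G)) t * (ρ.1⁻¹ : MulAut ↥(P : Subgroup G)) z ≠ 1 := by
    intro σ τ ρ h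
    apply hz (ρ.1 * σ.1⁻¹) (mul_mem ρ.2 (inv_mem σ.2)) (ρ.1 * τ.1⁻¹) (mul_mem ρ.2 (inv_mem τ.2))
    have h1 := congrArg ρ.1 h
    rw [map_mul, map_mul, MulAut.apply_inv_self, map_one] at h1
    rw [MulAut.mul_apply, MulAut.mul_apply]
    obtain ⟨A, hA⟩ : ∃ A, A = ρ.1 ((σ.1⁻¹ : MulAut ↥(P : Subgroup G)) t) := ⟨_, rfl⟩
    obtain ⟨B, hB⟩ : ∃ B, B = ρ.1 ((τ.1⁻¹ : MulAut ↥(P : Subgroup G)) t) := ⟨_, rfl⟩
    have hAA : A * A = 1 := by
      rw [hA, ← MulAut.mul_apply]; exact htt _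
    have hBB : B * B = 1 := by
      rw [hB, ← MulAut.mul_apply]; exact htt _
    rw [← hA, ← hB] at h1 ⊢
    calc z = (A * A) * (B * B) * z := by rw [hAA, hBB, one_mul, one_mul]
      _ = A * B * (A * B * z) := by
        rw [show A * B * (A * B * z) = A * (B * A) * B * z by group, hW B A]
        group
      _ = A * B := by rw [h1, mul_one]
  have hvan := theta_vanish_two hab hfrob (by rw [hm3]; decide) (t := (t : G)) (z := (z : G))
    (by exact_mod_cast congrArg Subtype.val ht2) t.2 z.2 hz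
  have hstr := sum_structure' (M := M) hM z.2 hvan
  obtain ⟨χ, hχ1, hχ⟩ := exists_kernel_char' hM hab hfrob hm3 h16 ht1 ht2 hz1 htr hstr
  obtain ⟨L, hL⟩ : ∃ L, L = Cfsg.Agent.H25.kerSub χ := ⟨_, rfl⟩
  have hLn : L.Normal := by rw [hL]; infer_instance
  have hPL : (P : Subgroup G) ≤ L := by
    intro y hy
    rw [hL, Cfsg.Agent.H25.mem_kerSub]
    exact apply_eq_of_mult_eq_zero P hab (isCharacter_of_irr χ.2) hχ ⟨y, hy⟩
  have hLtop : L ≠ ⊤ := by
    intro h
    apply hχ1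
    apply Subtype.ext
    rw [hL] at h
    exact Cfsg.Agent.H25.eq_one_of_kerSub_eq_top χ h
  apply hLtop
  apply hK L hLn
  have hpg : IsPGroup 2 (Subgroup.zpowers t₀) :=
    IsPGroup.of_card (n := 1) (by rw [Nat.card_zpowers, ht₀, pow_one])
  obtain ⟨Q', hQ'⟩ := hpg.exists_le_sylow
  obtain ⟨c, hc'⟩ := MulAction.exists_smul_eq G P Q'
  have h1 : t₀ ∈ (Q' : Subgroup G) := hQ' (Subgroup.mem_zpowers _)
  rw [← hc', mem_sylow_smul] at h1
  have h2 := hLn.conj_mem _ (hPL h1) c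
  have h3 : c * (c⁻¹ * t₀ * c) * c⁻¹ = t₀ := by group
  rwa [h3] at h2

end Cfsg.Agent.Lib.Helper23.Homo
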